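/-
Three anticommuting traceless `2 × 2` matrices with prescribed squares: a model of a ternary diagonal quadratic form
inside the traceless matrices, reflections becoming conjugations.
-/
import Mathlib

set_option autoImplicit false
set_option linter.unusedSectionVars false
set_option linter.unusedSimpArgs false
set_option linter.unusedVariables false

namespace Cfsg.Agent.Lib.Classical.Frame

open Matrix

variable {F : Type*} [Field F]

/-- Shorthand. -/
abbrev M2 (F : Type*) [Field F] := Matrix (Fin 2) (Fin 2) F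

/-- A Clifford triple. -/
structure Cl (κ σ₁ σ₂ σ₃ μ : F) (B₁ B₂ B₃ : M2 F) : Prop where
  sq₁ : B₁ * B₁ = (-(κ * σ₁)) • (1 : M2 F)
  sq₂ : B₂ * B₂ = (-(κ * σ₂)) • (1 : M2 F)
  sq₃ : B₃ * B₃ = (-(κ * σ₃)) • (1 : M2 F)
  ac₁₂ : B₁ * B₂ = - (B₂ * B₁)
  ac₁₃ : B₁ * B₃ = - (B₃ * B₁)
  ac₂₃ : B₂ * B₃ = - (B₃ * B₂)
  tr₁ : B₁.trace = 0
  tr₂ : B₂.trace = 0
  tr₃ : B₃.trace = 0
  prod : B₃ = μ • (B₁ * B₂)
  hμ : μ ≠ 0

theorem exists_cl [Fintype F] (h2 : (2 : F) ≠ 0) {σ₁ σ₂ σ₃ : F} (h₁ : σ₁ ≠ 0) (h₂ : σ₂ ≠ 0) (h₃ : σ₃ ≠ 0) :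
    ∃ B₁ B₂ B₃ : M2 F, Cl (σ₁ * σ₂ * σ₃) σ₁ σ₂ σ₃ (σ₁ * σ₂)⁻¹ B₁ B₂ B₃ := by
  classical
  set κ := σ₁ * σ₂ * σ₃ with hκ
  have hκ0 : κ ≠ 0 := mul_ne_zero (mul_ne_zero h₁ h₂) h₃
  set u := -(κ * σ₁) with hu
  set v := -(κ * σ₂) with hv
  have hu0 : u ≠ 0 := neg_ne_zero.2 (mul_ne_zero hκ0 h₁)
  have hodd : Fintype.card F % 2 = 1 := by
    have hne : ringChar F ≠ 2 := by
      intro h
      apply h2
      have : CharP F 2 := ringChar.of_eq h
      exact CharTwo.two_eq_zero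
    exact FiniteField.odd_card_of_char_ne_two hne
  let P : Polynomial F := Polynomial.X ^ 2
  let R : Polynomial F := Polynomial.C (-u) * Polynomial.X ^ 2 + Polynomial.C (-v)
  have hP : P.degree = 2 := Polynomial.degree_X_pow 2
  have hR : R.degree = 2 := by
    have h1 : (Polynomial.C (-u) * Polynomial.X ^ 2 : Polynomial F).degree = 2 :=
      Polynomial.degree_C_mul_X_pow 2 (neg_ne_zero.2 hu0)
    rw [Polynomial.degree_add_C (by rw [h1]; norm_num)]
    exact h1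
  obtain ⟨α, β, h⟩ := FiniteField.exists_root_sum_quadratic hP hR hodd
  simp only [P, R, Polynomial.eval_add, Polynomial.eval_mul, Polynomial.eval_C, Polynomial.eval_pow,
    Polynomial.eval_X] at h
  have hαβ : α ^ 2 - u * β ^ 2 = v := by linear_combination h
  let B₁ : M2 F := !![0, 1; u, 0]
  let B₂ : M2 F := !![α, β; -(u * β), -α]
  have h12 : B₁ * B₂ = !![-(u * β), -α; u * α, u * β] := by
    ext i j
    fin_cases i <;> fin_cases j <;> simp [B₁, B₂, Matrix.mul_apply, Fin.sum_univ_two]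
  have h21 : B₂ * B₁ = !![u * β, α; -(u * α), -(u * β)] := by
    ext i j
    fin_cases i <;> fin_cases j <;> simp [B₁, B₂, Matrix.mul_apply, Fin.sum_univ_two, mul_comm]
  have hs1 : B₁ * B₁ = u • (1 : M2 F) := by
    ext i j
    fin_cases i <;> fin_cases j <;> simp [B₁, Matrix.mul_apply, Fin.sum_univ_two]
  have hs2 : B₂ * B₂ = v • (1 : M2 F) := by
    ext i j
    fin_cases i <;> fin_cases j <;> simp [B₂, Matrix.mul_apply, Fin.sum_univ_two] <;>
      first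
        | linear_combination hαβ
        | ring
  have hanti : B₁ * B₂ = -(B₂ * B₁) := by
    rw [h12, h21]
    ext i j
    fin_cases i <;> fin_cases j <;> simp
  set μ := (σ₁ * σ₂)⁻¹ with hμ
  have hμ0 : μ ≠ 0 := inv_ne_zero (mul_ne_zero h₁ h₂)
  have hμ1 : μ * (σ₁ * σ₂) = 1 := inv_mul_cancel₀ (mul_ne_zero h₁ h₂)
  refine ⟨B₁, B₂, μ • (B₁ * B₂), ?_⟩
  refine ⟨hs1, hs2, ?_, hanti, ?_, ?_, ?_, ?_, ?_, rfl, hμ0⟩
  · have h3 : (B₁ * B₂) * (B₁ * B₂) = (-(u * v)) • (1 : M2 F) := by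
      calc (B₁ * B₂) * (B₁ * B₂) = B₁ * (B₂ * B₁) * B₂ := by noncomm_ring
        _ = -((B₁ * B₁) * (B₂ * B₂)) := by
          have : B₂ * B₁ = -(B₁ * B₂) := by rw [hanti, neg_neg]
          rw [this]
          noncomm_ring
        _ = _ := by
          rw [hs1, hs2, smul_mul_assoc, mul_smul_comm, one_mul, smul_smul, neg_smul]
    rw [smul_mul_assoc, mul_smul_comm, h3, smul_smul, smul_smul]
    congr 1
    rw [hu, hv]
    have h5 : μ * μ * (κ * σ₁ * (κ * σ₂)) = κ * σ₃ := by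
      rw [hκ]
      have : μ * μ * (σ₁ * σ₂ * σ₃ * σ₁ * (σ₁ * σ₂ * σ₃ * σ₂)) = (μ * (σ₁ * σ₂)) * (μ * (σ₁ * σ₂)) * (σ₁ * σ₂ * σ₃) * σ₃ := by
        ring
      rw [this, hμ1]
      ring
    linear_combination -h5
  · rw [mul_smul_comm, smul_mul_assoc, ← mul_assoc, hs1, smul_mul_assoc, one_mul]
    have : B₁ * B₂ * B₁ = -(B₁ * (B₁ * B₂)) := by
      rw [mul_assoc, show B₂ * B₁ = -(B₁ * B₂) by rw [hanti, neg_neg]]
      noncomm_ring
    rw [this, ← mul_assoc, hs1, smul_mul_assoc, one_mul]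
    simp
  · rw [mul_smul_comm, smul_mul_assoc, mul_assoc, hs2, mul_smul_comm, mul_one]
    have : B₂ * (B₁ * B₂) = -(B₁ * (B₂ * B₂)) := by
      rw [← mul_assoc, show B₂ * B₁ = -(B₁ * B₂) by rw [hanti, neg_neg]]
      noncomm_ring
    rw [this, hs2, mul_smul_comm, mul_one]
    simp
  · simp [B₁, Matrix.trace_fin_two]
  · simp [B₂, Matrix.trace_fin_two]
  · rw [Matrix.trace_smul, h12]
    simp [Matrix.trace_fin_two]

variable {κ σ₁ σ₂ σ₃ μ : F} {B₁ B₂ B₃ : M2 F}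

namespace Cl

variable (C : Cl κ σ₁ σ₂ σ₃ μ B₁ B₂ B₃)
include C

/-- The map from coordinates to matrices. -/
def psi (_C : Cl κ σ₁ σ₂ σ₃ μ B₁ B₂ B₃) (a b c : F) : M2 F := a • B₁ + b • B₂ + c • B₃

theorem psi_def (a b c : F) : C.psi a b c = a • B₁ + b • B₂ + c • B₃ := rfl

theorem trace_psi (a b c : F) : (C.psi a b c).trace = 0 := by
  simp [psi_def, Matrix.trace_add, Matrix.trace_smul, C.tr₁, C.tr₂, C.tr₃]

/-- The polarised square. -/
theorem anti (a b c x y z : F) :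
    C.psi a b c * C.psi x y z + C.psi x y z * C.psi a b c =
      (-(2 * κ * (σ₁ * a * x + σ₂ * b * y + σ₃ * c * z))) • (1 : M2 F) := by
  have h21 : B₂ * B₁ = -(B₁ * B₂) := by rw [C.ac₁₂, neg_neg]
  have h31 : B₃ * B₁ = -(B₁ * B₃) := by rw [C.ac₁₃, neg_neg]
  have h32 : B₃ * B₂ = -(B₂ * B₃) := by rw [C.ac₂₃, neg_neg]
  simp only [psi_def, add_mul, mul_add, smul_mul_assoc, mul_smul_comm, C.sq₁, C.sq₂, C.sq₃, h21, h31, h32]
  module

theorem sq_psi (a b c : F) (h2 : (2 : F) ≠ 0) :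
    C.psi a b c * C.psi a b c = (-(κ * (σ₁ * a * a + σ₂ * b * b + σ₃ * c * c))) • (1 : M2 F) := by
  have h := C.anti a b c a b c
  have h3 : (2 : F) • (C.psi a b c * C.psi a b c) =
      (2 : F) • ((-(κ * (σ₁ * a * a + σ₂ * b * b + σ₃ * c * c))) • (1 : M2 F)) := by
    rw [two_smul, h, smul_smul]
    congr 1
    ring
  exact smul_right_injective _ h2 h3

/-- Traceless matrices: the determinant is minus the square. -/
theorem det_psi (a b c : F) (h2 : (2 : F) ≠ 0) :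
    (C.psi a b c).det = κ * (σ₁ * a * a + σ₂ * b * b + σ₃ * c * c) := by
  have ht := C.trace_psi a b c
  have hs := C.sq_psi a b c h2
  set X := C.psi a b c with hX
  have h00 := congrFun (congrFun hs 0) 0
  rw [Matrix.trace_fin_two] at ht
  simp only [Matrix.mul_apply, Fin.sum_univ_two, Matrix.smul_apply, Matrix.one_apply_eq, smul_eq_mul, mul_one] at h00
  rw [Matrix.det_fin_two]
  have h5 : X 1 1 = - X 0 0 := by linear_combination ht
  rw [h5] at *
  linear_combination -h00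

/-- `ψ` is injective. -/
theorem psi_inj (h2 : (2 : F) ≠ 0) (hκ : κ ≠ 0) (h₁ : σ₁ ≠ 0) (h₂ : σ₂ ≠ 0) (h₃ : σ₃ ≠ 0) {a b c x y z : F}
    (h : C.psi a b c = C.psi x y z) : a = x ∧ b = y ∧ c = z := by
  have hscal : ∀ l m n : F, (-(2 * κ * (σ₁ * l * a + σ₂ * m * b + σ₃ * n * c))) • (1 : M2 F) =
      (-(2 * κ * (σ₁ * l * x + σ₂ * m * y + σ₃ * n * z))) • (1 : M2 F) := by
    intro l m n
    rw [← C.anti l m n a b c, ← C.anti l m n x y z, h]
  have h1 : ∀ s t : F, s • (1 : M2 F) = t • (1 : M2 F) → s = t := by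
    intro s t hst
    have := congrFun (congrFun hst 0) 0
    simpa using this
  have h2κ : 2 * κ ≠ 0 := mul_ne_zero h2 hκ
  refine ⟨?_, ?_, ?_⟩
  · have := h1 _ _ (hscal 1 0 0)
    have h3 : (2 * κ * σ₁) * (a - x) = 0 := by linear_combination -this
    exact sub_eq_zero.1 ((mul_eq_zero.1 h3).resolve_left (mul_ne_zero h2κ h₁))
  · have := h1 _ _ (hscal 0 1 0)
    have h3 : (2 * κ * σ₂) * (b - y) = 0 := by linear_combination -this
    exact sub_eq_zero.1 ((mul_eq_zero.1 h3).resolve_left (mul_ne_zero h2κ h₂))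
  · have := h1 _ _ (hscal 0 0 1)
    have h3 : (2 * κ * σ₃) * (c - z) = 0 := by linear_combination -this
    exact sub_eq_zero.1 ((mul_eq_zero.1 h3).resolve_left (mul_ne_zero h2κ h₃))

/-- Conjugation is minus the reflection, in the form of an intertwining relation, for a vector of norm one. -/
theorem intertwine {a b c : F} (hq : σ₁ * a * a + σ₂ * b * b + σ₃ * c * c = 1) (h2 : (2 : F) ≠ 0) (x y z : F) :
    C.psi a b c * C.psi x y z =
      C.psi (-(x - 2 * (σ₁ * a * x + σ₂ * b * y + σ₃ * c * z) * a))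
        (-(y - 2 * (σ₁ * a * x + σ₂ * b * y + σ₃ * c * z) * b))
        (-(z - 2 * (σ₁ * a * x + σ₂ * b * y + σ₃ * c * z) * c)) * C.psi a b c := by
  set l := σ₁ * a * x + σ₂ * b * y + σ₃ * c * z with hl
  have h1 : C.psi (-(x - 2 * l * a)) (-(y - 2 * l * b)) (-(z - 2 * l * c)) =
      -C.psi x y z + (2 * l) • C.psi a b c := by
    simp only [psi_def]
    module
  rw [h1, add_mul, neg_mul, smul_mul_assoc, C.sq_psi a b c h2, hq]
  have h3 := C.anti a b c x y z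
  rw [← hl] at h3
  have h4 : C.psi a b c * C.psi x y z =
      (-(2 * κ * l)) • (1 : M2 F) - C.psi x y z * C.psi a b c := by
    rw [← h3]
    abel
  rw [h4, smul_smul, sub_eq_neg_add]
  congr 2
  ring

end Cl

end Cfsg.Agent.Lib.Classical.Frame
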