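/-
Sets of unit vectors in `F^ι` closed under their own reflections: elementary consequences and the arithmetic of
the exceptional values.
-/
import Mathlib

set_option autoImplicit false
set_option linter.unusedSectionVars false
set_option linter.unusedSimpArgs false
set_option linter.unusedVariables false

namespace Cfsg.Agent.Lib.Classical.Frame

open Finset

variable {F ι : Type*} [Field F] [Fintype ι] [DecidableEq ι]

/-- The dot product. -/
def dt (x y : ι → F) : F := ∑ i, x i * y i

lemma dt_comm (x y : ι → F) : dt x y = dt y x := by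
  unfold dt
  exact Finset.sum_congr rfl (fun i _ => mul_comm _ _)

/-- Closed sets of unit vectors. -/
structure Closed (R : Set (ι → F)) : Prop where
  unit : ∀ x ∈ R, dt x x = 1
  basis : ∀ i, (Pi.single i 1 : ι → F) ∈ R
  refl : ∀ a ∈ R, ∀ x ∈ R, x - (2 * dt a x) • a ∈ R
  perm : ∀ σ : Equiv.Perm ι, Equiv.Perm.sign σ = 1 → ∀ x ∈ R, x ∘ σ ∈ R
  root : ∀ u : F, 2 * (u * u) = 1 → ∀ i j : ι, i ≠ j → (Pi.single i u + Pi.single j u : ι → F) ∈ R

/-- The support. -/
noncomputable def supp (x : ι → F) : Finset ι := by
  classical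
  exact univ.filter (fun i => x i ≠ 0)

/-- The weight. -/
noncomputable def wt (x : ι → F) : ℕ := (supp x).card

lemma mem_supp {x : ι → F} {i : ι} : i ∈ supp x ↔ x i ≠ 0 := by
  classical
  simp [supp]

lemma dt_eq_sum_supp (x : ι → F) : dt x x = ∑ i ∈ supp x, x i * x i := by
  unfold dt
  symm
  apply Finset.sum_subset (Finset.subset_univ _)
  intro i _ hi
  have : x i = 0 := by
    by_contra h
    exact hi (mem_supp.2 h)
  rw [this, mul_zero]

/-- Sum of squares over a set of coordinates. -/
def sq (x : ι → F) (J : Finset ι) : F := ∑ i ∈ J, x i * x i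

lemma sq_singleton (x : ι → F) (i : ι) : sq x {i} = x i * x i := by
  simp [sq]

lemma sq_pair (x : ι → F) {i j : ι} (h : i ≠ j) : sq x {i, j} = x i * x i + x j * x j := by
  simp [sq, Finset.sum_pair h]

lemma sq_triple (x : ι → F) {i j k : ι} (h1 : i ≠ j) (h2 : i ≠ k) (h3 : j ≠ k) :
    sq x {i, j, k} = x i * x i + x j * x j + x k * x k := by
  unfold sq
  rw [Finset.sum_insert (by simp [h1, h2]), Finset.sum_pair h3]
  ring

section closed

variable {R : Set (ι → F)} (hR : Closed R)
include hR

lemma Closed.neg_mem {x : ι → F} (hx : x ∈ R) : -x ∈ R := by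
  have h := hR.refl x hx x hx
  rw [hR.unit x hx] at h
  convert h using 1
  ext i
  simp only [Pi.neg_apply, Pi.sub_apply, Pi.smul_apply, smul_eq_mul]
  ring

lemma Closed.flip_one {x : ι → F} (hx : x ∈ R) (i : ι) :
    (fun c => if c = i then - x c else x c) ∈ R := by
  have h := hR.refl _ (hR.basis i) x hx
  have h1 : dt (Pi.single i 1 : ι → F) x = x i := by
    unfold dt
    rw [Finset.sum_eq_single i]
    · simp
    · intro b _ hb
      simp [Pi.single_apply, hb]
    · simp
  rw [h1] at h
  convert h using 1
  ext c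
  simp only [Pi.sub_apply, Pi.smul_apply, smul_eq_mul, Pi.single_apply]
  by_cases hc : c = i
  · subst hc
    simp only [if_true]
    ring
  · simp [hc]

/-- Sign changes on a set of coordinates. -/
lemma Closed.flip_set {x : ι → F} (hx : x ∈ R) (J : Finset ι) :
    (fun c => if c ∈ J then - x c else x c) ∈ R := by
  classical
  induction J using Finset.induction_on with
  | empty => simpa using hx
  | insert i J hi ih =>
    have h := hR.flip_one ih i
    convert h using 1
    ext c
    by_cases hc : c = i
    · subst hc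
      simp [hi]
    · simp [hc]

/-- A vector with two equal coordinates has all its permutations in `R`. -/
lemma Closed.perm_any {x : ι → F} (hx : x ∈ R) {u v : ι} (huv : u ≠ v) (he : x u = x v)
    (σ : Equiv.Perm ι) : x ∘ σ ∈ R := by
  by_cases hs : Equiv.Perm.sign σ = 1
  · exact hR.perm σ hs x hx
  · have h1 : Equiv.Perm.sign σ = -1 := by
      rcases Int.units_eq_one_or (Equiv.Perm.sign σ) with h | h
      · exact absurd h hs
      · exact h
    have h2 : Equiv.Perm.sign (Equiv.swap u v * σ) = 1 := by
      rw [Equiv.Perm.sign_mul, Equiv.Perm.sign_swap huv, h1]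
      rfl
    have h3 := hR.perm _ h2 x hx
    convert h3 using 1
    ext c
    simp only [Function.comp, Equiv.Perm.mul_apply]
    by_cases h4 : σ c = u
    · rw [h4, Equiv.swap_apply_left, he]
    · by_cases h5 : σ c = v
      · rw [h5, Equiv.swap_apply_right, he]
      · rw [Equiv.swap_apply_of_ne_of_ne h4 h5]

end closed

/-- A permutation moving one ordered triple onto another. -/
lemma exists_perm3 {i j k g h f : ι} (h1 : i ≠ j) (h2 : i ≠ k) (h3 : j ≠ k) (h4 : g ≠ h) (h5 : g ≠ f)
    (h6 : h ≠ f) : ∃ σ : Equiv.Perm ι, σ i = g ∧ σ j = h ∧ σ k = f := by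
  let s₁ := Equiv.swap i g
  have e1 : s₁ i = g := Equiv.swap_apply_left _ _
  have e2 : s₁ j ≠ g := by
    intro h'
    have := s₁.injective (h'.trans e1.symm)
    exact h1 this.symm
  have e3 : s₁ k ≠ g := by
    intro h'
    have := s₁.injective (h'.trans e1.symm)
    exact h2 this.symm
  have e4 : s₁ j ≠ s₁ k := fun h' => h3 (s₁.injective h')
  let s₂ := Equiv.swap (s₁ j) h
  have e5 : s₂ (s₁ j) = h := Equiv.swap_apply_left _ _
  have e6 : s₂ g = g := Equiv.swap_apply_of_ne_of_ne e2.symm h4
  have e7 : s₂ (s₁ k) ≠ h := by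
    intro h'
    have := s₂.injective (h'.trans e5.symm)
    exact e4 this.symm
  have e8 : s₂ (s₁ k) ≠ g := by
    intro h'
    have := s₂.injective (h'.trans e6.symm)
    exact e3 this
  let s₃ := Equiv.swap (s₂ (s₁ k)) f
  have e9 : s₃ (s₂ (s₁ k)) = f := Equiv.swap_apply_left _ _
  have e10 : s₃ g = g := Equiv.swap_apply_of_ne_of_ne e8.symm h5
  have e11 : s₃ h = h := Equiv.swap_apply_of_ne_of_ne e7.symm h6
  refine ⟨s₃ * (s₂ * s₁), ?_, ?_, ?_⟩
  · simp only [Equiv.Perm.mul_apply]
    rw [e1, e6, e10]
  · simp only [Equiv.Perm.mul_apply]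
    rw [e5, e11]
  · simp only [Equiv.Perm.mul_apply]
    exact e9

/-- Block vectors. -/
def bv (x : ι → F) (J₀ J₁ : Finset ι) (a b c : F) : ι → F :=
  fun i => (if i ∈ J₀ then a else if i ∈ J₁ then b else c) * x i

lemma dt_bv (x : ι → F) {J₀ J₁ : Finset ι} (hd : Disjoint J₀ J₁) (a b c a' b' c' : F) :
    dt (bv x J₀ J₁ a b c) (bv x J₀ J₁ a' b' c') =
      sq x J₀ * a * a' + sq x J₁ * b * b' + sq x (J₀ ∪ J₁)ᶜ * c * c' := by
  have h1 : sq x J₀ = ∑ i, (if i ∈ J₀ then x i * x i else 0) := by
    unfold sq
    rw [Finset.sum_ite_mem, Finset.univ_inter]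
  have h2 : sq x J₁ = ∑ i, (if i ∈ J₁ then x i * x i else 0) := by
    unfold sq
    rw [Finset.sum_ite_mem, Finset.univ_inter]
  have h3 : sq x (J₀ ∪ J₁)ᶜ = ∑ i, (if i ∈ (J₀ ∪ J₁)ᶜ then x i * x i else 0) := by
    unfold sq
    rw [Finset.sum_ite_mem, Finset.univ_inter]
  rw [h1, h2, h3, Finset.sum_mul, Finset.sum_mul, Finset.sum_mul, Finset.sum_mul, Finset.sum_mul, Finset.sum_mul,
    ← Finset.sum_add_distrib, ← Finset.sum_add_distrib]
  unfold dt bv
  apply Finset.sum_congr rfl
  intro i _
  by_cases h0 : i ∈ J₀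
  · have h4 : i ∉ J₁ := Finset.disjoint_left.1 hd h0
    simp [h0, h4]
    ring
  · by_cases h4 : i ∈ J₁
    · simp [h0, h4]
      ring
    · simp [h0, h4]
      ring

lemma bv_one (x : ι → F) (J₀ J₁ : Finset ι) : bv x J₀ J₁ 1 1 1 = x := by
  ext i
  simp [bv]

lemma sq_total (x : ι → F) {J₀ J₁ : Finset ι} (hd : Disjoint J₀ J₁) :
    dt x x = sq x J₀ + sq x J₁ + sq x (J₀ ∪ J₁)ᶜ := by
  have := dt_bv x hd 1 1 1 1 1 1
  rw [bv_one] at this
  rw [this]
  ring

/-! ### Exceptional values -/

/-- A value not among the exceptions of the three-dimensional closure. -/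
def Good (F : Type*) [Field F] [Fintype F] (s : F) : Prop :=
  4 * s ≠ 1 ∧ 2 * s ≠ 1 ∧ (Fintype.card F ≠ 5 → 16 * s ^ 2 - 12 * s + 1 ≠ 0)

variable [Fintype F]

lemma not_good_iff {s : F} : ¬ Good F s ↔ 4 * s = 1 ∨ 2 * s = 1 ∨ (Fintype.card F ≠ 5 ∧ 16 * s ^ 2 - 12 * s + 1 = 0) := by
  unfold Good
  constructor
  · intro h
    by_contra hc
    push Not at hc
    exact h ⟨hc.1, hc.2.1, hc.2.2⟩
  · rintro (h | h | ⟨h, h'⟩) ⟨a, b, c⟩
    · exact a h
    · exact b h
    · exact c h h'

lemma P5_zero {s : F} (h : 4 * s = 0) (hp : 16 * s ^ 2 - 12 * s + 1 = 0) : False := by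
  have : (1 : F) = 0 := by linear_combination hp - (4 * s - 3) * h
  exact one_ne_zero this

lemma P5_quarter {s : F} (h : 4 * s = 1) (hp : 16 * s ^ 2 - 12 * s + 1 = 0) : False := by
  have : (1 : F) = 0 := by linear_combination -hp + (4 * s - 2) * h
  exact one_ne_zero this

lemma P5_eighth {s : F} (h : 8 * s = 1) (hp : 16 * s ^ 2 - 12 * s + 1 = 0) : False := by
  have : (1 : F) = 0 := by linear_combination -4 * hp + (8 * s - 5) * h
  exact one_ne_zero this

lemma good_three_quarters (h2 : (2 : F) ≠ 0) {s : F} (h : 4 * s = 3) : Good F s := by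
  refine ⟨?_, ?_, ?_⟩
  · intro h'
    apply h2
    linear_combination h' - h
  · intro h'
    have : (1 : F) = 0 := by linear_combination 2 * h' - h
    exact one_ne_zero this
  · intro _ h'
    have : (1 : F) = 0 := by linear_combination h' - (4 * s) * h
    exact one_ne_zero this

lemma good_eighth (h2 : (2 : F) ≠ 0) (h3 : (3 : F) ≠ 0) {s : F} (h : 8 * s = 1) : Good F s := by
  refine ⟨?_, ?_, ?_⟩
  · intro h'
    have : (1 : F) = 0 := by linear_combination h - 2 * h'
    exact one_ne_zero this
  · intro h'
    apply h3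
    linear_combination h - 4 * h'
  · intro _ h'
    exact P5_eighth h h'

lemma good_one (h3 : (3 : F) ≠ 0) (h5 : (5 : F) ≠ 0) : Good F (1 : F) := by
  refine ⟨?_, ?_, ?_⟩
  · intro h'
    apply h3
    linear_combination h'
  · intro h'
    have : (1 : F) = 0 := by linear_combination h'
    exact one_ne_zero this
  · intro _ h'
    apply h5
    linear_combination h'

lemma good_sixteenth (h3 : (3 : F) ≠ 0) (h5 : (5 : F) ≠ 0) (h7 : (7 : F) ≠ 0) {s : F}
    (h : 16 * s = 1) : Good F s := by
  refine ⟨?_, ?_, ?_⟩
  · intro h'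
    apply h3
    linear_combination h - 4 * h'
  · intro h'
    apply h7
    linear_combination h - 8 * h'
  · intro _ h'
    apply h5
    linear_combination 16 * h' - (16 * s - 11) * h

/-- `s = 1/27` at `p = 11`. -/
lemma good_27 (h3 : (3 : F) ≠ 0) (h11 : (11 : F) = 0) {s : F} (h : 27 * s = 1) : Good F s := by
  have h1 : (1 : F) ≠ 0 := one_ne_zero
  refine ⟨?_, ?_, ?_⟩
  · intro h'
    apply h1
    linear_combination 4 * h - 27 * h' - 2 * h11
  · intro h'
    apply h3
    linear_combination 2 * h - 27 * h' - 2 * h11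
  · intro _ h'
    apply h3
    linear_combination 729 * h' - (16 * (27 * s) - 308) * h - 38 * h11

lemma bad_pair (h2 : (2 : F) ≠ 0) {A B : F} (hs : A + B = 1) (hA : 2 * A ≠ 1) :
    Good F A ∨ Good F B := by
  by_contra hcon
  push Not at hcon
  obtain ⟨h1, h3⟩ := hcon
  have hB : B = 1 - A := by linear_combination hs
  subst hB
  have h4 : (4 : F) ≠ 0 := by
    have : (4 : F) = 2 * 2 := by norm_num
    rw [this]
    exact mul_ne_zero h2 h2
  have hA' : 2 * (1 - A) ≠ 1 := by
    intro h
    apply hA
    linear_combination -h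
  rw [not_good_iff] at h1 h3
  rcases h1 with a | a | ⟨-, a⟩
  · rcases h3 with b | b | ⟨-, b⟩
    · apply h2
      linear_combination a + b
    · exact hA' b
    · have e : 4 * (1 - A) = 3 := by linear_combination -a
      have : (1 : F) = 0 := by linear_combination b - (4 * (1 - A)) * e
      exact one_ne_zero this
  · exact hA a
  · rcases h3 with b | b | ⟨-, b⟩
    · have e : 4 * A = 3 := by linear_combination -b
      have : (1 : F) = 0 := by linear_combination a - (4 * A) * e
      exact one_ne_zero this
    · exact hA' b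
    · apply hA
      have : 4 * (2 * A - 1) = 0 := by linear_combination a - b
      have := (mul_eq_zero.1 this).resolve_left h4
      linear_combination this

/-- The pair lemma. -/
lemma bad_sum (h2 : (2 : F) ≠ 0) (h3 : (3 : F) ≠ 0) (h5 : (5 : F) ≠ 0) {A B : F} (hA : ¬ Good F A) (hB : ¬ Good F B) :
    (4 * A = 1 ∧ 4 * B = 1) ∨ (Good F (A + B) ∧ A + B ≠ 0) ∨ ((2 * A = 1 ∨ 2 * B = 1) ∧ (11 : F) = 0) := by
  have h4 : (4 : F) ≠ 0 := by
    have : (4 : F) = 2 * 2 := by norm_num
    rw [this]
    exact mul_ne_zero h2 h2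
  -- the mixed cases
  have mix1 : ∀ {A B : F}, 4 * A = 1 → 16 * B ^ 2 - 12 * B + 1 = 0 → Good F (A + B) ∧ A + B ≠ 0 := by
    intro A B a b
    refine ⟨⟨?_, ?_, ?_⟩, ?_⟩
    · intro h
      exact P5_zero (s := B) (by linear_combination h - a) b
    · intro h
      exact P5_quarter (s := B) (by linear_combination 2 * h - a) b
    · intro _ h
      apply P5_quarter (s := B) _ b
      have : 2 * (4 * B - 1) = 0 := by
        linear_combination h - b - (2 * (4 * B) + (4 * A - 1) - 1) * a
      have := (mul_eq_zero.1 this).resolve_left h2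
      linear_combination this
    · intro h
      apply h5
      have e : 4 * B = -1 := by linear_combination 4 * h - a
      linear_combination b - (4 * B - 4) * e
  have mix2 : ∀ {A B : F}, 2 * A = 1 → 16 * B ^ 2 - 12 * B + 1 = 0 →
      (Good F (A + B) ∧ A + B ≠ 0) ∨ ((2 * A = 1 ∨ 2 * B = 1) ∧ (11 : F) = 0) := by
    intro A B a b
    by_cases hs : A + B = 0
    · right
      refine ⟨Or.inl a, ?_⟩
      have e : 2 * B = -1 := by linear_combination 2 * hs - a
      linear_combination b - (8 * B - 10) * e
    · left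
      refine ⟨⟨?_, ?_, ?_⟩, hs⟩
      · intro h
        apply h5
        have e : 4 * B = -1 := by linear_combination h - 2 * a
        linear_combination b - (4 * B - 4) * e
      · intro h
        exact P5_zero (s := B) (by linear_combination 2 * h - 2 * a) b
      · intro _ h
        apply P5_eighth (s := B) _ b
        have : 2 * (8 * B - 1) = 0 := by
          linear_combination h - b - (4 * (4 * B) + 2 + 4 * (2 * A - 1)) * a
        have := (mul_eq_zero.1 this).resolve_left h2
        linear_combination this
  rw [not_good_iff] at hA hB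
  rcases hA with a | a | ⟨-, a⟩
  · rcases hB with b | b | ⟨-, b⟩
    · exact Or.inl ⟨a, b⟩
    · have e : 4 * (A + B) = 3 := by linear_combination a + 2 * b
      refine Or.inr (Or.inl ⟨good_three_quarters h2 e, ?_⟩)
      intro h
      apply h3
      rw [h] at e
      linear_combination -e
    · exact Or.inr (Or.inl (mix1 a b))
  · rcases hB with b | b | ⟨-, b⟩
    · have e : 4 * (A + B) = 3 := by linear_combination 2 * a + b
      refine Or.inr (Or.inl ⟨good_three_quarters h2 e, ?_⟩)
      intro h
      apply h3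
      rw [h] at e
      linear_combination -e
    · have e : A + B = 1 := by
        have : 2 * (A + B - 1) = 0 := by linear_combination a + b
        have := (mul_eq_zero.1 this).resolve_left h2
        linear_combination this
      rw [e]
      exact Or.inr (Or.inl ⟨good_one h3 h5, one_ne_zero⟩)
    · rcases mix2 a b with h | h
      · exact Or.inr (Or.inl h)
      · exact Or.inr (Or.inr h)
  · rcases hB with b | b | ⟨-, b⟩
    · have := mix1 b a
      rw [add_comm] at this
      exact Or.inr (Or.inl this)
    · rcases mix2 b a with h | h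
      · rw [add_comm] at h
        exact Or.inr (Or.inl h)
      · exact Or.inr (Or.inr ⟨h.1.symm, h.2⟩)
    · have e : (A - B) * (4 * (4 * (A + B) - 3)) = 0 := by linear_combination a - b
      rcases mul_eq_zero.1 e with e1 | e1
      · have e2 : A = B := by linear_combination e1
        subst e2
        refine Or.inr (Or.inl ⟨⟨?_, ?_, ?_⟩, ?_⟩)
        · intro h
          exact P5_eighth (s := A) (by linear_combination h) a
        · intro h
          exact P5_quarter (s := A) (by linear_combination h) a
        · intro _ h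
          apply P5_eighth (s := A) _ a
          have : 3 * (8 * A - 1) = 0 := by linear_combination h - 4 * a
          have := (mul_eq_zero.1 this).resolve_left h3
          linear_combination this
        · intro h
          exact P5_zero (s := A) (by linear_combination 2 * h) a
      · have e2 := (mul_eq_zero.1 e1).resolve_left h4
        have e3 : 4 * (A + B) = 3 := by linear_combination e2
        refine Or.inr (Or.inl ⟨good_three_quarters h2 e3, ?_⟩)
        intro h
        apply h3
        rw [h] at e3
        linear_combination -e3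

/-- The triple lemma. -/
lemma bad_triple (h2 : (2 : F) ≠ 0) {A B C : F} (hs : A + B + C = 1) (hA : ¬ Good F A) (hB : ¬ Good F B)
    (hC : ¬ Good F C) :
    4 * A = 1 ∨ 4 * B = 1 ∨ 4 * C = 1 ∨ (3 * A = 1 ∧ 3 * B = 1 ∧ 3 * C = 1 ∧ (11 : F) = 0) := by
  have h4 : (4 : F) ≠ 0 := by
    have : (4 : F) = 2 * 2 := by norm_num
    rw [this]
    exact mul_ne_zero h2 h2
  have key : ∀ {A B : F}, 16 * A ^ 2 - 12 * A + 1 = 0 → 16 * B ^ 2 - 12 * B + 1 = 0 → A = B ∨ 4 * (A + B) = 3 := by
    intro A B a b
    have e : (A - B) * (4 * (4 * (A + B) - 3)) = 0 := by linear_combination a - b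
    rcases mul_eq_zero.1 e with e1 | e1
    · left
      linear_combination e1
    · right
      have e2 := (mul_eq_zero.1 e1).resolve_left h4
      linear_combination e2
  -- half and two roots
  have hf : ∀ {A B C : F}, A + B + C = 1 → 2 * A = 1 → 16 * B ^ 2 - 12 * B + 1 = 0 → 16 * C ^ 2 - 12 * C + 1 = 0 →
      4 * B = 1 := by
    intro A B C hs a b c
    rcases key b c with e | e
    · subst e
      have : 2 * (4 * B - 1) = 0 := by linear_combination 4 * hs - 2 * a
      have := (mul_eq_zero.1 this).resolve_left h2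
      linear_combination this
    · exfalso
      have : (1 : F) = 0 := by linear_combination 4 * hs - 2 * a - e
      exact one_ne_zero this
  rw [not_good_iff] at hA hB hC
  rcases hA with a | a | ⟨-, a⟩
  · exact Or.inl a
  · rcases hB with b | b | ⟨-, b⟩
    · exact Or.inr (Or.inl b)
    · rcases hC with c | c | ⟨-, c⟩
      · exact Or.inr (Or.inr (Or.inl c))
      · exfalso
        have : (1 : F) = 0 := by linear_combination 2 * hs - a - b - c
        exact one_ne_zero this
      · exfalso
        exact P5_zero (s := C) (by linear_combination 4 * hs - 2 * a - 2 * b) c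
    · rcases hC with c | c | ⟨-, c⟩
      · exact Or.inr (Or.inr (Or.inl c))
      · exfalso
        exact P5_zero (s := B) (by linear_combination 4 * hs - 2 * a - 2 * c) b
      · exact Or.inr (Or.inl (hf hs a b c))
  · rcases hB with b | b | ⟨-, b⟩
    · exact Or.inr (Or.inl b)
    · rcases hC with c | c | ⟨-, c⟩
      · exact Or.inr (Or.inr (Or.inl c))
      · exfalso
        exact P5_zero (s := A) (by linear_combination 4 * hs - 2 * b - 2 * c) a
      · exact Or.inl (hf (A := B) (B := A) (C := C) (by linear_combination hs) b a c)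
    · rcases hC with c | c | ⟨-, c⟩
      · exact Or.inr (Or.inr (Or.inl c))
      · exact Or.inl (hf (A := C) (B := A) (C := B) (by linear_combination hs) c a b)
      · rcases key a b with e | e
        · subst e
          rcases key a c with e' | e'
          · subst e'
            have e3 : 3 * A = 1 := by linear_combination hs
            refine Or.inr (Or.inr (Or.inr ⟨e3, e3, e3, ?_⟩))
            linear_combination -9 * a + (16 * (3 * A) - 20) * e3
          · exact Or.inr (Or.inl (by linear_combination 4 * hs - e'))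
        · exact Or.inr (Or.inr (Or.inl (by linear_combination 4 * hs - e)))

/-! ### Nonzero integers -/

lemma charP_card (hprime : (Fintype.card F).Prime) : CharP F (Fintype.card F) := by
  obtain ⟨q, hq⟩ := CharP.exists F
  haveI := hq
  obtain ⟨k, hk1, hk2⟩ := FiniteField.card F q
  have := (Nat.Prime.pow_eq_iff hprime).1 hk2.symm
  rw [← this.1]
  exact hq

lemma cast_ne_zero_of_lt (hprime : (Fintype.card F).Prime) {n : ℕ} (h0 : 0 < n) (hn : n < Fintype.card F) :
    (n : F) ≠ 0 := by
  haveI := charP_card hprime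
  rw [Ne, CharP.cast_eq_zero_iff F (Fintype.card F)]
  exact Nat.not_dvd_of_pos_of_lt h0 hn

lemma card_eq_of_cast_zero (hprime : (Fintype.card F).Prime) {n : ℕ} (hn : n.Prime) (h : (n : F) = 0) :
    Fintype.card F = n := by
  haveI := charP_card hprime
  rw [CharP.cast_eq_zero_iff F (Fintype.card F)] at h
  exact (Nat.prime_dvd_prime_iff_eq hprime hn).1 h

end Cfsg.Agent.Lib.Classical.Frame
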