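/-
Matrix facts towards the Dickson-based three-dimensional closure: commuting traceless matrices, a Klein four-group and
a further involution, Borel subgroups, Chebyshev relations.
-/
import Mathlib
import Cfsg.Agent.Lib.Classical.Frame.Cliff
import Cfsg.Agent.Lib.PSL2.MaxPgl5

set_option autoImplicit false
set_option linter.unusedSectionVars false
set_option linter.unusedSimpArgs false
set_option linter.unusedVariables false

namespace Cfsg.Agent.Lib.Classical.Frame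

open Matrix Matrix.SpecialLinearGroup Subgroup
open scoped MatrixGroups
open Cfsg.Agent.Lib.PSL2.Basic Cfsg.Agent.Lib.PSL2.Conj Cfsg.Agent.Lib.PSL2.Members
open Cfsg.Agent.Lib.PSL2.FourGroup Cfsg.Agent.Lib.PSL2.MaxPgl

variable {F : Type*} [Field F]

/-- Traceless matrices commuting with a nonzero traceless matrix are multiples of it. -/
lemma traceless_comm (h2 : (2 : F) ≠ 0) {E Y : M2 F} (hE : E.trace = 0) (hY : Y.trace = 0) (hE0 : E ≠ 0)
    (h : Y * E = E * Y) : ∃ l : F, Y = l • E := by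
  rw [Matrix.trace_fin_two] at hE hY
  have e11 : E 1 1 = - E 0 0 := by linear_combination hE
  have y11 : Y 1 1 = - Y 0 0 := by linear_combination hY
  have h01 := congrFun (congrFun h 0) 1
  have h10 := congrFun (congrFun h 1) 0
  have h00 := congrFun (congrFun h 0) 0
  simp only [Matrix.mul_apply, Fin.sum_univ_two] at h01 h10 h00
  rw [e11, y11] at h01
  rw [e11, y11] at h10
  have k1 : Y 0 0 * E 0 1 = Y 0 1 * E 0 0 := by
    have : 2 * (Y 0 0 * E 0 1 - Y 0 1 * E 0 0) = 0 := by linear_combination h01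
    exact sub_eq_zero.1 ((mul_eq_zero.1 this).resolve_left h2)
  have k2 : Y 1 0 * E 0 0 = Y 0 0 * E 1 0 := by
    have : 2 * (Y 1 0 * E 0 0 - Y 0 0 * E 1 0) = 0 := by linear_combination h10
    exact sub_eq_zero.1 ((mul_eq_zero.1 this).resolve_left h2)
  have k3 : Y 0 1 * E 1 0 = E 0 1 * Y 1 0 := by linear_combination h00
  have hex : E 0 0 ≠ 0 ∨ E 0 1 ≠ 0 ∨ E 1 0 ≠ 0 := by
    by_contra hcon
    push Not at hcon
    apply hE0
    ext i j
    fin_cases i <;> fin_cases j <;> simp [hcon.1, hcon.2.1, hcon.2.2, e11]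
  rcases hex with h1 | h1 | h1
  · refine ⟨Y 0 0 * (E 0 0)⁻¹, ?_⟩
    ext i j
    fin_cases i <;> fin_cases j <;> simp [e11, y11] <;> field_simp
    · linear_combination -k1
    · linear_combination k2
  · refine ⟨Y 0 1 * (E 0 1)⁻¹, ?_⟩
    ext i j
    fin_cases i <;> fin_cases j <;> simp [e11, y11] <;> field_simp
    · linear_combination k1
    · linear_combination -k3
    · linear_combination k1
  · refine ⟨Y 1 0 * (E 1 0)⁻¹, ?_⟩
    ext i j
    fin_cases i <;> fin_cases j <;> simp [e11, y11] <;> field_simp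
    · linear_combination -k2
    · linear_combination k3
    · linear_combination -k2

/-- A Klein four-group together with an element commuting, up to sign, with a traceless matrix. -/
lemma klein_contra (h2 : (2 : F) ≠ 0) {B₁ B₂ B₃ A E : M2 F} (hE : E.trace = 0) (hE0 : E ≠ 0)
    (t₁ : B₁.trace = 0) (t₂ : B₂.trace = 0) (t₃ : B₃.trace = 0) {μ : F} (hB₃ : B₃ = μ • (B₁ * B₂))
    (s₁ : B₁ * E = E * B₁ ∨ B₁ * E = -(E * B₁)) (s₂ : B₂ * E = E * B₂ ∨ B₂ * E = -(E * B₂))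
    (sA : A * E = E * A ∨ A * E = -(E * A))
    (n₁ : A * B₁ ≠ B₁ * A) (n₁' : A * B₁ ≠ -(B₁ * A))
    (n₂ : A * B₂ ≠ B₂ * A) (n₂' : A * B₂ ≠ -(B₂ * A))
    (n₃ : A * B₃ ≠ B₃ * A) (n₃' : A * B₃ ≠ -(B₃ * A)) : False := by
  have key : ∀ C : M2 F, C.trace = 0 → C * E = E * C → A * C ≠ C * A → A * C ≠ -(C * A) → False := by
    intro C hC hCE hn hn'
    obtain ⟨l, rfl⟩ := traceless_comm h2 hE hC hE0 hCE
    rcases sA with h | h
    · apply hn
      rw [mul_smul_comm, smul_mul_assoc, h]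
    · apply hn'
      rw [mul_smul_comm, smul_mul_assoc, h, smul_neg]
  rcases s₁ with h₁ | h₁
  · exact key B₁ t₁ h₁ n₁ n₁'
  rcases s₂ with h₂ | h₂
  · exact key B₂ t₂ h₂ n₂ n₂'
  apply key B₃ t₃ _ n₃ n₃'
  rw [hB₃, smul_mul_assoc, mul_smul_comm]
  congr 1
  calc B₁ * B₂ * E = B₁ * (B₂ * E) := by rw [mul_assoc]
    _ = -((B₁ * E) * B₂) := by rw [h₂, mul_neg, mul_assoc]
    _ = E * (B₁ * B₂) := by rw [h₁, neg_mul, neg_neg, mul_assoc]

/-- Two anticommuting invertible traceless matrices cannot both be triangular. -/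
lemma borel_contra (h2 : (2 : F) ≠ 0) {P : GL (Fin 2) F} {B₁ B₂ : M2 F} (t₁ : B₁.trace = 0) (t₂ : B₂.trace = 0)
    (hac : B₁ * B₂ = -(B₂ * B₁)) (d₁ : B₁.det ≠ 0) (d₂ : B₂.det ≠ 0)
    (h₁ : (P.val * B₁ * (P⁻¹).val) 1 0 = 0) (h₂ : (P.val * B₂ * (P⁻¹).val) 1 0 = 0) : False := by
  set C₁ := P.val * B₁ * (P⁻¹).val with hC₁
  set C₂ := P.val * B₂ * (P⁻¹).val with hC₂
  have hPP : (P⁻¹).val * P.val = 1 := by simp
  have hc : C₁ * C₂ = -(C₂ * C₁) := by
    have h3 : ∀ X Y : M2 F, (P.val * X * (P⁻¹).val) * (P.val * Y * (P⁻¹).val) = P.val * (X * Y) * (P⁻¹).val := by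
      intro X Y
      calc (P.val * X * (P⁻¹).val) * (P.val * Y * (P⁻¹).val)
          = P.val * X * ((P⁻¹).val * P.val) * Y * (P⁻¹).val := by noncomm_ring
        _ = P.val * (X * Y) * (P⁻¹).val := by rw [hPP, mul_one]; noncomm_ring
    rw [hC₁, hC₂, h3, h3, hac]
    noncomm_ring
  have tc₁ : C₁.trace = 0 := by rw [hC₁, Matrix.trace_units_conj]; exact t₁
  have tc₂ : C₂.trace = 0 := by rw [hC₂, Matrix.trace_units_conj]; exact t₂
  have dc₁ : C₁.det ≠ 0 := by rw [hC₁, Matrix.det_units_conj]; exact d₁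
  have dc₂ : C₂.det ≠ 0 := by rw [hC₂, Matrix.det_units_conj]; exact d₂
  rw [Matrix.trace_fin_two] at tc₁ tc₂
  rw [Matrix.det_fin_two, h₁] at dc₁
  rw [Matrix.det_fin_two, h₂] at dc₂
  have h00 := congrFun (congrFun hc 0) 0
  simp only [Matrix.mul_apply, Fin.sum_univ_two, Matrix.neg_apply, h₁, h₂] at h00
  have h3 : 2 * (C₁ 0 0 * C₂ 0 0) = 0 := by linear_combination h00
  rcases mul_eq_zero.1 ((mul_eq_zero.1 h3).resolve_left h2) with h4 | h4
  · apply dc₁
    rw [h4]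
    ring
  · apply dc₂
    rw [h4]
    ring

/-- Cayley-Hamilton. -/
lemma ch2 (N : M2 F) : N * N = (N.trace) • N - (N.det) • (1 : M2 F) := by
  ext i j
  fin_cases i <;> fin_cases j <;>
    simp [Matrix.mul_apply, Fin.sum_univ_two, Matrix.trace_fin_two, Matrix.det_fin_two, Matrix.one_apply] <;> ring

/-- Chebyshev relations. -/
lemma cheb_forms (N : M2 F) :
    N ^ 1 = N ∧
    N ^ 2 = N.trace • N - N.det • (1 : M2 F) ∧
    N ^ 3 = (N.trace ^ 2 - N.det) • N - (N.trace * N.det) • (1 : M2 F) ∧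
    N ^ 4 = (N.trace ^ 3 - 2 * N.trace * N.det) • N - ((N.trace ^ 2 - N.det) * N.det) • (1 : M2 F) ∧
    N ^ 5 = (N.trace ^ 4 - 3 * N.trace ^ 2 * N.det + N.det ^ 2) • N -
      ((N.trace ^ 3 - 2 * N.trace * N.det) * N.det) • (1 : M2 F) := by
  set τ := N.trace with hτ
  set δ := N.det with hδ
  have h := ch2 N
  rw [← hτ, ← hδ] at h
  have p2 : N ^ 2 = τ • N - δ • (1 : M2 F) := by rw [pow_two, h]
  have p3 : N ^ 3 = (τ ^ 2 - δ) • N - (τ * δ) • (1 : M2 F) := by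
    rw [pow_succ, p2]
    simp only [sub_mul, smul_mul_assoc, one_mul, h]
    module
  have p4 : N ^ 4 = (τ ^ 3 - 2 * τ * δ) • N - ((τ ^ 2 - δ) * δ) • (1 : M2 F) := by
    rw [pow_succ, p3]
    simp only [sub_mul, smul_mul_assoc, one_mul, h]
    module
  have p5 : N ^ 5 = (τ ^ 4 - 3 * τ ^ 2 * δ + δ ^ 2) • N - ((τ ^ 3 - 2 * τ * δ) * δ) • (1 : M2 F) := by
    rw [pow_succ, p4]
    simp only [sub_mul, smul_mul_assoc, one_mul, h]
    module
  exact ⟨pow_one N, p2, p3, p4, p5⟩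

/-- A scalar power forces the vanishing of the coefficient. -/
lemma coeff_zero {N : M2 F} (hns : ∀ s : F, N ≠ s • (1 : M2 F)) {c d s : F}
    (h : c • N - d • (1 : M2 F) = s • (1 : M2 F)) : c = 0 := by
  by_contra hc
  apply hns (c⁻¹ * (s + d))
  have h1 : c • N = (s + d) • (1 : M2 F) := by
    rw [add_smul, ← h]
    abel
  rw [mul_smul, ← h1, smul_smul, inv_mul_cancel₀ hc, one_smul]

variable [Fintype F]

/-- An element of `PGL` of finite order. -/
lemma pow_scalar {g : GL (Fin 2) F} {k : ℕ} (h : (mkG g) ^ k = 1) : ∃ s : F, g.val ^ k = s • (1 : M2 F) := by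
  rw [← map_pow, Matrix.ProjGenLinGroup.mk_eq_one, Matrix.GeneralLinearGroup.mem_center_iff_val_mem_range_scalar] at h
  obtain ⟨a, ha⟩ := h
  refine ⟨a, ?_⟩
  rw [← Units.val_pow_eq_pow_val, ← ha]
  ext i j
  simp [Matrix.scalar_apply, Matrix.one_apply, Matrix.diagonal_apply]

/-- Membership in `NG` gives a sign. -/
lemma ng_sign {A₀ : SL(2, F)} (hA : NC A₀) (hd : disc A₀ ≠ 0) {X : GL (Fin 2) F} (hX : mkG X ∈ NG A₀) :
    cj X A₀ = A₀ ∨ cj X A₀ = A₀⁻¹ := by
  have h1 : mkG X * psi (mkP A₀) * (mkG X)⁻¹ ∈ (cbar A₀).map psi :=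
    (mem_normalizer_iff.1 hX _).1 ⟨mkP A₀, mkP_mem_cbar.2 rfl, rfl⟩
  rw [conj_psi, psi_mem_map_cbar] at h1
  exact eq_or_eq_inv_of_commute hA hd (tr_cj X A₀) (nc_cj hA X) h1

/-- The traceless part. -/
noncomputable def tl (A₀ : SL(2, F)) : M2 F := A₀.1 - ((2 : F)⁻¹ * tr A₀) • (1 : M2 F)

lemma tl_trace (h2 : (2 : F) ≠ 0) (A₀ : SL(2, F)) : (tl A₀).trace = 0 := by
  have h1 : Matrix.trace (1 : M2 F) = 2 := by
    simp [Matrix.trace_fin_two]
  rw [tl, Matrix.trace_sub, Matrix.trace_smul, h1, ← tr_eq_trace, smul_eq_mul]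
  field_simp
  ring

lemma tl_ne_zero {A₀ : SL(2, F)} (hA : NC A₀) : tl A₀ ≠ 0 := by
  intro h
  have h00 := congrFun (congrFun h 0) 0
  have h01 := congrFun (congrFun h 0) 1
  have h10 := congrFun (congrFun h 1) 0
  have h11 := congrFun (congrFun h 1) 1
  simp [tl] at h00 h01 h10 h11
  rcases nonscalar_of_ne hA with h3 | h3 | h3
  · exact h3 h01
  · exact h3 h10
  · apply h3
    linear_combination h00 - h11

lemma tl_sign (h2 : (2 : F) ≠ 0) {A₀ : SL(2, F)} {X : GL (Fin 2) F} (h : cj X A₀ = A₀ ∨ cj X A₀ = A₀⁻¹) :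
    X.val * tl A₀ = tl A₀ * X.val ∨ X.val * tl A₀ = -(tl A₀ * X.val) := by
  rcases h with h | h
  · left
    have h1 := cj_eq_iff.1 h
    simp only [tl, mul_sub, sub_mul, mul_smul_comm, smul_mul_assoc, mul_one, one_mul, h1]
  · right
    have h1 := cj_eq_iff.1 h
    have h3 := add_inv_eq A₀
    have h4 : (A₀⁻¹).1 = tr A₀ • (1 : M2 F) - A₀.1 := by
      rw [← h3]
      abel
    rw [h4] at h1
    obtain ⟨u, hu⟩ : ∃ u : F, u = (2 : F)⁻¹ * tr A₀ := ⟨_, rfl⟩
    have ht : tr A₀ = 2 * u := by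
      rw [hu]
      field_simp
    have h6 : X.val * A₀.1 = (2 * u) • X.val - A₀.1 * X.val := by
      rw [h1, ht, sub_mul, smul_mul_assoc, one_mul]
    simp only [tl, ← hu, mul_sub, sub_mul, mul_smul_comm, smul_mul_assoc, mul_one, one_mul]
    rw [h6]
    module

end Cfsg.Agent.Lib.Classical.Frame
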