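/-
The group-theoretic core of the three-dimensional closure, from the classification of the subgroups of `PSL(2, p)` and
`PGL(2, p)`.
-/
import Mathlib
import Cfsg.Agent.Lib.Classical.Frame.D3a
import Cfsg.Agent.Lib.PSL2.Position
import Cfsg.Agent.Lib.PSL2.PolyMax

set_option autoImplicit false
set_option linter.unusedSectionVars false
set_option linter.unusedSimpArgs false
set_option linter.unusedVariables false

namespace Cfsg.Agent.Lib.Classical.Frame

open Matrix Matrix.SpecialLinearGroup Subgroup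
open scoped MatrixGroups
open Cfsg.Agent.Lib.PSL2.Basic Cfsg.Agent.Lib.PSL2.Conj Cfsg.Agent.Lib.PSL2.Members
open Cfsg.Agent.Lib.PSL2.FourGroup Cfsg.Agent.Lib.PSL2.MaxPgl Cfsg.Agent.Lib.PSL2.Position
open Cfsg.Agent.Lib.PSL2.DihedralMax Cfsg.Agent.Lib.PSL2.DicksonCor Cfsg.Agent.Lib.PSL2.Overgroups
open Cfsg.Agent.Lib.PSL2.PolyMax Cfsg.Agent.Lib.PSL2.Solubilizer Cfsg.Agent.Lib.PSL2.Reduction

variable {F : Type*} [Field F]
variable {κ σ₁ σ₂ σ₃ μ : F} {B₁ B₂ B₃ : M2 F}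

lemma smul_one_eq_zero {s : F} (h : s • (1 : M2 F) = 0) : s = 0 := by
  have := congrFun (congrFun h 0) 0
  simpa using this

namespace Cl

variable (C : Cl κ σ₁ σ₂ σ₃ μ B₁ B₂ B₃)
include C

theorem psi_100 : C.psi 1 0 0 = B₁ := by simp [psi_def]
theorem psi_010 : C.psi 0 1 0 = B₂ := by simp [psi_def]
theorem psi_001 : C.psi 0 0 1 = B₃ := by simp [psi_def]

/-- `A = ψ(1,1,1)` does not anticommute with a coordinate matrix. -/
theorem not_anti (hκ : κ ≠ 0) (h2 : (2 : F) ≠ 0) {u v w s : F} (hs : s ≠ 0)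
    (hb : σ₁ * 1 * u + σ₂ * 1 * v + σ₃ * 1 * w = s) :
    C.psi 1 1 1 * C.psi u v w ≠ -(C.psi u v w * C.psi 1 1 1) := by
  intro h
  have h1 := C.anti 1 1 1 u v w
  rw [h, neg_add_cancel, hb] at h1
  have := smul_one_eq_zero h1.symm
  rw [neg_eq_zero] at this
  exact mul_ne_zero (mul_ne_zero h2 hκ) hs this

/-- `A = ψ(1,1,1)` does not commute with a coordinate matrix. -/
theorem not_comm (hκ : κ ≠ 0) (h2 : (2 : F) ≠ 0) (h₁ : σ₁ ≠ 0) (h₂ : σ₂ ≠ 0) (h₃ : σ₃ ≠ 0) {u v w s : F} (hs : s ≠ 0)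
    (hb : σ₁ * 1 * u + σ₂ * 1 * v + σ₃ * 1 * w = s) (hq : σ₁ * u * u + σ₂ * v * v + σ₃ * w * w = s)
    (hne : ¬ (1 = u ∧ 1 = v ∧ 1 = w)) :
    C.psi 1 1 1 * C.psi u v w ≠ C.psi u v w * C.psi 1 1 1 := by
  intro h
  have h1 := C.anti 1 1 1 u v w
  rw [← h, hb, ← two_smul F] at h1
  have h3 : C.psi 1 1 1 * C.psi u v w = (-(κ * s)) • (1 : M2 F) := by
    apply smul_right_injective _ h2
    simp only [h1, smul_smul]
    congr 1
    ring
  have h4 : (C.psi 1 1 1 * C.psi u v w) * C.psi u v w = (-(κ * s)) • C.psi u v w := by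
    rw [h3, smul_mul_assoc, one_mul]
  rw [mul_assoc, C.sq_psi u v w h2, hq, mul_smul_comm, mul_one] at h4
  have h5 : C.psi 1 1 1 = C.psi u v w := smul_right_injective _ (neg_ne_zero.2 (mul_ne_zero hκ hs)) h4
  exact hne (C.psi_inj h2 hκ h₁ h₂ h₃ h5)

end Cl

variable [Fintype F]

/-- The group facts about small groups. -/
lemma s4_orders : ∀ g : Equiv.Perm (Fin 4), g ^ 1 = 1 ∨ g ^ 2 = 1 ∨ g ^ 3 = 1 ∨ g ^ 4 = 1 := by
  decide +kernel

lemma a4_orders : ∀ g : alternatingGroup (Fin 4), g ^ 1 = 1 ∨ g ^ 2 = 1 ∨ g ^ 3 = 1 ∨ g ^ 4 = 1 := by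
  decide +kernel

lemma a5_orders : ∀ g : alternatingGroup (Fin 5), g ^ 1 = 1 ∨ g ^ 2 = 1 ∨ g ^ 3 = 1 ∨ g ^ 5 = 1 := by
  decide +kernel

theorem d3_core (p : ℕ) [hpf : Fact p.Prime] [CharP F p] (C : Cl κ σ₁ σ₂ σ₃ μ B₁ B₂ B₃)
    (hκ : κ ≠ 0) (h₁ : σ₁ ≠ 0) (h₂ : σ₂ ≠ 0) (h₃ : σ₃ ≠ 0) (hsum : σ₁ + σ₂ + σ₃ = 1)
    (hodd : Odd (Fintype.card F)) (h5 : 5 ≤ Fintype.card F) (hp : Fintype.card F = p)
    {g₁ g₂ gA : GL (Fin 2) F} (hg₁ : g₁.val = B₁) (hg₂ : g₂.val = B₂) (hgA : gA.val = C.psi 1 1 1)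
    {G : Subgroup (PG F)} (hG₁ : mkG g₁ ∈ G) (hG₂ : mkG g₂ ∈ G) (hGA : mkG gA ∈ G)
    (hg4 : 4 * σ₁ ≠ 1) (hg2 : 2 * σ₁ ≠ 1) (hg5 : Fintype.card F ≠ 5 → 16 * σ₁ ^ 2 - 12 * σ₁ + 1 ≠ 0) :
    LL F ≤ G := by
  classical
  have h2 : (2 : F) ≠ 0 := Cfsg.Agent.Lib.PSL2.TorusCore.two_ne_zero_of_odd_card hodd
  set A := C.psi 1 1 1 with hA
  -- non-commutation
  have n₁ : A * B₁ ≠ B₁ * A := by
    have := C.not_comm hκ h2 h₁ h₂ h₃ (u := 1) (v := 0) (w := 0) h₁ (by ring) (by ring) (by simp)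
    rwa [C.psi_100] at this
  have n₂ : A * B₂ ≠ B₂ * A := by
    have := C.not_comm hκ h2 h₁ h₂ h₃ (u := 0) (v := 1) (w := 0) h₂ (by ring) (by ring) (by simp)
    rwa [C.psi_010] at this
  have n₃ : A * B₃ ≠ B₃ * A := by
    have := C.not_comm hκ h2 h₁ h₂ h₃ (u := 0) (v := 0) (w := 1) h₃ (by ring) (by ring) (by simp)
    rwa [C.psi_001] at this
  have n₁' : A * B₁ ≠ -(B₁ * A) := by
    have := C.not_anti hκ h2 (u := 1) (v := 0) (w := 0) h₁ (by ring)
    rwa [C.psi_100] at this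
  have n₂' : A * B₂ ≠ -(B₂ * A) := by
    have := C.not_anti hκ h2 (u := 0) (v := 1) (w := 0) h₂ (by ring)
    rwa [C.psi_010] at this
  have n₃' : A * B₃ ≠ -(B₃ * A) := by
    have := C.not_anti hκ h2 (u := 0) (v := 0) (w := 1) h₃ (by ring)
    rwa [C.psi_001] at this
  have d₁ : B₁.det ≠ 0 := by
    rw [← C.psi_100, C.det_psi 1 0 0 h2]
    simpa using mul_ne_zero hκ h₁
  have d₂ : B₂.det ≠ 0 := by
    rw [← C.psi_010, C.det_psi 0 1 0 h2]
    simpa using mul_ne_zero hκ h₂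
  -- the three obstructions
  have key_NG : ∀ A₀ : SL(2, F), NC A₀ → disc A₀ ≠ 0 → mkG g₁ ∈ NG A₀ → mkG g₂ ∈ NG A₀ → mkG gA ∈ NG A₀ → False := by
    intro A₀ hA₀ hd h1 h3 h4
    have s₁ := tl_sign h2 (ng_sign hA₀ hd h1)
    have s₂ := tl_sign h2 (ng_sign hA₀ hd h3)
    have sA := tl_sign h2 (ng_sign hA₀ hd h4)
    rw [hg₁] at s₁
    rw [hg₂] at s₂
    rw [hgA] at sA
    exact klein_contra h2 (tl_trace h2 A₀) (tl_ne_zero hA₀) C.tr₁ C.tr₂ C.tr₃ C.prod s₁ s₂ sA n₁ n₁' n₂ n₂' n₃ n₃'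
  have key_BG : ∀ g₀ : SL(2, F), mkG g₁ ∈ BG g₀ → mkG g₂ ∈ BG g₀ → False := by
    intro g₀ h1 h3
    have h4 := mem_BG.1 h1
    have h6 := mem_BG.1 h3
    refine borel_contra (P := toGL g₀) h2 C.tr₁ C.tr₂ C.ac₁₂ d₁ d₂ ?_ ?_
    · rw [← hg₁]
      exact h4
    · rw [← hg₂]
      exact h6
  -- Chebyshev
  set N := A * B₁ with hN
  have hNval : (gA * g₁).val = N := by rw [Units.val_mul, hg₁, hgA]
  have hNns : ∀ s : F, N ≠ s • (1 : M2 F) := by
    intro s hs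
    have h3 : (A * B₁) * B₁ = s • B₁ := by
      rw [← hN, hs, smul_mul_assoc, one_mul]
    rw [mul_assoc, C.sq₁, mul_smul_comm, mul_one] at h3
    have h4 : A = (-(κ * σ₁))⁻¹ • (s • B₁) := by
      rw [← h3, smul_smul, inv_mul_cancel₀ (neg_ne_zero.2 (mul_ne_zero hκ h₁)), one_smul]
    have h6 : C.psi 1 1 1 = C.psi ((-(κ * σ₁))⁻¹ * s) 0 0 := by
      rw [← hA, h4, smul_smul]
      simp [Cl.psi_def]
    have := (C.psi_inj h2 hκ h₁ h₂ h₃ h6).2.1
    exact one_ne_zero this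
  have hτ : N.trace = -(2 * κ * σ₁) := by
    have h3 := C.anti 1 1 1 1 0 0
    rw [C.psi_100, ← hA, ← hN] at h3
    have h4 := congrArg Matrix.trace h3
    rw [Matrix.trace_add, Matrix.trace_mul_comm B₁ A, ← hN, Matrix.trace_smul] at h4
    have h6 : Matrix.trace (1 : M2 F) = 2 := by simp [Matrix.trace_fin_two]
    rw [h6, smul_eq_mul] at h4
    apply mul_left_cancel₀ h2
    linear_combination h4
  have hδ : N.det = κ * (κ * σ₁) := by
    rw [hN, Matrix.det_mul, hA, C.det_psi 1 1 1 h2, ← C.psi_100, C.det_psi 1 0 0 h2]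
    have : σ₁ * 1 * 1 + σ₂ * 1 * 1 + σ₃ * 1 * 1 = 1 := by linear_combination hsum
    rw [this]
    ring
  have key_ord : ∀ k : ℕ, (k = 1 ∨ k = 2 ∨ k = 3 ∨ k = 4 ∨ (k = 5 ∧ Fintype.card F ≠ 5)) →
      (mkG gA * mkG g₁) ^ k = 1 → False := by
    intro k hk hpow
    rw [← map_mul] at hpow
    obtain ⟨s, hs⟩ := pow_scalar hpow
    rw [hNval] at hs
    obtain ⟨p1, p2, p3, p4, p5⟩ := cheb_forms N
    have hκ2 : κ * κ ≠ 0 := mul_ne_zero hκ hκ
    have h2κ : 2 * κ * σ₁ ≠ 0 := mul_ne_zero (mul_ne_zero h2 hκ) h₁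
    rcases hk with rfl | rfl | rfl | rfl | ⟨rfl, h6⟩
    · rw [p1] at hs
      exact hNns s hs
    · rw [p2] at hs
      have := coeff_zero hNns hs
      rw [hτ, neg_eq_zero] at this
      exact h2κ this
    · rw [p3] at hs
      have := coeff_zero hNns hs
      rw [hτ, hδ] at this
      have h7 : (κ * κ * σ₁) * (4 * σ₁ - 1) = 0 := by linear_combination this
      rcases mul_eq_zero.1 h7 with h8 | h8
      · exact mul_ne_zero hκ2 h₁ h8
      · exact hg4 (by linear_combination h8)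
    · rw [p4] at hs
      have := coeff_zero hNns hs
      rw [hτ, hδ] at this
      have h7 : (-(2 * κ * σ₁)) * ((κ * κ * σ₁) * (2 * (2 * σ₁ - 1))) = 0 := by linear_combination this
      rcases mul_eq_zero.1 h7 with h8 | h8
      · exact h2κ (neg_eq_zero.1 h8)
      · rcases mul_eq_zero.1 h8 with h9 | h9
        · exact mul_ne_zero hκ2 h₁ h9
        · rcases mul_eq_zero.1 h9 with h10 | h10
          · exact h2 h10
          · exact hg2 (by linear_combination h10)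
    · rw [p5] at hs
      have := coeff_zero hNns hs
      rw [hτ, hδ] at this
      have h7 : (κ * κ * σ₁) * (κ * κ * σ₁) * (16 * σ₁ ^ 2 - 12 * σ₁ + 1) = 0 := by linear_combination this
      rcases mul_eq_zero.1 h7 with h8 | h8
      · exact mul_ne_zero (mul_ne_zero hκ2 h₁) (mul_ne_zero hκ2 h₁) h8
      · exact hg5 h6 h8
  have hρ : mkG gA * mkG g₁ ∈ G := G.mul_mem hGA hG₁
  by_contra hLL
  by_cases hGL : G ≤ LL F
  · -- all inside `PSL`
    set H : Subgroup PSL(2, F) := M0 G with hH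
    have lift : ∀ g : GL (Fin 2) F, mkG g ∈ G → ∃ S : SL(2, F), psi (mkP S) = mkG g := by
      intro g hg
      obtain ⟨S, hS⟩ := hGL hg
      exact ⟨S, hS⟩
    have hmemH : ∀ x ∈ G, ∃ u ∈ H, psi u = x := by
      intro x hx
      obtain ⟨S, hS⟩ := hGL hx
      refine ⟨mkP S, ?_, hS⟩
      show psi (mkP S) ∈ G
      rw [show psi (mkP S) = _ from hS]
      exact hx
    have hHtop : H ≠ ⊤ := by
      intro htop
      apply hLL
      rintro _ ⟨S, rfl⟩
      have : mkP S ∈ H := by rw [htop]; trivial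
      exact this
    obtain ⟨uρ, huρ, huρ'⟩ := hmemH _ hρ
    have hpowρ : ∀ k : ℕ, uρ ^ k = 1 → (mkG gA * mkG g₁) ^ k = 1 := by
      intro k hk
      rw [← huρ', ← map_pow, hk, map_one]
    have hcard1 : Nat.card H ≠ 1 := by
      intro h
      have : Subsingleton H := (Nat.card_eq_one_iff_unique.1 h).1
      have h3 : (⟨uρ, huρ⟩ : H) = 1 := Subsingleton.elim _ _
      have h4 : uρ = 1 := congrArg Subtype.val h3
      exact key_ord 1 (Or.inl rfl) (hpowρ 1 (by rw [h4, one_pow]))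
    have hmemGNG : ∀ A₀ : SL(2, F), H ≤ Nz A₀ → ∀ g : GL (Fin 2) F, mkG g ∈ G → mkG g ∈ NG A₀ := by
      intro A₀ hle g hg
      obtain ⟨u, hu, hu'⟩ := hmemH _ hg
      have h3 := hle hu
      rw [← comap_NG] at h3
      rw [← hu']
      exact h3
    have hmemGBG : ∀ g₀ : SL(2, F), (∀ X, mkP X ∈ H → Up g₀ X) → ∀ g : GL (Fin 2) F, mkG g ∈ G → mkG g ∈ BG g₀ := by
      intro g₀ hup g hg
      obtain ⟨S, hS⟩ := lift g hg
      have h3 : mkP S ∈ H := by
        show psi (mkP S) ∈ G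
        rw [hS]
        exact hg
      have h4 := hup S h3
      have h6 : mkP S ∈ borelP g₀ := mem_borelP.2 h4
      rw [← comap_BG] at h6
      have h7 : psi (mkP S) ∈ BG g₀ := h6
      rwa [hS] at h7
    rcases dickson_frame_pos p H with h | ⟨A₀, hA₀, hd, hle⟩ | ⟨A₀, hA₀, hd, hAH, hidx⟩ | ⟨g₀, hg₀⟩ |
      ⟨⟨e⟩⟩ | ⟨⟨e⟩⟩ | ⟨⟨e⟩⟩ | ⟨g₁', c₁, hc₁, K, _, _, ι, m, hm, hle, -⟩
    · exact hcard1 h
    · have hle2 := le_NG_of_le_cbar hA₀ hcard1 hle
      exact key_NG A₀ hA₀ hd (hle2 hG₁) (hle2 hG₂) (hle2 hGA)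
    · have hNz := le_Nz_of_index_two hA₀ hd hAH hidx
      exact key_NG A₀ hA₀ hd (hmemGNG A₀ hNz _ hG₁) (hmemGNG A₀ hNz _ hG₂) (hmemGNG A₀ hNz _ hGA)
    · exact key_BG g₀ (hmemGBG g₀ hg₀ _ hG₁) (hmemGBG g₀ hg₀ _ hG₂)
    · -- `A₄`
      have h3 : ∀ k : ℕ, (e ⟨uρ, huρ⟩) ^ k = 1 → uρ ^ k = 1 := by
        intro k hk
        have h4 : e (⟨uρ, huρ⟩ ^ k) = 1 := by rw [map_pow, hk]
        have h6 : (⟨uρ, huρ⟩ : H) ^ k = 1 := by
          rw [← map_one e] at h4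
          exact e.injective h4
        exact congrArg Subtype.val h6
      rcases a4_orders (e ⟨uρ, huρ⟩) with h | h | h | h
      · exact key_ord 1 (by simp) (hpowρ 1 (h3 1 h))
      · exact key_ord 2 (by simp) (hpowρ 2 (h3 2 h))
      · exact key_ord 3 (by simp) (hpowρ 3 (h3 3 h))
      · exact key_ord 4 (by simp) (hpowρ 4 (h3 4 h))
    · -- `S₄`
      have h3 : ∀ k : ℕ, (e ⟨uρ, huρ⟩) ^ k = 1 → uρ ^ k = 1 := by
        intro k hk
        have h4 : e (⟨uρ, huρ⟩ ^ k) = 1 := by rw [map_pow, hk]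
        have h6 : (⟨uρ, huρ⟩ : H) ^ k = 1 := by
          rw [← map_one e] at h4
          exact e.injective h4
        exact congrArg Subtype.val h6
      rcases s4_orders (e ⟨uρ, huρ⟩) with h | h | h | h
      · exact key_ord 1 (by simp) (hpowρ 1 (h3 1 h))
      · exact key_ord 2 (by simp) (hpowρ 2 (h3 2 h))
      · exact key_ord 3 (by simp) (hpowρ 3 (h3 3 h))
      · exact key_ord 4 (by simp) (hpowρ 4 (h3 4 h))
    · -- `A₅`
      by_cases hc5 : Fintype.card F = 5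
      · apply hHtop
        apply Subgroup.eq_top_of_card_eq
        have h3 := card_PSL2_mul_dd F
        have h4 : dd F = 2 := by
          unfold dd
          rw [hc5]
          rfl
        rw [h4, hc5] at h3
        rw [Nat.card_congr e.toEquiv]
        have h6 : Nat.card (alternatingGroup (Fin 5)) = 60 := by
          rw [Nat.card_eq_fintype_card]
          rfl
        omega
      · have h3 : ∀ k : ℕ, (e ⟨uρ, huρ⟩) ^ k = 1 → uρ ^ k = 1 := by
          intro k hk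
          have h4 : e (⟨uρ, huρ⟩ ^ k) = 1 := by rw [map_pow, hk]
          have h6 : (⟨uρ, huρ⟩ : H) ^ k = 1 := by
            rw [← map_one e] at h4
            exact e.injective h4
          exact congrArg Subtype.val h6
        rcases a5_orders (e ⟨uρ, huρ⟩) with h | h | h | h
        · exact key_ord 1 (by simp) (hpowρ 1 (h3 1 h))
        · exact key_ord 2 (by simp) (hpowρ 2 (h3 2 h))
        · exact key_ord 3 (by simp) (hpowρ 3 (h3 3 h))
        · exact key_ord 5 (by simp [hc5]) (hpowρ 5 (h3 5 h))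
    · -- the subfield case
      have hKcard : Fintype.card K = Fintype.card F := by
        rw [hp] at hm ⊢
        exact ((Nat.Prime.pow_eq_iff hpf.out).1 hm).1
      have h3 : stdPsl ι = ⊤ := eq_top_of_card_eq hKcard (Or.inl ⟨stdPslEquiv ι⟩)
      rw [h3, top_le_iff] at hle
      apply hHtop
      have h4 : (⊤ : Subgroup PSL(2, F)).map (frameP g₁' c₁ hc₁).toMonoidHom = ⊤ :=
        Subgroup.map_top_of_surjective _ (frameP g₁' c₁ hc₁).surjective
      rw [← h4] at hle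
      exact Subgroup.map_injective (frameP g₁' c₁ hc₁).injective hle
  · -- some element outside `PSL`
    have hGtop : G ≠ ⊤ := by
      intro h
      apply hLL
      rw [h]
      exact le_top
    rcases eq_top_or_exists_le_coatom G with h | ⟨M, hM, hGM⟩
    · exact hGtop h
    have hML : ¬ LL F ≤ M := by
      intro hle
      have hidx := index_LL (F := F) hodd
      apply hGL
      refine hGM.trans ?_
      intro y hy
      by_contra hyL
      apply hM.1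
      rw [eq_top_iff]
      intro z _
      by_cases hz : z ∈ LL F
      · exact hle hz
      · have h3 : y⁻¹ * z ∈ LL F := by
          rw [Subgroup.mul_mem_iff_of_index_two hidx]
          simp [hyL, hz]
        have h4 := M.mul_mem hy (hle h3)
        rwa [mul_inv_cancel_left] at h4
    rcases pgl_cases p hodd h5 hM hML with ⟨A₀, hA₀, hd, rfl⟩ | ⟨g₀, rfl⟩ | ⟨-, -, -, ⟨e⟩⟩ | ⟨X, K, _, _, ι, r, hr, -, hK, -⟩
    · exact key_NG A₀ hA₀ hd (hGM hG₁) (hGM hG₂) (hGM hGA)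
    · exact key_BG g₀ (hGM hG₁) (hGM hG₂)
    · have hmem := hGM hρ
      have h3 : ∀ k : ℕ, (e ⟨_, hmem⟩) ^ k = 1 → (mkG gA * mkG g₁) ^ k = 1 := by
        intro k hk
        have h4 : e (⟨_, hmem⟩ ^ k) = 1 := by rw [map_pow, hk]
        have h6 : (⟨_, hmem⟩ : M) ^ k = 1 := by
          rw [← map_one e] at h4
          exact e.injective h4
        exact congrArg Subtype.val h6
      rcases s4_orders (e ⟨_, hmem⟩) with h | h | h | h
      · exact key_ord 1 (by simp) (h3 1 h)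
      · exact key_ord 2 (by simp) (h3 2 h)
      · exact key_ord 3 (by simp) (h3 3 h)
      · exact key_ord 4 (by simp) (h3 4 h)
    · rw [hp] at hK
      have := ((Nat.Prime.pow_eq_iff hpf.out).1 hK).2
      exact hr.one_lt.ne' this

end Cfsg.Agent.Lib.Classical.Frame
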