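/-
The three-dimensional closure theorem: a set of vectors of norm one in a ternary diagonal form over a prime field, closed under
the coordinate sign changes and under its own reflections, and containing `(1,1,1)`, is the whole sphere, unless the first
coefficient takes one of a few exceptional values.
-/
import Mathlib
import Cfsg.Agent.Lib.Classical.Frame.D3b

set_option autoImplicit false
set_option linter.unusedSectionVars false
set_option linter.unusedSimpArgs false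
set_option linter.unusedVariables false

namespace Cfsg.Agent.Lib.Classical.Frame

open Matrix Matrix.SpecialLinearGroup Subgroup
open scoped MatrixGroups
open Cfsg.Agent.Lib.PSL2.Basic Cfsg.Agent.Lib.PSL2.MaxPgl

variable {F : Type*} [Field F]

/-- A companion form. -/
lemma exists_companion (h2 : (2 : F) ≠ 0) {A : M2 F} (ht : A.trace = 0) (hd : A.det ≠ 0) :
    ∃ C : M2 F, C.det ≠ 0 ∧ A * C = C * !![0, -A.det; 1, 0] := by
  rw [Matrix.trace_fin_two] at ht
  have e11 : A 1 1 = - A 0 0 := by linear_combination ht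
  have hdet : A.det = -(A 0 0 * A 0 0) - A 0 1 * A 1 0 := by
    rw [Matrix.det_fin_two, e11]
    ring
  by_cases hc : A 1 0 = 0
  · by_cases hb : A 0 1 = 0
    · have ha : A 0 0 ≠ 0 := by
        intro h
        apply hd
        rw [hdet, h, hb]
        ring
      refine ⟨!![1, A 0 0; 1, -A 0 0], ?_, ?_⟩
      · rw [Matrix.det_fin_two_of]
        intro h
        apply ha
        have : 2 * A 0 0 = 0 := by linear_combination -h
        exact (mul_eq_zero.1 this).resolve_left h2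
      · ext i j
        fin_cases i <;> fin_cases j <;>
          simp [Matrix.mul_apply, Fin.sum_univ_two, e11, hc, hb, hdet]
    · refine ⟨!![0, A 0 1; 1, -A 0 0], ?_, ?_⟩
      · rw [Matrix.det_fin_two_of]
        simpa using hb
      · ext i j
        fin_cases i <;> fin_cases j <;>
          simp [Matrix.mul_apply, Fin.sum_univ_two, e11, hc, hdet] <;> ring
  · refine ⟨!![1, A 0 0; 0, A 1 0], ?_, ?_⟩
    · rw [Matrix.det_fin_two_of]
      simpa using hc
    · ext i j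
      fin_cases i <;> fin_cases j <;>
        simp [Matrix.mul_apply, Fin.sum_univ_two, e11, hdet] <;> ring

/-- Traceless matrices with the same nonzero determinant are conjugate under `SL₂`. -/
lemma conj_sl2 [Fintype F] (h2 : (2 : F) ≠ 0) {A A' : M2 F} (ht : A.trace = 0) (ht' : A'.trace = 0)
    (hdet : A.det = A'.det) (hd : A.det ≠ 0) : ∃ S : SL(2, F), S.1 * A = A' * S.1 := by
  classical
  obtain ⟨C, hC, hAC⟩ := exists_companion h2 ht hd
  obtain ⟨C', hC', hAC'⟩ := exists_companion h2 ht' (by rwa [← hdet])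
  rw [← hdet] at hAC'
  set d := A.det with hdd
  set K : M2 F := !![0, -d; 1, 0] with hK
  have hodd : Fintype.card F % 2 = 1 := by
    have hne : ringChar F ≠ 2 := by
      intro h
      apply h2
      have : CharP F 2 := ringChar.of_eq h
      exact CharTwo.two_eq_zero
    exact FiniteField.odd_card_of_char_ne_two hne
  set e := C.det * (C'.det)⁻¹ with he
  let P : Polynomial F := Polynomial.X ^ 2
  let R : Polynomial F := Polynomial.C d * Polynomial.X ^ 2 + Polynomial.C (-e)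
  have hP : P.degree = 2 := Polynomial.degree_X_pow 2
  have hR : R.degree = 2 := by
    have h1 : (Polynomial.C d * Polynomial.X ^ 2 : Polynomial F).degree = 2 :=
      Polynomial.degree_C_mul_X_pow 2 hd
    rw [Polynomial.degree_add_C (by rw [h1]; norm_num)]
    exact h1
  obtain ⟨α, β, h⟩ := FiniteField.exists_root_sum_quadratic hP hR hodd
  simp only [P, R, Polynomial.eval_add, Polynomial.eval_mul, Polynomial.eval_C, Polynomial.eval_pow,
    Polynomial.eval_X] at h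
  have hαβ : α ^ 2 + d * β ^ 2 = e := by linear_combination h
  set Y : M2 F := α • (1 : M2 F) + β • K with hY
  have hYK : Y * K = K * Y := by
    simp only [hY, add_mul, mul_add, smul_mul_assoc, mul_smul_comm, one_mul, mul_one]
  have hdetY : Y.det = e := by
    rw [hY, hK, Matrix.det_fin_two]
    simp
    linear_combination hαβ
  have hCu : IsUnit C.det := isUnit_iff_ne_zero.2 hC
  have hCC : C⁻¹ * C = 1 := Matrix.nonsing_inv_mul _ hCu
  have hCC' : C * C⁻¹ = 1 := Matrix.mul_nonsing_inv _ hCu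
  have hdet1 : (C' * Y * C⁻¹).det = 1 := by
    rw [Matrix.det_mul, Matrix.det_mul, hdetY, Matrix.det_nonsing_inv, he, Ring.inverse_eq_inv']
    field_simp
  refine ⟨⟨C' * Y * C⁻¹, hdet1⟩, ?_⟩
  show C' * Y * C⁻¹ * A = A' * (C' * Y * C⁻¹)
  have h1 : C⁻¹ * A = K * C⁻¹ := by
    calc C⁻¹ * A = C⁻¹ * A * (C * C⁻¹) := by rw [hCC', mul_one]
      _ = C⁻¹ * (A * C) * C⁻¹ := by noncomm_ring
      _ = K * C⁻¹ := by rw [hAC, ← mul_assoc, hCC, one_mul]
  rw [mul_assoc, h1, ← mul_assoc, mul_assoc C', hYK, ← mul_assoc C', ← hAC']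
  noncomm_ring

variable {κ σ₁ σ₂ σ₃ μ : F} {B₁ B₂ B₃ : M2 F}

/-- The stabiliser of a set of matrices under conjugation. -/
def stabGL (X : Set (M2 F)) : Subgroup (GL (Fin 2) F) where
  carrier := {g | ∀ Y, Y ∈ X ↔ g.val * Y * (g⁻¹).val ∈ X}
  mul_mem' := by
    intro g h hg hh Y
    rw [hh Y, hg (h.val * Y * (h⁻¹).val)]
    have : (g * h).val * Y * ((g * h)⁻¹).val = g.val * (h.val * Y * (h⁻¹).val) * (g⁻¹).val := by
      rw [_root_.mul_inv_rev, Units.val_mul, Units.val_mul]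
      noncomm_ring
    rw [this]
  one_mem' := by
    intro Y
    simp
  inv_mem' := by
    intro g hg Y
    rw [hg ((g⁻¹).val * Y * ((g⁻¹)⁻¹).val)]
    have : g.val * ((g⁻¹).val * Y * ((g⁻¹)⁻¹).val) * (g⁻¹).val = Y := by
      rw [inv_inv]
      have h1 : g.val * (g⁻¹).val = 1 := by simp
      calc g.val * ((g⁻¹).val * Y * g.val) * (g⁻¹).val = (g.val * (g⁻¹).val) * Y * (g.val * (g⁻¹).val) := by
            noncomm_ring
        _ = Y := by rw [h1, one_mul, mul_one]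
    rw [this]

lemma mem_stabGL_of_sq {X : Set (M2 F)} {g : GL (Fin 2) F} {s : F} (hs : s ≠ 0)
    (hsq : g.val * g.val = s • (1 : M2 F)) (h : ∀ Y ∈ X, g.val * Y * (g⁻¹).val ∈ X) : g ∈ stabGL X := by
  intro Y
  refine ⟨h Y, fun hY => ?_⟩
  have h1 := h _ hY
  have hinv : (g⁻¹).val = s⁻¹ • g.val := by
    have h2 : g.val * (s⁻¹ • g.val) = 1 := by
      rw [mul_smul_comm, hsq, smul_smul, inv_mul_cancel₀ hs, one_smul]
    have h3 : (g⁻¹).val * (g.val * (s⁻¹ • g.val)) = (g⁻¹).val := by rw [h2, mul_one]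
    rw [← mul_assoc] at h3
    have h4 : (g⁻¹).val * g.val = 1 := by simp
    rw [h4, one_mul] at h3
    exact h3.symm
  have h5 : g.val * (g.val * Y * (g⁻¹).val) * (g⁻¹).val = Y := by
    rw [hinv]
    simp only [mul_smul_comm, smul_mul_assoc, smul_smul]
    have : g.val * (g.val * Y * g.val) * g.val = (g.val * g.val) * Y * (g.val * g.val) := by noncomm_ring
    rw [this, hsq]
    simp only [mul_smul_comm, smul_mul_assoc, smul_smul, one_mul, mul_one]
    rw [show s⁻¹ * s⁻¹ * (s * s) = 1 by field_simp, one_smul]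
  rw [h5] at h1
  exact h1

lemma center_le_stabGL (X : Set (M2 F)) : Subgroup.center (GL (Fin 2) F) ≤ stabGL X := by
  intro z hz Y
  obtain ⟨a, ha⟩ := Matrix.GeneralLinearGroup.mem_center_iff_val_mem_range_scalar.1 hz
  have h1 : z.val * Y = Y * z.val := by
    rw [← ha]
    exact (Matrix.scalar_commute _ (fun r' => Commute.all _ _) Y)
  have h2 : z.val * Y * (z⁻¹).val = Y := by
    rw [h1, mul_assoc]
    simp
  rw [h2]

variable [Fintype F]

/-- **The three-dimensional closure.** -/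
theorem d3 (hprime : (Fintype.card F).Prime) (hodd : Odd (Fintype.card F)) (h5 : 5 ≤ Fintype.card F)
    (h₁ : σ₁ ≠ 0) (h₂ : σ₂ ≠ 0) (h₃ : σ₃ ≠ 0) (hsum : σ₁ + σ₂ + σ₃ = 1)
    (hg4 : 4 * σ₁ ≠ 1) (hg2 : 2 * σ₁ ≠ 1) (hg5 : Fintype.card F ≠ 5 → 16 * σ₁ ^ 2 - 12 * σ₁ + 1 ≠ 0)
    (R : F → F → F → Prop) (h111 : R 1 1 1)
    (hq : ∀ a b c, R a b c → σ₁ * a * a + σ₂ * b * b + σ₃ * c * c = 1)
    (hf₁ : ∀ a b c, R a b c → R (-a) b c) (hf₂ : ∀ a b c, R a b c → R a (-b) c)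
    (hf₃ : ∀ a b c, R a b c → R a b (-c))
    (hr : ∀ a b c x y z, R a b c → R x y z →
      R (x - 2 * (σ₁ * a * x + σ₂ * b * y + σ₃ * c * z) * a)
        (y - 2 * (σ₁ * a * x + σ₂ * b * y + σ₃ * c * z) * b)
        (z - 2 * (σ₁ * a * x + σ₂ * b * y + σ₃ * c * z) * c)) :
    ∀ a b c, σ₁ * a * a + σ₂ * b * b + σ₃ * c * c = 1 → R a b c := by
  classical
  set p := Fintype.card F with hp
  haveI : Fact p.Prime := ⟨hprime⟩
  haveI : CharP F p := Cfsg.Agent.Lib.PSL2.PolyMax.charP_of_card_prime hprime rfl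
  have h2 : (2 : F) ≠ 0 := Cfsg.Agent.Lib.PSL2.TorusCore.two_ne_zero_of_odd_card hodd
  obtain ⟨B₁, B₂, B₃, C⟩ := exists_cl h2 h₁ h₂ h₃
  set κ := σ₁ * σ₂ * σ₃ with hκdef
  have hκ : κ ≠ 0 := mul_ne_zero (mul_ne_zero h₁ h₂) h₃
  let X : Set (M2 F) := {Y | ∃ a b c, R a b c ∧ Y = C.psi a b c}
  -- the generators
  have hdetB₁ : B₁.det ≠ 0 := by
    rw [← C.psi_100, C.det_psi 1 0 0 h2]
    simpa using mul_ne_zero hκ h₁
  have hdetB₂ : B₂.det ≠ 0 := by
    rw [← C.psi_010, C.det_psi 0 1 0 h2]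
    simpa using mul_ne_zero hκ h₂
  have hnorm111 : σ₁ * 1 * 1 + σ₂ * 1 * 1 + σ₃ * 1 * 1 = 1 := by linear_combination hsum
  have hdetA : (C.psi 1 1 1).det ≠ 0 := by
    rw [C.det_psi 1 1 1 h2, hnorm111, mul_one]
    exact hκ
  let g₁ : GL (Fin 2) F := Matrix.GeneralLinearGroup.mkOfDetNeZero B₁ hdetB₁
  let g₂ : GL (Fin 2) F := Matrix.GeneralLinearGroup.mkOfDetNeZero B₂ hdetB₂
  let gA : GL (Fin 2) F := Matrix.GeneralLinearGroup.mkOfDetNeZero _ hdetA
  have hg₁ : g₁.val = B₁ := rfl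
  have hg₂ : g₂.val = B₂ := rfl
  have hgA : gA.val = C.psi 1 1 1 := rfl
  -- a general conjugation principle
  have conj : ∀ (g : GL (Fin 2) F) (Y Z : M2 F), g.val * Y = Z * g.val → g.val * Y * (g⁻¹).val = Z := by
    intro g Y Z h
    rw [h, mul_assoc]
    simp
  have hst₁ : g₁ ∈ stabGL X := by
    apply mem_stabGL_of_sq (neg_ne_zero.2 (mul_ne_zero hκ h₁)) C.sq₁
    rintro _ ⟨a, b, c, hR, rfl⟩
    refine ⟨a, -b, -c, hf₂ _ _ _ (hf₃ _ _ _ hR), conj g₁ _ _ ?_⟩
    rw [hg₁]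
    simp only [Cl.psi_def, mul_add, add_mul, smul_mul_assoc, mul_smul_comm, C.ac₁₂, C.ac₁₃]
    module
  have hst₂ : g₂ ∈ stabGL X := by
    apply mem_stabGL_of_sq (neg_ne_zero.2 (mul_ne_zero hκ h₂)) C.sq₂
    rintro _ ⟨a, b, c, hR, rfl⟩
    refine ⟨-a, b, -c, hf₁ _ _ _ (hf₃ _ _ _ hR), conj g₂ _ _ ?_⟩
    rw [hg₂]
    have h21 : B₂ * B₁ = -(B₁ * B₂) := by rw [C.ac₁₂, neg_neg]
    simp only [Cl.psi_def, mul_add, add_mul, smul_mul_assoc, mul_smul_comm, h21, C.ac₂₃]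
    module
  have hstA : gA ∈ stabGL X := by
    have hsq := C.sq_psi 1 1 1 h2
    rw [hnorm111, mul_one] at hsq
    apply mem_stabGL_of_sq (neg_ne_zero.2 hκ) hsq
    rintro _ ⟨a, b, c, hR, rfl⟩
    have h6 := C.intertwine hnorm111 h2 a b c
    have h7 := hr 1 1 1 a b c h111 hR
    refine ⟨_, _, _, hf₁ _ _ _ (hf₂ _ _ _ (hf₃ _ _ _ h7)), conj gA _ _ ?_⟩
    rw [hgA]
    exact h6
  -- the group
  let G : Subgroup (PG F) := (stabGL X).map mkG
  have hmemG : ∀ g : GL (Fin 2) F, mkG g ∈ G → g ∈ stabGL X := by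
    rintro g ⟨Y, hY, hYg⟩
    obtain ⟨z, hz, rfl⟩ := Matrix.ProjGenLinGroup.mk_eq_mk_iff'.1 hYg
    exact (stabGL X).mul_mem hY (center_le_stabGL X hz)
  have hLL := d3_core p C hκ h₁ h₂ h₃ hsum hodd h5 rfl hg₁ hg₂ hgA (G := G) ⟨g₁, hst₁, rfl⟩ ⟨g₂, hst₂, rfl⟩
    ⟨gA, hstA, rfl⟩ hg4 hg2 hg5
  -- conclusion
  intro a b c habc
  have hdet' : (C.psi a b c).det = (C.psi 1 1 1).det := by
    rw [C.det_psi a b c h2, C.det_psi 1 1 1 h2, habc, hnorm111]
  obtain ⟨S, hS⟩ := conj_sl2 h2 (C.trace_psi 1 1 1) (C.trace_psi a b c) hdet'.symm hdetA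
  have hSmem : Matrix.SpecialLinearGroup.toGL S ∈ stabGL X := hmemG _ (hLL ⟨S, rfl⟩)
  have h1 : C.psi 1 1 1 ∈ X := ⟨1, 1, 1, h111, rfl⟩
  have h3 := (hSmem _).1 h1
  have h4 : (Matrix.SpecialLinearGroup.toGL S).val * C.psi 1 1 1 * ((Matrix.SpecialLinearGroup.toGL S)⁻¹).val =
      C.psi a b c := conj _ _ _ hS
  rw [h4] at h3
  obtain ⟨x, y, z, hR, hxyz⟩ := h3
  obtain ⟨rfl, rfl, rfl⟩ := C.psi_inj h2 hκ h₁ h₂ h₃ hxyz
  exact hR

end Cfsg.Agent.Lib.Classical.Frame
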