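/-
The block lemma and its first consequences for closed sets of unit vectors.
-/
import Mathlib
import Cfsg.Agent.Lib.Classical.Frame.Clos1
import Cfsg.Agent.Lib.Classical.Frame.D3c

set_option autoImplicit false
set_option linter.unusedSectionVars false
set_option linter.unusedSimpArgs false
set_option linter.unusedVariables false

namespace Cfsg.Agent.Lib.Classical.Frame

open Finset

variable {F ι : Type*} [Field F] [Fintype F] [Fintype ι] [DecidableEq ι]
variable {R : Set (ι → F)}

/-- The standing hypotheses on the field. -/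
structure Fld (F : Type*) [Field F] [Fintype F] : Prop where
  prime : (Fintype.card F).Prime
  odd : Odd (Fintype.card F)
  ge5 : 5 ≤ Fintype.card F

/-- **The block lemma.** -/
theorem block (hF : Fld F) (hR : Closed R) {x : ι → F} (hx : x ∈ R) {J₀ J₁ : Finset ι} (hd : Disjoint J₀ J₁)
    (hg : Good F (sq x J₀)) (h₀ : sq x J₀ ≠ 0) (h₁ : sq x J₁ ≠ 0) (h₂ : sq x (J₀ ∪ J₁)ᶜ ≠ 0) (a b c : F)
    (habc : sq x J₀ * a * a + sq x J₁ * b * b + sq x (J₀ ∪ J₁)ᶜ * c * c = 1) : bv x J₀ J₁ a b c ∈ R := by
  have hsum : sq x J₀ + sq x J₁ + sq x (J₀ ∪ J₁)ᶜ = 1 := by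
    rw [← sq_total x hd]
    exact hR.unit x hx
  refine d3 hF.prime hF.odd hF.ge5 h₀ h₁ h₂ hsum hg.1 hg.2.1 hg.2.2 (fun a b c => bv x J₀ J₁ a b c ∈ R) ?_ ?_ ?_ ?_ ?_ ?_
    a b c habc
  · show bv x J₀ J₁ 1 1 1 ∈ R
    rw [bv_one]
    exact hx
  · intro a b c h
    have := hR.unit _ h
    rwa [dt_bv x hd] at this
  · intro a b c h
    have := hR.flip_set h J₀
    convert this using 1
    ext i
    simp only [bv]
    by_cases h0 : i ∈ J₀
    · simp [h0]
    · simp [h0]
  · intro a b c h
    have := hR.flip_set h J₁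
    convert this using 1
    ext i
    simp only [bv]
    by_cases h0 : i ∈ J₀
    · have h1 : i ∉ J₁ := Finset.disjoint_left.1 hd h0
      simp [h0, h1]
    · by_cases h1 : i ∈ J₁
      · simp [h0, h1]
      · simp [h0, h1]
  · intro a b c h
    have := hR.flip_set h (J₀ ∪ J₁)ᶜ
    convert this using 1
    ext i
    simp only [bv]
    by_cases h0 : i ∈ J₀
    · simp [h0]
    · by_cases h1 : i ∈ J₁
      · simp [h1]
      · simp [h0, h1]
  · intro a b c x' y z h h'
    have := hR.refl _ h _ h'
    rw [dt_bv x hd] at this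
    convert this using 1
    ext i
    simp only [bv, Pi.sub_apply, Pi.smul_apply, smul_eq_mul]
    by_cases h0 : i ∈ J₀
    · simp only [h0, if_true]
      ring
    · by_cases h1 : i ∈ J₁
      · simp only [h0, h1, if_true, if_false]
        ring
      · simp only [h0, h1, if_false]
        ring

/-- Values of block vectors. -/
lemma supp_bv {x : ι → F} {J₀ J₁ : Finset ι} (h₀ : J₀ ⊆ supp x) (h₁ : J₁ ⊆ supp x) {a b : F} (ha : a ≠ 0) (hb : b ≠ 0) :
    supp (bv x J₀ J₁ a b 0) = J₀ ∪ J₁ := by
  ext i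
  rw [mem_supp, Finset.mem_union]
  simp only [bv]
  by_cases h0 : i ∈ J₀
  · simp [h0, ha, mem_supp.1 (h₀ h0)]
  · by_cases h1 : i ∈ J₁
    · simp [h0, h1, hb, mem_supp.1 (h₁ h1)]
    · simp [h0, h1]

/-- The rest is not empty when its square sum does not vanish. -/
lemma lt_wt_of_rest {x : ι → F} {J₀ J₁ : Finset ι} (h₀ : J₀ ⊆ supp x) (h₁ : J₁ ⊆ supp x)
    (h₂ : sq x (J₀ ∪ J₁)ᶜ ≠ 0) : (J₀ ∪ J₁).card < wt x := by
  apply Finset.card_lt_card
  refine ⟨Finset.union_subset h₀ h₁, ?_⟩
  intro h
  apply h₂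
  apply Finset.sum_eq_zero
  intro i hi
  have h3 : i ∉ J₀ ∪ J₁ := by simpa using hi
  have h4 : i ∉ supp x := fun h5 => h3 (h h5)
  have h5 : x i = 0 := by
    by_contra h6
    exact h4 (mem_supp.2 h6)
  rw [h5, mul_zero]

/-- All vectors of weight at most three. -/
def G3 (R : Set (ι → F)) : Prop := ∀ v : ι → F, dt v v = 1 → wt v ≤ 3 → v ∈ R

/-- The vectors which must always lie in `R`. -/
def Triv (v : ι → F) : Prop := wt v ≤ 1 ∨ (wt v = 2 ∧ ∀ i, v i ≠ 0 → 2 * (v i * v i) = 1)

lemma not_triv_of_three {v : ι → F} (h : 3 ≤ wt v) : ¬ Triv v := by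
  rintro (h1 | ⟨h1, -⟩) <;> omega

/-- Two zero coordinates. -/
lemma exists_two_zero {x : ι → F} (h : wt x + 2 ≤ Fintype.card ι) : ∃ u v, u ≠ v ∧ x u = 0 ∧ x v = 0 := by
  have h1 : 2 ≤ (supp x)ᶜ.card := by
    rw [Finset.card_compl]
    unfold wt at h
    omega
  obtain ⟨u, hu, v, hv, huv⟩ := Finset.one_lt_card.1 h1
  refine ⟨u, v, huv, ?_, ?_⟩
  · by_contra h2
    exact (Finset.mem_compl.1 hu) (mem_supp.2 h2)
  · by_contra h2
    exact (Finset.mem_compl.1 hv) (mem_supp.2 h2)

/-- **A vector of weight three with a good coordinate gives everything of weight three.** -/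
theorem W3 (hF : Fld F) (hR : Closed R) (hι : 5 ≤ Fintype.card ι) {z : ι → F} (hz : z ∈ R) {g h f : ι} (h1 : g ≠ h) (h2 : g ≠ f)
    (h3 : h ≠ f) (hg : z g ≠ 0) (hh : z h ≠ 0) (hf : z f ≠ 0) (hrest : ∀ c, c ≠ g → c ≠ h → c ≠ f → z c = 0)
    (hgood : Good F (z g * z g)) : G3 R := by
  classical
  have hd : Disjoint ({g} : Finset ι) {h} := by simpa using h1
  have hrest2 : sq z (({g} : Finset ι) ∪ {h})ᶜ = z f * z f := by
    unfold sq
    rw [Finset.sum_eq_single f]
    · intro c hc hcf
      have hc' : c ≠ g ∧ c ≠ h := by simpa using hc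
      rw [hrest c hc'.1 hc'.2 hcf, mul_zero]
    · intro hc
      exfalso
      apply hc
      simp [h2.symm, h3.symm]
  have hs₀ := sq_singleton z g
  have hs₁ := sq_singleton z h
  -- all vectors on the three coordinates
  have hall : ∀ a b c : F, a * a + b * b + c * c = 1 →
      (fun i => if i = g then a else if i = h then b else if i = f then c else 0) ∈ R := by
    intro a b c habc
    have h4 := block hF hR hz hd (by rw [hs₀]; exact hgood) (by rw [hs₀]; exact mul_ne_zero hg hg)
      (by rw [hs₁]; exact mul_ne_zero hh hh) (by rw [hrest2]; exact mul_ne_zero hf hf) (a / z g) (b / z h) (c / z f)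
      (by rw [hs₀, hs₁, hrest2]; field_simp; linear_combination habc)
    convert h4 using 1
    ext i
    simp only [bv, Finset.mem_singleton]
    by_cases hi : i = g
    · subst hi
      simp only [if_true]
      field_simp
    · by_cases hi2 : i = h
      · subst hi2
        simp only [hi, if_true, if_false]
        field_simp
      · by_cases hi3 : i = f
        · subst hi3
          simp only [hi, hi2, if_true, if_false]
          field_simp
        · simp [hi, hi2, hi3, hrest i hi hi2 hi3]
  intro v hv hw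
  -- three coordinates containing the support
  obtain ⟨i', j', k', h4, h5, h6, hsv⟩ : ∃ i' j' k' : ι, i' ≠ j' ∧ i' ≠ k' ∧ j' ≠ k' ∧ ∀ c, c ≠ i' → c ≠ j' → c ≠ k' → v c = 0 := by
    have h7 : (supp v).card ≤ (univ : Finset ι).card - 0 := by
      simp only [Nat.sub_zero, Finset.card_univ]
      exact Finset.card_le_univ _
    have h8 : 3 ≤ (univ : Finset ι).card := by
      rw [Finset.card_univ]
      omega
    obtain ⟨T, hT1, -, hT2⟩ := Finset.exists_subsuperset_card_eq (Finset.subset_univ (supp v)) hw h8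
    obtain ⟨i', j', k', h4, h5, h6, rfl⟩ := Finset.card_eq_three.1 hT2
    refine ⟨i', j', k', h4, h5, h6, ?_⟩
    intro c h9 h10 h11
    by_contra h12
    have := hT1 (mem_supp.2 h12)
    simp [h9, h10, h11] at this
  obtain ⟨σ, e1, e2, e3⟩ := exists_perm3 h4 h5 h6 h1 h2 h3
  -- the norm
  have hnorm : v i' * v i' + v j' * v j' + v k' * v k' = 1 := by
    rw [← hv]
    unfold dt
    rw [← sq_triple v h4 h5 h6]
    unfold sq
    apply Finset.sum_subset (Finset.subset_univ _)
    intro c _ hc
    have : c ≠ i' ∧ c ≠ j' ∧ c ≠ k' := by simpa using hc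
    rw [hsv c this.1 this.2.1 this.2.2, mul_zero]
  have h7 := hall _ _ _ hnorm
  have hw2 : wt (fun i => if i = g then v i' else if i = h then v j' else if i = f then v k' else 0 : ι → F) ≤ 3 := by
    unfold wt
    calc _ ≤ ({g, h, f} : Finset ι).card := by
            apply Finset.card_le_card
            intro c hc
            by_contra h9
            have h10 : c ≠ g ∧ c ≠ h ∧ c ≠ f := by simpa using h9
            apply mem_supp.1 hc
            simp [h10.1, h10.2.1, h10.2.2]
      _ ≤ 3 := Finset.card_le_three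
  obtain ⟨u, w, huw, hu, hw'⟩ := exists_two_zero (x := (fun i => if i = g then v i' else if i = h then v j' else if i = f then v k' else 0 : ι → F)) (by omega)
  have h8 := hR.perm_any h7 huw (hu.trans hw'.symm) σ
  convert h8 using 1
  ext c
  simp only [Function.comp]
  by_cases hc1 : c = i'
  · subst hc1
    simp [e1]
  · by_cases hc2 : c = j'
    · subst hc2
      simp [e2, h1.symm]
    · by_cases hc3 : c = k'
      · subst hc3
        simp [e3, h2.symm, h3.symm]
      · have n1 : σ c ≠ g := fun h' => hc1 (σ.injective (h'.trans e1.symm))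
        have n2 : σ c ≠ h := fun h' => hc2 (σ.injective (h'.trans e2.symm))
        have n3 : σ c ≠ f := fun h' => hc3 (σ.injective (h'.trans e3.symm))
        simp [n1, n2, n3, hsv c hc1 hc2 hc3]

end Cfsg.Agent.Lib.Classical.Frame
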