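/-
Tools for lowering the weight: conics, the fresh-coordinates step, explicit block vectors.
-/
import Mathlib
import Cfsg.Agent.Lib.Classical.Frame.Clos2

set_option autoImplicit false
set_option linter.unusedSectionVars false
set_option linter.unusedSimpArgs false
set_option linter.unusedVariables false

namespace Cfsg.Agent.Lib.Classical.Frame

open Finset Polynomial

variable {F ι : Type*} [Field F] [Fintype F] [Fintype ι] [DecidableEq ι]
variable {R : Set (ι → F)}

/-- Binary forms are universal. -/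
lemma binary (h2 : (2 : F) ≠ 0) {u v : F} (hu : u ≠ 0) (hv : v ≠ 0) (s : F) : ∃ a b : F, u * a * a + v * b * b = s := by
  have hodd : Fintype.card F % 2 = 1 := by
    have hne : ringChar F ≠ 2 := by
      intro h
      apply h2
      have : CharP F 2 := ringChar.of_eq h
      exact CharTwo.two_eq_zero
    exact FiniteField.odd_card_of_char_ne_two hne
  let P : F[X] := C u * X ^ 2
  let Q : F[X] := C v * X ^ 2 + C (-s)
  have hP : P.degree = 2 := Polynomial.degree_C_mul_X_pow 2 hu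
  have hQ : Q.degree = 2 := by
    have h1 : (C v * X ^ 2 : F[X]).degree = 2 := Polynomial.degree_C_mul_X_pow 2 hv
    rw [Polynomial.degree_add_C (by rw [h1]; norm_num)]
    exact h1
  obtain ⟨α, β, h⟩ := FiniteField.exists_root_sum_quadratic hP hQ hodd
  simp only [P, Q, eval_add, eval_mul, eval_C, eval_pow, eval_X] at h
  exact ⟨α, β, by linear_combination h⟩

lemma quad_ne_zero {α β γ : F} (h : α ≠ 0 ∨ β ≠ 0 ∨ γ ≠ 0) : (C α * X ^ 2 + C β * X + C γ : F[X]) ≠ 0 := by
  intro h0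
  have c2 := congrArg (fun p => p.coeff 2) h0
  have c1 := congrArg (fun p => p.coeff 1) h0
  have c0 := congrArg (fun p => p.coeff 0) h0
  simp [coeff_X, coeff_C, coeff_X_pow] at c2 c1 c0
  rcases h with h | h | h
  · exact h c2
  · exact h c1
  · exact h c0

/-- A conic has a point off the axes, for `p ≥ 7`. -/
theorem conic (h7 : 7 ≤ Fintype.card F) (h2 : (2 : F) ≠ 0) {u v : F} (hu : u ≠ 0) (hv : v ≠ 0) :
    ∃ a b : F, a ≠ 0 ∧ b ≠ 0 ∧ u * a * a + v * b * b = 1 := by
  obtain ⟨a₀, b₀, h⟩ := binary h2 hu hv 1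
  have hne : a₀ ≠ 0 ∨ b₀ ≠ 0 := by
    by_contra hc
    push Not at hc
    rw [hc.1, hc.2] at h
    simp at h
  let f₁ : F[X] := C (v * a₀) * X ^ 2 + C (-(2 * v * b₀)) * X + C (-(u * a₀))
  let f₂ : F[X] := C (-(v * b₀)) * X ^ 2 + C (-(2 * u * a₀)) * X + C (u * b₀)
  let f₃ : F[X] := C v * X ^ 2 + C 0 * X + C u
  have n₁ : f₁ ≠ 0 := by
    apply quad_ne_zero
    rcases hne with h1 | h1
    · exact Or.inl (mul_ne_zero hv h1)
    · exact Or.inr (Or.inl (neg_ne_zero.2 (mul_ne_zero (mul_ne_zero h2 hv) h1)))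
  have n₂ : f₂ ≠ 0 := by
    apply quad_ne_zero
    rcases hne with h1 | h1
    · exact Or.inr (Or.inl (neg_ne_zero.2 (mul_ne_zero (mul_ne_zero h2 hu) h1)))
    · exact Or.inl (neg_ne_zero.2 (mul_ne_zero hv h1))
  have n₃ : f₃ ≠ 0 := quad_ne_zero (Or.inl hv)
  have hdeg : (f₁ * f₂ * f₃).natDegree < Fintype.card F := by
    have d₁ : f₁.natDegree ≤ 2 := natDegree_quadratic_le
    have d₂ : f₂.natDegree ≤ 2 := natDegree_quadratic_le
    have d₃ : f₃.natDegree ≤ 2 := natDegree_quadratic_le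
    have e1 := natDegree_mul_le (p := f₁ * f₂) (q := f₃)
    have e2 := natDegree_mul_le (p := f₁) (q := f₂)
    omega
  obtain ⟨t, ht⟩ := exists_eval_ne_zero_of_natDegree_lt_card _ (mul_ne_zero (mul_ne_zero n₁ n₂) n₃)
    (by rw [Cardinal.mk_fintype]; exact_mod_cast hdeg)
  rw [eval_mul, eval_mul] at ht
  have t₁ : eval t f₁ ≠ 0 := fun h' => ht (by rw [h']; ring)
  have t₂ : eval t f₂ ≠ 0 := fun h' => ht (by rw [h']; ring)
  have t₃ : eval t f₃ ≠ 0 := fun h' => ht (by rw [h']; ring)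
  refine ⟨eval t f₁ / eval t f₃, eval t f₂ / eval t f₃, div_ne_zero t₁ t₃, div_ne_zero t₂ t₃, ?_⟩
  have e3 : eval t f₃ = u + v * t ^ 2 := by
    simp only [f₃, eval_add, eval_mul, eval_C, eval_pow, eval_X]
    ring
  have e1 : eval t f₁ = v * a₀ * t ^ 2 - 2 * v * b₀ * t - u * a₀ := by
    simp only [f₁, eval_add, eval_mul, eval_C, eval_pow, eval_X]
    ring
  have e2 : eval t f₂ = -(v * b₀) * t ^ 2 - 2 * u * a₀ * t + u * b₀ := by
    simp only [f₂, eval_add, eval_mul, eval_C, eval_pow, eval_X]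
    ring
  field_simp
  rw [e1, e2, e3]
  linear_combination (u + v * t ^ 2) ^ 2 * h

/-- **The step with fresh coordinates.** -/
theorem zstep (hR : Closed R) {x : ι → F} (hx : x ∈ R) {i j k n l m q : ι}
    (hnd : ([i, j, k, n, l, m, q] : List ι).Nodup) (hl : x l = 0) (hm : x m = 0) (hq : x q = 0)
    (hsupp : ∀ c, c ≠ i → c ≠ j → c ≠ k → c ≠ n → x c = 0) :
    ∃ z ∈ R, z i = (1 - 2 * (x i * x i)) * x i ∧ z j = -(2 * (x i * x i)) * x j ∧ z k = -(2 * (x i * x i)) * x k ∧
      z n = -(2 * (x i * x i)) * x n ∧ z l = x j ∧ z m = x k ∧ z q = x n ∧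
      ∀ c, c ≠ i → c ≠ j → c ≠ k → c ≠ n → c ≠ l → c ≠ m → c ≠ q → z c = 0 := by
  simp only [List.nodup_cons, List.mem_cons, List.not_mem_nil, or_false, not_or, List.nodup_nil, not_false_eq_true, and_true] at hnd
  obtain ⟨⟨ij, ik, in', il, im, iq⟩, ⟨jk, jn, jl, jm, jq⟩, ⟨kn, kl, km, kq⟩, ⟨nl, nm, nq⟩, ⟨lm, lq⟩, mq⟩ := hnd
  let σ : Equiv.Perm ι := Equiv.swap j l * (Equiv.swap k m * Equiv.swap n q)
  have σi : σ i = i := by
    simp [σ, Equiv.swap_apply_of_ne_of_ne, in', iq, ik, im, ij, il]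
  have σj : σ j = l := by
    simp [σ, Equiv.swap_apply_of_ne_of_ne, jn, jq, jk, jm]
  have σk : σ k = m := by
    have e1 : Equiv.swap n q k = k := Equiv.swap_apply_of_ne_of_ne (Ne.symm kn |>.symm) (kq)
    have e2 : Equiv.swap k m k = m := Equiv.swap_apply_left _ _
    have e3 : Equiv.swap j l m = m := Equiv.swap_apply_of_ne_of_ne (Ne.symm jm) (Ne.symm lm)
    simp only [σ, Equiv.Perm.mul_apply]
    rw [e1, e2, e3]
  have σn : σ n = q := by
    have e1 : Equiv.swap n q n = q := Equiv.swap_apply_left _ _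
    have e2 : Equiv.swap k m q = q := Equiv.swap_apply_of_ne_of_ne (Ne.symm kq) (Ne.symm mq)
    have e3 : Equiv.swap j l q = q := Equiv.swap_apply_of_ne_of_ne (Ne.symm jq) (Ne.symm lq)
    simp only [σ, Equiv.Perm.mul_apply]
    rw [e1, e2, e3]
  have σl : σ l = j := by
    have e1 : Equiv.swap n q l = l := Equiv.swap_apply_of_ne_of_ne (Ne.symm nl) (lq)
    have e2 : Equiv.swap k m l = l := Equiv.swap_apply_of_ne_of_ne (Ne.symm kl) (lm)
    have e3 : Equiv.swap j l l = j := Equiv.swap_apply_right _ _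
    simp only [σ, Equiv.Perm.mul_apply]
    rw [e1, e2, e3]
  have σm : σ m = k := by
    have e1 : Equiv.swap n q m = m := Equiv.swap_apply_of_ne_of_ne (Ne.symm nm) mq
    have e2 : Equiv.swap k m m = k := Equiv.swap_apply_right _ _
    have e3 : Equiv.swap j l k = k := Equiv.swap_apply_of_ne_of_ne (Ne.symm jk) kl
    simp only [σ, Equiv.Perm.mul_apply]
    rw [e1, e2, e3]
  have σq : σ q = n := by
    have e1 : Equiv.swap n q q = n := Equiv.swap_apply_right _ _
    have e2 : Equiv.swap k m n = n := Equiv.swap_apply_of_ne_of_ne (Ne.symm kn) nm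
    have e3 : Equiv.swap j l n = n := Equiv.swap_apply_of_ne_of_ne (Ne.symm jn) nl
    simp only [σ, Equiv.Perm.mul_apply]
    rw [e1, e2, e3]
  have σc : ∀ c, c ≠ j → c ≠ k → c ≠ n → c ≠ l → c ≠ m → c ≠ q → σ c = c := by
    intro c a1 a2 a3 a4 a5 a6
    simp only [σ, Equiv.Perm.mul_apply]
    rw [Equiv.swap_apply_of_ne_of_ne a3 a6, Equiv.swap_apply_of_ne_of_ne a2 a5, Equiv.swap_apply_of_ne_of_ne a1 a4]
  have hy := hR.perm_any hx lm (hl.trans hm.symm) σ
  have hdt : dt x (x ∘ σ) = x i * x i := by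
    unfold dt
    rw [Finset.sum_eq_single i]
    · simp only [Function.comp, σi]
    · intro c _ hc
      simp only [Function.comp]
      by_cases a1 : c = j
      · rw [a1, σj, hl, mul_zero]
      · by_cases a2 : c = k
        · rw [a2, σk, hm, mul_zero]
        · by_cases a3 : c = n
          · rw [a3, σn, hq, mul_zero]
          · rw [hsupp c hc a1 a2 a3, zero_mul]
    · simp
  have hz := hR.refl x hx _ hy
  rw [hdt] at hz
  refine ⟨_, hz, ?_, ?_, ?_, ?_, ?_, ?_, ?_, ?_⟩
  · simp only [Pi.sub_apply, Pi.smul_apply, Function.comp, σi, smul_eq_mul]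
    ring
  · simp only [Pi.sub_apply, Pi.smul_apply, Function.comp, σj, smul_eq_mul, hl]
    ring
  · simp only [Pi.sub_apply, Pi.smul_apply, Function.comp, σk, smul_eq_mul, hm]
    ring
  · simp only [Pi.sub_apply, Pi.smul_apply, Function.comp, σn, smul_eq_mul, hq]
    ring
  · simp only [Pi.sub_apply, Pi.smul_apply, Function.comp, σl, smul_eq_mul, hl]
    ring
  · simp only [Pi.sub_apply, Pi.smul_apply, Function.comp, σm, smul_eq_mul, hm]
    ring
  · simp only [Pi.sub_apply, Pi.smul_apply, Function.comp, σq, smul_eq_mul, hq]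
    ring
  · intro c a1 a2 a3 a4 a5 a6 a7
    simp only [Pi.sub_apply, Pi.smul_apply, Function.comp, smul_eq_mul]
    rw [σc c a2 a3 a4 a5 a6 a7, hsupp c a1 a2 a3 a4]
    ring

/-- Lowering the weight with explicit coefficients. -/
theorem lower_step (hF : Fld F) (hR : Closed R) {x : ι → F} (hx : x ∈ R) {J₀ J₁ : Finset ι} (hd : Disjoint J₀ J₁)
    (h₀ : J₀ ⊆ supp x) (h₁ : J₁ ⊆ supp x) (hg : Good F (sq x J₀)) (hs₀ : sq x J₀ ≠ 0) (hs₁ : sq x J₁ ≠ 0)
    (hs₂ : sq x J₀ + sq x J₁ ≠ 1) {a b : F} (ha : a ≠ 0) (hb : b ≠ 0)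
    (hab : sq x J₀ * a * a + sq x J₁ * b * b = 1) :
    ∃ v ∈ R, wt v = (J₀ ∪ J₁).card ∧ wt v < wt x := by
  have ht := sq_total x hd
  rw [hR.unit x hx] at ht
  have hrest : sq x (J₀ ∪ J₁)ᶜ ≠ 0 := by
    intro h
    apply hs₂
    rw [h, add_zero] at ht
    exact ht.symm
  have hv := block hF hR hx hd hg hs₀ hs₁ hrest a b 0 (by rw [mul_zero, add_zero]; exact hab)
  have hw : wt (bv x J₀ J₁ a b 0) = (J₀ ∪ J₁).card := by
    unfold wt
    rw [supp_bv h₀ h₁ ha hb]
  exact ⟨_, hv, hw, by rw [hw]; exact lt_wt_of_rest h₀ h₁ hrest⟩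

/-- All pairs on two coordinates from a good coordinate and a second one. -/
theorem pairs_of_good (hF : Fld F) (hR : Closed R) {z : ι → F} (hz : z ∈ R) {g h : ι} (hgh : g ≠ h) (h₁ : z g ≠ 0) (h₂ : z h ≠ 0)
    (hgood : Good F (z g * z g)) (hne : z g * z g + z h * z h ≠ 1) {u v : F} (huv : u * u + v * v = 1) :
    (fun c => if c = g then u else if c = h then v else 0) ∈ R := by
  have hd : Disjoint ({g} : Finset ι) {h} := by simpa using hgh
  have hs₀ := sq_singleton z g
  have hs₁ := sq_singleton z h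
  have ht := sq_total z hd
  rw [hR.unit z hz, hs₀, hs₁] at ht
  have hrest : sq z (({g} : Finset ι) ∪ {h})ᶜ ≠ 0 := by
    intro h'
    apply hne
    rw [h', add_zero] at ht
    exact ht.symm
  have hv := block hF hR hz hd (by rw [hs₀]; exact hgood) (by rw [hs₀]; exact mul_ne_zero h₁ h₁)
    (by rw [hs₁]; exact mul_ne_zero h₂ h₂) hrest (u / z g) (v / z h) 0
    (by rw [hs₀, hs₁]; field_simp; linear_combination huv)
  convert hv using 1
  ext c
  simp only [bv, Finset.mem_singleton]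
  by_cases hc : c = g
  · subst hc
    simp only [if_true]
    field_simp
  · by_cases hc2 : c = h
    · subst hc2
      simp only [hc, if_true, if_false]
      field_simp
    · simp [hc, hc2]

lemma flip_of_sq (hR : Closed R) {y v : ι → F} (hy : y ∈ R) (h : ∀ c, v c * v c = y c * y c) : v ∈ R := by
  classical
  have := hR.flip_set hy (univ.filter (fun c => v c ≠ y c))
  convert this using 1
  ext c
  by_cases hc : v c = y c
  · simp [hc]
  · have h1 : (v c - y c) * (v c + y c) = 0 := by linear_combination h c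
    have h2 : v c + y c = 0 := (mul_eq_zero.1 h1).resolve_left (sub_ne_zero.2 hc)
    simp [hc]
    linear_combination h2

end Cfsg.Agent.Lib.Classical.Frame
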