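/-
From a nontrivial vector to all vectors of weight at most three, for `p ≥ 5`.
-/
import Mathlib
import Cfsg.Agent.Lib.Classical.Frame.Clos3

set_option autoImplicit false
set_option linter.unusedSectionVars false
set_option linter.unusedSimpArgs false
set_option linter.unusedVariables false

namespace Cfsg.Agent.Lib.Classical.Frame

open Finset

variable {F ι : Type*} [Field F] [Fintype F] [Fintype ι] [DecidableEq ι]
variable {R : Set (ι → F)}

lemma exists_fresh (T : Finset ι) (h : T.card < Fintype.card ι) : ∃ c, c ∉ T := by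
  by_contra hc
  push Not at hc
  have : T = univ := Finset.eq_univ_iff_forall.2 hc
  rw [this, Finset.card_univ] at h
  omega

lemma dt_of_sub {x : ι → F} {T : Finset ι} (h : ∀ c, c ∉ T → x c = 0) : dt x x = sq x T := by
  unfold dt sq
  symm
  apply Finset.sum_subset (Finset.subset_univ _)
  intro c _ hc
  rw [h c hc, mul_zero]

lemma nz_supp {x : ι → F} {c : ι} (h : c ∉ supp x) : x c = 0 := by
  by_contra h1
  exact h (mem_supp.2 h1)

lemma sq_ne_zero_of {x : ι → F} {c : ι} (h : x c ≠ 0) : x c * x c ≠ 0 := mul_ne_zero h h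

/-- A permutation moving one set onto another of the same size. -/
lemma exists_perm_image {S T : Finset ι} (h : S.card = T.card) : ∃ σ : Equiv.Perm ι, ∀ c, σ c ∈ T ↔ c ∈ S := by
  classical
  have e : {x // x ∈ S} ≃ {x // x ∈ T} := Fintype.equivOfCardEq (by simpa using h)
  refine ⟨e.extendSubtype, fun c => ?_⟩
  by_cases hc : c ∈ S
  · simp [hc, e.extendSubtype_mem c hc]
  · simp [hc, e.extendSubtype_not_mem c hc]

section main

variable (hF : Fld F) (hR : Closed R) (hι : 9 ≤ Fintype.card ι)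
include hF hR hι

/-- Weight two, with a good coordinate. -/
theorem W2_aux {x : ι → F} (hx : x ∈ R) {i j : ι} (hij : i ≠ j) (hi : x i ≠ 0) (hj : x j ≠ 0)
    (hrest : ∀ c, c ≠ i → c ≠ j → x c = 0) (hgood : Good F (x i * x i)) (h2j : 2 * (x j * x j) ≠ 1) : G3 R := by
  have h2 : (2 : F) ≠ 0 := Cfsg.Agent.Lib.PSL2.TorusCore.two_ne_zero_of_odd_card hF.odd
  obtain ⟨k, hk⟩ := exists_fresh ({i, j} : Finset ι) (lt_of_le_of_lt Finset.card_le_two (by omega))
  obtain ⟨n, hn⟩ := exists_fresh ({i, j, k} : Finset ι) (lt_of_le_of_lt Finset.card_le_three (by omega))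
  obtain ⟨l, hl⟩ := exists_fresh ({i, j, k, n} : Finset ι) (lt_of_le_of_lt Finset.card_le_four (by omega))
  obtain ⟨m, hm⟩ := exists_fresh ({i, j, k, n, l} : Finset ι) (lt_of_le_of_lt Finset.card_le_five (by omega))
  obtain ⟨q, hq⟩ := exists_fresh ({i, j, k, n, l, m} : Finset ι) (lt_of_le_of_lt Finset.card_le_six (by omega))
  simp only [Finset.mem_insert, Finset.mem_singleton, not_or] at hk hn hl hm hq
  obtain ⟨k1, k2⟩ := hk
  obtain ⟨n1, n2, n3⟩ := hn
  obtain ⟨l1, l2, l3, l4⟩ := hl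
  obtain ⟨m1, m2, m3, m4, m5⟩ := hm
  obtain ⟨q1, q2, q3, q4, q5, q6⟩ := hq
  have hnd : ([j, i, k, n, l, m, q] : List ι).Nodup := by
    simp only [List.nodup_cons, List.mem_cons, List.not_mem_nil, or_false, not_or, List.nodup_nil, not_false_eq_true,
      and_true]
    exact ⟨⟨hij.symm, Ne.symm k2, Ne.symm n2, Ne.symm l2, Ne.symm m2, Ne.symm q2⟩,
      ⟨Ne.symm k1, Ne.symm n1, Ne.symm l1, Ne.symm m1, Ne.symm q1⟩, ⟨Ne.symm n3, Ne.symm l3, Ne.symm m3, Ne.symm q3⟩,
      ⟨Ne.symm l4, Ne.symm m4, Ne.symm q4⟩, ⟨Ne.symm m5, Ne.symm q5⟩, Ne.symm q6⟩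
  have xk := hrest k k1 k2
  have xn := hrest n n1 n2
  have xl := hrest l l1 l2
  have xm := hrest m m1 m2
  have xq := hrest q q1 q2
  obtain ⟨z, hz, z1, z2, z3, z4, z5, z6, z7, z8⟩ := zstep hR hx hnd xl xm xq
    (fun c a1 a2 a3 a4 => hrest c a2 a1)
  rw [xk, mul_zero] at z3
  rw [xn, mul_zero] at z4
  rw [xk] at z6
  rw [xn] at z7
  have hB : x j * x j ≠ 0 := mul_ne_zero hj hj
  refine W3 hF hR (by omega) hz (g := l) (h := i) (f := j) l1 l2 hij ?_ ?_ ?_ ?_ ?_
  · rw [z5]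
    exact hi
  · rw [z2]
    exact mul_ne_zero (neg_ne_zero.2 (mul_ne_zero h2 hB)) hi
  · rw [z1]
    refine mul_ne_zero ?_ hj
    intro h
    apply h2j
    linear_combination -h
  · intro c a1 a2 a3
    by_cases b1 : c = k
    · rw [b1, z3]
    · by_cases b2 : c = n
      · rw [b2, z4]
      · by_cases b3 : c = m
        · rw [b3, z6]
        · by_cases b4 : c = q
          · rw [b4, z7]
          · exact z8 c a3 a2 b1 b2 a1 b3 b4
  · rw [z5]
    exact hgood

/-- Weight two. -/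
theorem case2 {x : ι → F} (hx : x ∈ R) {i j : ι} (hij : i ≠ j) (hi : x i ≠ 0) (hj : x j ≠ 0)
    (hrest : ∀ c, c ≠ i → c ≠ j → x c = 0) (hnt : 2 * (x i * x i) ≠ 1) : G3 R := by
  have h2 : (2 : F) ≠ 0 := Cfsg.Agent.Lib.PSL2.TorusCore.two_ne_zero_of_odd_card hF.odd
  have hsum : x i * x i + x j * x j = 1 := by
    have h1 := hR.unit x hx
    rw [dt_of_sub (T := {i, j}) (fun c hc => by
      have : c ≠ i ∧ c ≠ j := by simpa using hc
      exact hrest c this.1 this.2), sq_pair x hij] at h1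
    exact h1
  have hnt2 : 2 * (x j * x j) ≠ 1 := by
    intro h
    apply hnt
    linear_combination 2 * hsum - h
  rcases bad_pair h2 hsum hnt with h | h
  · exact W2_aux hF hR hι hx hij hi hj hrest h hnt2
  · exact W2_aux hF hR hι hx hij.symm hj hi (fun c a b => hrest c b a) h hnt

/-- The vector `(3/5, 4/5)`. -/
theorem pyth (h3 : (3 : F) ≠ 0) (h5 : (5 : F) ≠ 0) (h7 : (7 : F) ≠ 0) {g h : ι} (hgh : g ≠ h)
    (hw : (fun c => if c = g then (3 / 5 : F) else if c = h then (4 / 5 : F) else 0) ∈ R) : G3 R := by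
  have h2 : (2 : F) ≠ 0 := Cfsg.Agent.Lib.PSL2.TorusCore.two_ne_zero_of_odd_card hF.odd
  have h4 : (4 : F) ≠ 0 := by
    have : (4 : F) = 2 * 2 := by norm_num
    rw [this]
    exact mul_ne_zero h2 h2
  refine case2 hF hR hι hw hgh ?_ ?_ ?_ ?_
  · simp only [if_true]
    exact div_ne_zero h3 h5
  · simp only [hgh.symm, if_true, if_false]
    exact div_ne_zero h4 h5
  · intro c a1 a2
    simp [a1, a2]
  · simp only [if_true]
    intro h
    field_simp at h
    apply h7
    linear_combination -h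

/-- Weight three and no good coordinate, `p ≥ 11`. -/
theorem rigid_aux (h3 : (3 : F) ≠ 0) (h5 : (5 : F) ≠ 0) (h7 : (7 : F) ≠ 0) {x : ι → F} (hx : x ∈ R) {i j k : ι}
    (hij : i ≠ j) (hik : i ≠ k) (hjk : j ≠ k) (hi : x i ≠ 0) (hj : x j ≠ 0) (hk : x k ≠ 0)
    (hrest : ∀ c, c ≠ i → c ≠ j → c ≠ k → x c = 0) {s : F}
    (hs : s = ((1 - 2 * (x i * x i)) * x i) * ((1 - 2 * (x i * x i)) * x i))
    (hgood : Good F s) (hA : 2 * (x i * x i) ≠ 1) (hne : s + x j * x j ≠ 1 ∨ s + x k * x k ≠ 1) : G3 R := by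
  obtain ⟨n, hn⟩ := exists_fresh ({i, j, k} : Finset ι) (lt_of_le_of_lt Finset.card_le_three (by omega))
  obtain ⟨l, hl⟩ := exists_fresh ({i, j, k, n} : Finset ι) (lt_of_le_of_lt Finset.card_le_four (by omega))
  obtain ⟨m, hm⟩ := exists_fresh ({i, j, k, n, l} : Finset ι) (lt_of_le_of_lt Finset.card_le_five (by omega))
  obtain ⟨q, hq⟩ := exists_fresh ({i, j, k, n, l, m} : Finset ι) (lt_of_le_of_lt Finset.card_le_six (by omega))
  simp only [Finset.mem_insert, Finset.mem_singleton, not_or] at hn hl hm hq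
  obtain ⟨n1, n2, n3⟩ := hn
  obtain ⟨l1, l2, l3, l4⟩ := hl
  obtain ⟨m1, m2, m3, m4, m5⟩ := hm
  obtain ⟨q1, q2, q3, q4, q5, q6⟩ := hq
  have hnd : ([i, j, k, n, l, m, q] : List ι).Nodup := by
    simp only [List.nodup_cons, List.mem_cons, List.not_mem_nil, or_false, not_or, List.nodup_nil, not_false_eq_true,
      and_true]
    exact ⟨⟨hij, hik, Ne.symm n1, Ne.symm l1, Ne.symm m1, Ne.symm q1⟩,
      ⟨hjk, Ne.symm n2, Ne.symm l2, Ne.symm m2, Ne.symm q2⟩, ⟨Ne.symm n3, Ne.symm l3, Ne.symm m3, Ne.symm q3⟩,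
      ⟨Ne.symm l4, Ne.symm m4, Ne.symm q4⟩, ⟨Ne.symm m5, Ne.symm q5⟩, Ne.symm q6⟩
  obtain ⟨z, hz, z1, z2, z3, z4, z5, z6, z7, z8⟩ := zstep hR hx hnd (hrest l l1 l2 l3) (hrest m m1 m2 m3) (hrest q q1 q2 q3)
    (fun c a1 a2 a3 a4 => hrest c a1 a2 a3)
  have hzi : z i ≠ 0 := by
    rw [z1]
    refine mul_ne_zero ?_ hi
    intro h
    apply hA
    linear_combination -h
  have hgi : Good F (z i * z i) := by
    rw [z1, ← hs]
    exact hgood
  have e1 : z i * z i = s := by rw [z1, hs]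
  have huv : (3 / 5 : F) * (3 / 5) + (4 / 5) * (4 / 5) = 1 := by
    field_simp
    norm_num
  rcases hne with h | h
  · have hp := pairs_of_good hF hR hz (Ne.symm l1) hzi (by rw [z5]; exact hj) hgi (by rw [e1, z5]; exact h) huv
    exact pyth hF hR hι h3 h5 h7 (Ne.symm l1) hp
  · have hp := pairs_of_good hF hR hz (Ne.symm m1) hzi (by rw [z6]; exact hk) hgi (by rw [e1, z6]; exact h) huv
    exact pyth hF hR hι h3 h5 h7 (Ne.symm m1) hp

/-- Weight three and no good coordinate, with a coordinate of square one quarter. -/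
theorem rigid_quarter (h3 : (3 : F) ≠ 0) (h5 : (5 : F) ≠ 0) (h7 : (7 : F) ≠ 0) {x : ι → F} (hx : x ∈ R) {i j k : ι}
    (hij : i ≠ j) (hik : i ≠ k) (hjk : j ≠ k) (hi : x i ≠ 0) (hj : x j ≠ 0) (hk : x k ≠ 0)
    (hrest : ∀ c, c ≠ i → c ≠ j → c ≠ k → x c = 0) (hA : 4 * (x i * x i) = 1) : G3 R := by
  have h2 : (2 : F) ≠ 0 := Cfsg.Agent.Lib.PSL2.TorusCore.two_ne_zero_of_odd_card hF.odd
  have hsum : x i * x i + x j * x j + x k * x k = 1 := by
    have h1 := hR.unit x hx
    rw [dt_of_sub (T := {i, j, k}) (fun c hc => by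
      have : c ≠ i ∧ c ≠ j ∧ c ≠ k := by simpa using hc
      exact hrest c this.1 this.2.1 this.2.2), sq_triple x hij hik hjk] at h1
    exact h1
  have hs16 : 16 * (((1 - 2 * (x i * x i)) * x i) * ((1 - 2 * (x i * x i)) * x i)) = 1 := by
    have e : 2 * (1 - 2 * (x i * x i)) = 1 := by linear_combination -hA
    have e' : 4 * ((1 - 2 * (x i * x i)) * (1 - 2 * (x i * x i))) = 1 := by
      linear_combination (2 * (1 - 2 * (x i * x i)) + 1) * e
    linear_combination (4 * (x i * x i)) * e' + hA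
  refine rigid_aux hF hR hι h3 h5 h7 hx hij hik hjk hi hj hk hrest rfl (good_sixteenth h3 h5 h7 hs16) ?_ ?_
  · intro h
    have : (1 : F) = 0 := by linear_combination hA - 2 * h
    exact one_ne_zero this
  · by_contra hc
    push Not at hc
    apply h3
    set s := ((1 - 2 * (x i * x i)) * x i) * ((1 - 2 * (x i * x i)) * x i) with hsdef
    have e : (2 : F) * (3 * 3) = 0 := by
      linear_combination 16 * hsum - 4 * hA - 16 * hc.1 - 16 * hc.2 + 2 * hs16
    have := (mul_eq_zero.1 e).resolve_left h2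
    exact (mul_eq_zero.1 this).elim id id

end main

end Cfsg.Agent.Lib.Classical.Frame
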