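/-
From a nontrivial vector to all vectors of weight at most three, for `p ≥ 5`: the induction.
-/
import Mathlib
import Cfsg.Agent.Lib.Classical.Frame.Clos4

set_option autoImplicit false
set_option linter.unusedSectionVars false
set_option linter.unusedSimpArgs false
set_option linter.unusedVariables false

namespace Cfsg.Agent.Lib.Classical.Frame

open Finset

variable {F ι : Type*} [Field F] [Fintype F] [Fintype ι] [DecidableEq ι]
variable {R : Set (ι → F)}

lemma choose_sum (h2 : (2 : F) ≠ 0) (h3 : (3 : F) ≠ 0) {α β γ : F} (d : F) (hα : α ≠ 0) (hβ : β ≠ 0) (hγ : γ ≠ 0) :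
    (α + β ≠ 0 ∧ α + β ≠ d) ∨ (α + γ ≠ 0 ∧ α + γ ≠ d) ∨ (β + γ ≠ 0 ∧ β + γ ≠ d) ∨ (α + β + γ ≠ 0 ∧ α + β + γ ≠ d) := by
  by_contra hc
  push Not at hc
  obtain ⟨c1, c2, c3, c4⟩ := hc
  by_cases hs : α + β + γ = 0
  · have e1 : α + β = d := c1 (by intro h; apply hγ; linear_combination hs - h)
    have e2 : α + γ = d := c2 (by intro h; apply hβ; linear_combination hs - h)
    have e3 : β + γ = d := c3 (by intro h; apply hα; linear_combination hs - h)
    have e4 : 3 * α = 0 := by linear_combination hs + e1 + e2 - 2 * e3 - (β + γ) + (β + γ) 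
    exact hα ((mul_eq_zero.1 e4).resolve_left h3)
  · have e0 := c4 hs
    have e1 : α + β = 0 := by
      by_contra h
      apply hγ
      linear_combination e0 - c1 h
    have e2 : α + γ = 0 := by
      by_contra h
      apply hβ
      linear_combination e0 - c2 h
    have e3 : β + γ = 0 := by
      by_contra h
      apply hα
      linear_combination e0 - c3 h
    have e4 : 2 * α = 0 := by linear_combination e1 + e2 - e3
    exact hα ((mul_eq_zero.1 e4).resolve_left h2)

lemma card_cast (hprime : (Fintype.card F).Prime) : ((Fintype.card F : ℕ) : F) = 0 := by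
  haveI := charP_card hprime
  exact CharP.cast_eq_zero F _

lemma seven_zero (hprime : (Fintype.card F).Prime) (h : Fintype.card F = 7) : (7 : F) = 0 := by
  have := card_cast hprime
  rw [h] at this
  exact_mod_cast this

lemma five_zero (hprime : (Fintype.card F).Prime) (h : Fintype.card F = 5) : (5 : F) = 0 := by
  have := card_cast hprime
  rw [h] at this
  exact_mod_cast this

lemma sq_vals7 (hprime : (Fintype.card F).Prime) (h : Fintype.card F = 7) {a : F} (ha : a ≠ 0) :
    a * a = 1 ∨ a * a = 2 ∨ a * a = 4 := by
  have h7 := seven_zero hprime h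
  have e := FiniteField.pow_card a
  rw [h] at e
  have e2 : a ^ 6 = 1 := by
    apply mul_left_cancel₀ ha
    rw [mul_one]
    calc a * a ^ 6 = a ^ 7 := by ring
      _ = a := e
  have e3 : (a * a - 1) * ((a * a - 2) * (a * a - 4)) = 0 := by
    linear_combination e2 + (-(a * a * (a * a)) + 2 * (a * a) - 1) * h7
  rcases mul_eq_zero.1 e3 with e4 | e4
  · exact Or.inl (by linear_combination e4)
  · rcases mul_eq_zero.1 e4 with e5 | e5
    · exact Or.inr (Or.inl (by linear_combination e5))
    · exact Or.inr (Or.inr (by linear_combination e5))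

lemma sq_vals5 (hprime : (Fintype.card F).Prime) (h : Fintype.card F = 5) {a : F} (ha : a ≠ 0) :
    a * a = 1 ∨ a * a = 4 := by
  have h5 := five_zero hprime h
  have e := FiniteField.pow_card a
  rw [h] at e
  have e2 : a ^ 4 = 1 := by
    apply mul_left_cancel₀ ha
    rw [mul_one]
    calc a * a ^ 4 = a ^ 5 := by ring
      _ = a := e
  have e3 : (a * a - 1) * (a * a - 4) = 0 := by
    linear_combination e2 - (a * a) * h5 + h5
  rcases mul_eq_zero.1 e3 with e4 | e4
  · exact Or.inl (by linear_combination e4)
  · exact Or.inr (by linear_combination e4)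

lemma not_half_11 (hprime : (Fintype.card F).Prime) (h3 : (3 : F) ≠ 0) (h11 : (11 : F) = 0) {a : F} (ha : a ≠ 0)
    (h : 2 * (a * a) = 1) : False := by
  have hc : Fintype.card F = 11 := card_eq_of_cast_zero hprime (n := 11) (by norm_num) (by exact_mod_cast h11)
  have e := FiniteField.pow_card a
  rw [hc] at e
  have e2 : a ^ 10 = 1 := by
    apply mul_left_cancel₀ ha
    rw [mul_one]
    calc a * a ^ 10 = a ^ 11 := by ring
      _ = a := e
  have e3 : (3 : F) * 3 = 0 := by
    have e4 : (2 * (a * a)) ^ 5 = 1 := by rw [h, one_pow]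
    have e5 : (32 : F) = 1 := by
      rw [← e4]
      have : (2 * (a * a)) ^ 5 = 32 * a ^ 10 := by ring
      rw [this, e2, mul_one]
    linear_combination e5 - 2 * h11
  exact h3 ((mul_eq_zero.1 e3).elim id id)

section main

variable (hF : Fld F) (hR : Closed R) (hι : 9 ≤ Fintype.card ι)
include hF hR hι

/-- Weight three at `p = 7`. -/
theorem g3_seven (hc : Fintype.card F = 7) {x : ι → F} (hx : x ∈ R) {i j k : ι} (hij : i ≠ j) (hik : i ≠ k) (hjk : j ≠ k)
    (hrest : ∀ c, c ≠ i → c ≠ j → c ≠ k → x c = 0) (hA : x i * x i = 2) (hB : x j * x j = 2) (hC : x k * x k = 4) :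
    G3 R := by
  have h7 := seven_zero hF.prime hc
  have hp := hF.prime
  have h1 : (1 : F) ≠ 0 := one_ne_zero
  have h2 : (2 : F) ≠ 0 := by
    have := cast_ne_zero_of_lt (F := F) hp (n := 2) (by norm_num) (by omega)
    exact_mod_cast this
  have h3 : (3 : F) ≠ 0 := by
    have := cast_ne_zero_of_lt (F := F) hp (n := 3) (by norm_num) (by omega)
    exact_mod_cast this
  have h4 : (4 : F) ≠ 0 := by
    have := cast_ne_zero_of_lt (F := F) hp (n := 4) (by norm_num) (by omega)
    exact_mod_cast this
  have h5 : (5 : F) ≠ 0 := by
    have := cast_ne_zero_of_lt (F := F) hp (n := 5) (by norm_num) (by omega)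
    exact_mod_cast this
  have h6 : (6 : F) ≠ 0 := by
    have := cast_ne_zero_of_lt (F := F) hp (n := 6) (by norm_num) (by omega)
    exact_mod_cast this
  -- shape three
  have shape : ∀ (v : ι → F) (c d e : ι), c ≠ d → c ≠ e → d ≠ e → (∀ t, t ≠ c → t ≠ d → t ≠ e → v t = 0) →
      v c * v c = 2 → v d * v d = 2 → v e * v e = 4 → v ∈ R := by
    intro v c d e h1' h2' h3' hv e1 e2 e3
    obtain ⟨σ, s1, s2, s3⟩ := exists_perm3 h1' h2' h3' hij hik hjk
    have hwx : wt x ≤ 3 := by
      unfold wt
      calc _ ≤ ({i, j, k} : Finset ι).card := by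
              apply Finset.card_le_card
              intro t ht
              by_contra h9
              have h10 : t ≠ i ∧ t ≠ j ∧ t ≠ k := by simpa using h9
              exact mem_supp.1 ht (hrest t h10.1 h10.2.1 h10.2.2)
        _ ≤ 3 := Finset.card_le_three
    obtain ⟨u, w, huw, hu, hw⟩ := exists_two_zero (x := x) (by omega)
    have hy := hR.perm_any hx huw (hu.trans hw.symm) σ
    apply flip_of_sq hR hy
    intro t
    simp only [Function.comp]
    by_cases b1 : t = c
    · rw [b1, s1, e1, hA]
    · by_cases b2 : t = d
      · rw [b2, s2, e2, hB]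
      · by_cases b3 : t = e
        · rw [b3, s3, e3, hC]
        · have n1 : σ t ≠ i := fun h' => b1 (σ.injective (h'.trans s1.symm))
          have n2 : σ t ≠ j := fun h' => b2 (σ.injective (h'.trans s2.symm))
          have n3 : σ t ≠ k := fun h' => b3 (σ.injective (h'.trans s3.symm))
          rw [hv t b1 b2 b3, hrest _ n1 n2 n3]
  intro v hv hw
  have hcases : wt v = 0 ∨ wt v = 1 ∨ wt v = 2 ∨ wt v = 3 := by omega
  rcases hcases with h0 | h0 | h0 | h0
  · exfalso
    have : supp v = ∅ := Finset.card_eq_zero.1 h0
    rw [dt_eq_sum_supp, this, Finset.sum_empty] at hv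
    exact h1 hv.symm
  · obtain ⟨c, hs⟩ := Finset.card_eq_one.1 h0
    have hvv : v c * v c = 1 := by
      rw [dt_eq_sum_supp, hs, Finset.sum_singleton] at hv
      exact hv
    apply flip_of_sq hR (hR.basis c)
    intro t
    by_cases b : t = c
    · subst b
      simp [hvv]
    · have : v t = 0 := nz_supp (by rw [hs]; simpa using b)
      simp [this, Pi.single_apply, b]
  · obtain ⟨c, d, hcd, hs⟩ := Finset.card_eq_two.1 h0
    have hvc : v c ≠ 0 := mem_supp.1 (by rw [hs]; simp)
    have hvd : v d ≠ 0 := mem_supp.1 (by rw [hs]; simp)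
    have hsum : v c * v c + v d * v d = 1 := by
      rw [dt_eq_sum_supp, hs, Finset.sum_pair hcd] at hv
      exact hv
    have key : v c * v c = 4 ∧ v d * v d = 4 := by
      rcases sq_vals7 hp hc hvc with a | a | a <;> rcases sq_vals7 hp hc hvd with b | b | b <;> rw [a, b] at hsum <;>
        first
        | exact ⟨a, b⟩
        | exact absurd (by linear_combination hsum) h1
        | exact absurd (by linear_combination hsum) h2
        | exact absurd (by linear_combination hsum) h3
        | exact absurd (by linear_combination hsum) h4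
        | exact absurd (by linear_combination hsum) h5
        | exact absurd (by linear_combination hsum) h6
    have hroot := hR.root (v c) (by rw [key.1]; linear_combination h7) c d hcd
    apply flip_of_sq hR hroot
    intro t
    by_cases b1 : t = c
    · subst b1
      simp [Pi.single_apply, hcd.symm, hcd]
    · by_cases b2 : t = d
      · subst b2
        simp [Pi.single_apply, hcd.symm, hcd, key.1, key.2]
      · have : v t = 0 := nz_supp (by rw [hs]; simp [b1, b2])
        simp [this, Pi.single_apply, b1, b2]
  · obtain ⟨c, d, e, hcd, hce, hde, hs⟩ := Finset.card_eq_three.1 h0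
    have hvc : v c ≠ 0 := mem_supp.1 (by rw [hs]; simp)
    have hvd : v d ≠ 0 := mem_supp.1 (by rw [hs]; simp)
    have hve : v e ≠ 0 := mem_supp.1 (by rw [hs]; simp)
    have hsum : v c * v c + v d * v d + v e * v e = 1 := by
      rw [dt_eq_sum_supp, hs, ← sq, sq_triple v hcd hce hde] at hv
      exact hv
    have hrest' : ∀ t, t ≠ c → t ≠ d → t ≠ e → v t = 0 := by
      intro t b1 b2 b3
      exact nz_supp (by rw [hs]; simp [b1, b2, b3])
    rcases sq_vals7 hp hc hvc with a | a | a <;> rcases sq_vals7 hp hc hvd with b | b | b <;>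
      rcases sq_vals7 hp hc hve with f | f | f <;> rw [a, b, f] at hsum <;>
      first
      | exact shape v c d e hcd hce hde hrest' a b f
      | exact shape v c e d hce hcd hde.symm (fun t b1 b2 b3 => hrest' t b1 b3 b2) a f b
      | exact shape v d e c hde hcd.symm hce.symm (fun t b1 b2 b3 => hrest' t b3 b1 b2) b f a
      | exact absurd (by linear_combination hsum) h1
      | exact absurd (by linear_combination hsum) h2
      | exact absurd (by linear_combination hsum) h3
      | exact absurd (by linear_combination hsum) h4
      | exact absurd (by linear_combination hsum) h5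
      | exact absurd (by linear_combination hsum) h6
      | exact absurd (by linear_combination hsum - h7) h1
      | exact absurd (by linear_combination hsum - h7) h2
      | exact absurd (by linear_combination hsum - h7) h3
      | exact absurd (by linear_combination hsum - h7) h4

/-- Weight three. -/
theorem case3 (h5' : 5 < Fintype.card F) {x : ι → F} (hx : x ∈ R) {i j k : ι} (hij : i ≠ j) (hik : i ≠ k) (hjk : j ≠ k)
    (hi : x i ≠ 0) (hj : x j ≠ 0) (hk : x k ≠ 0) (hrest : ∀ c, c ≠ i → c ≠ j → c ≠ k → x c = 0) : G3 R := by
  have hp := hF.prime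
  have h2 : (2 : F) ≠ 0 := Cfsg.Agent.Lib.PSL2.TorusCore.two_ne_zero_of_odd_card hF.odd
  have h3 : (3 : F) ≠ 0 := by
    have := cast_ne_zero_of_lt (F := F) hp (n := 3) (by norm_num) (by omega)
    exact_mod_cast this
  have h5 : (5 : F) ≠ 0 := by
    have := cast_ne_zero_of_lt (F := F) hp (n := 5) (by norm_num) (by omega)
    exact_mod_cast this
  by_cases g1 : Good F (x i * x i)
  · exact W3 hF hR (by omega) hx hij hik hjk hi hj hk hrest g1
  by_cases g2 : Good F (x j * x j)
  · exact W3 hF hR (by omega) hx hij.symm hjk hik hj hi hk (fun c a b d => hrest c b a d) g2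
  by_cases g3 : Good F (x k * x k)
  · exact W3 hF hR (by omega) hx hik.symm hjk.symm hij hk hi hj (fun c a b d => hrest c b d a) g3
  have hsum : x i * x i + x j * x j + x k * x k = 1 := by
    have h1 := hR.unit x hx
    rw [dt_of_sub (T := {i, j, k}) (fun c hc => by
      have : c ≠ i ∧ c ≠ j ∧ c ≠ k := by simpa using hc
      exact hrest c this.1 this.2.1 this.2.2), sq_triple x hij hik hjk] at h1
    exact h1
  by_cases hc7 : Fintype.card F = 7
  · have h1 : (1 : F) ≠ 0 := one_ne_zero
    have h7 := seven_zero hp hc7
    have h4 : (4 : F) ≠ 0 := by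
      have := cast_ne_zero_of_lt (F := F) hp (n := 4) (by norm_num) (by omega)
      exact_mod_cast this
    have h6 : (6 : F) ≠ 0 := by
      have := cast_ne_zero_of_lt (F := F) hp (n := 6) (by norm_num) (by omega)
      exact_mod_cast this
    have vals : ∀ c, x c ≠ 0 → ¬ Good F (x c * x c) → x c * x c = 2 ∨ x c * x c = 4 := by
      intro c hc hg
      rcases sq_vals7 hp hc7 hc with a | a | a
      · rw [a] at hg
        exact absurd (good_one h3 h5) hg
      · exact Or.inl a
      · exact Or.inr a
    rcases vals i hi g1 with a | a <;> rcases vals j hj g2 with b | b <;> rcases vals k hk g3 with c | c <;>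
      rw [a, b, c] at hsum <;>
      first
      | exact g3_seven hF hR hι hc7 hx hij hik hjk hrest a b c
      | exact g3_seven hF hR hι hc7 hx hik hij hjk.symm (fun t b1 b2 b3 => hrest t b1 b3 b2) a c b
      | exact g3_seven hF hR hι hc7 hx hjk hij.symm hik.symm (fun t b1 b2 b3 => hrest t b3 b1 b2) b c a
      | exact absurd (by linear_combination hsum) h1
      | exact absurd (by linear_combination hsum) h2
      | exact absurd (by linear_combination hsum) h3
      | exact absurd (by linear_combination hsum) h4
      | exact absurd (by linear_combination hsum) h5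
      | exact absurd (by linear_combination hsum) h6
      | exact absurd (by linear_combination hsum - h7) h1
      | exact absurd (by linear_combination hsum - h7) h2
      | exact absurd (by linear_combination hsum - h7) h3
      | exact absurd (by linear_combination hsum - h7) h4
  · have hge : 11 ≤ Fintype.card F := by
      by_contra hlt
      have hlt' : Fintype.card F < 11 := by omega
      have h6 : 6 ≤ Fintype.card F := h5'
      interval_cases h : Fintype.card F
      · exact absurd hp (by norm_num)
      · exact hc7 rfl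
      · exact absurd hp (by norm_num)
      · exact absurd hp (by norm_num)
      · exact absurd hp (by norm_num)
    have h7 : (7 : F) ≠ 0 := by
      have := cast_ne_zero_of_lt (F := F) hp (n := 7) (by norm_num) (by omega)
      exact_mod_cast this
    rcases bad_triple h2 hsum g1 g2 g3 with a | a | a | ⟨a, b, c, e⟩
    · exact rigid_quarter hF hR hι h3 h5 h7 hx hij hik hjk hi hj hk hrest a
    · exact rigid_quarter hF hR hι h3 h5 h7 hx hij.symm hjk hik hj hi hk (fun c a b d => hrest c b a d) a
    · exact rigid_quarter hF hR hι h3 h5 h7 hx hik.symm hjk.symm hij hk hi hj (fun c a b d => hrest c b d a) a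
    · have hu : 1 - 2 * (x i * x i) = x i * x i := by linear_combination -a
      have hs27 : 27 * (((1 - 2 * (x i * x i)) * x i) * ((1 - 2 * (x i * x i)) * x i)) = 1 := by
        rw [hu]
        linear_combination ((3 * (x i * x i)) ^ 2 + 3 * (x i * x i) + 1) * a
      refine rigid_aux hF hR hι h3 h5 h7 hx hij hik hjk hi hj hk hrest rfl (good_27 h3 e hs27) ?_ (Or.inl ?_)
      · intro h
        have : (1 : F) = 0 := by linear_combination 2 * a - 3 * h
        exact one_ne_zero this
      · intro h
        have e6 : (2 : F) * 3 = 0 := by linear_combination hs27 + 9 * b - 27 * h - e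
        exact h3 ((mul_eq_zero.1 e6).resolve_left h2)

end main

end Cfsg.Agent.Lib.Classical.Frame
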