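/-
From a nontrivial vector to all vectors of weight at most three, for `p ≥ 5`: the induction.
-/
import Mathlib
import Cfsg.Agent.Lib.Classical.Frame.Clos5

set_option autoImplicit false
set_option linter.unusedSectionVars false
set_option linter.unusedSimpArgs false
set_option linter.unusedVariables false

namespace Cfsg.Agent.Lib.Classical.Frame

open Finset

variable {F ι : Type*} [Field F] [Fintype F] [Fintype ι] [DecidableEq ι]
variable {R : Set (ι → F)}

/-- Five distinct elements. -/
lemma five_of_card {s : Finset ι} (h : 5 ≤ s.card) :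
    ∃ a b c d e, a ∈ s ∧ b ∈ s ∧ c ∈ s ∧ d ∈ s ∧ e ∈ s ∧ a ≠ b ∧ a ≠ c ∧ a ≠ d ∧ a ≠ e ∧ b ≠ c ∧ b ≠ d ∧ b ≠ e ∧
      c ≠ d ∧ c ≠ e ∧ d ≠ e := by
  obtain ⟨a, b, c, ha, hb, hc, hab, hac, hbc⟩ := Finset.two_lt_card_iff.1 (show 2 < s.card by omega)
  have h1 : 1 < (s \ {a, b, c}).card := by
    have := Finset.le_card_sdiff ({a, b, c} : Finset ι) s
    have h3 : ({a, b, c} : Finset ι).card ≤ 3 := Finset.card_le_three
    omega
  obtain ⟨d, hd, e, he, hde⟩ := Finset.one_lt_card.1 h1
  simp only [Finset.mem_sdiff, Finset.mem_insert, Finset.mem_singleton, not_or] at hd he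
  exact ⟨a, b, c, d, e, ha, hb, hc, hd.1, he.1, hab, hac, Ne.symm hd.2.1, Ne.symm he.2.1, hbc, Ne.symm hd.2.2.1,
    Ne.symm he.2.2.1, Ne.symm hd.2.2.2, Ne.symm he.2.2.2, hde⟩

section main

variable (hF : Fld F) (hR : Closed R) (hι : 9 ≤ Fintype.card ι)
include hF hR hι

/-- Finishing by lowering the weight. -/
theorem fin_lower {x : ι → F} (hx : x ∈ R) (IH : ∀ m < wt x, ∀ y ∈ R, wt y = m → ¬ Triv y → G3 R) {J₀ J₁ : Finset ι}
    (hd : Disjoint J₀ J₁) (h₀ : J₀ ⊆ supp x) (h₁ : J₁ ⊆ supp x) (hg : Good F (sq x J₀)) (hs₀ : sq x J₀ ≠ 0)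
    (hs₁ : sq x J₁ ≠ 0) (hs₂ : sq x J₀ + sq x J₁ ≠ 1) (h3 : 2 < (J₀ ∪ J₁).card) {a b : F} (ha : a ≠ 0) (hb : b ≠ 0)
    (hab : sq x J₀ * a * a + sq x J₁ * b * b = 1) : G3 R := by
  obtain ⟨v, hv, hw, hlt⟩ := lower_step hF hR hx hd h₀ h₁ hg hs₀ hs₁ hs₂ ha hb hab
  exact IH _ hlt v hv rfl (not_triv_of_three (by omega))

/-- **Main induction for `p ≥ 7`.** -/
theorem main_ge7 (h7 : 7 ≤ Fintype.card F) : ∀ (n : ℕ) (x : ι → F), x ∈ R → wt x = n → ¬ Triv x → G3 R := by
  have hp := hF.prime
  have h2 : (2 : F) ≠ 0 := Cfsg.Agent.Lib.PSL2.TorusCore.two_ne_zero_of_odd_card hF.odd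
  have h3 : (3 : F) ≠ 0 := by
    have := cast_ne_zero_of_lt (F := F) hp (n := 3) (by norm_num) (by omega)
    exact_mod_cast this
  have h5 : (5 : F) ≠ 0 := by
    have := cast_ne_zero_of_lt (F := F) hp (n := 5) (by norm_num) (by omega)
    exact_mod_cast this
  intro n
  induction n using Nat.strong_induction_on with
  | _ n ih =>
  intro x hx hn hnt
  have IH : ∀ m < wt x, ∀ y ∈ R, wt y = m → ¬ Triv y → G3 R := fun m hm y hy hw ht =>
    ih m (by omega) y hy hw ht
  have hle : 2 ≤ n := by
    by_contra hc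
    exact hnt (Or.inl (by omega))
  have hcard : (supp x).card = n := hn
  by_cases hn2 : n = 2
  · obtain ⟨i, j, hij, hs⟩ := Finset.card_eq_two.1 (hcard.trans hn2)
    have hi : x i ≠ 0 := mem_supp.1 (by rw [hs]; simp)
    have hj : x j ≠ 0 := mem_supp.1 (by rw [hs]; simp)
    have hrest : ∀ c, c ≠ i → c ≠ j → x c = 0 := fun c a b => nz_supp (by rw [hs]; simp [a, b])
    refine case2 hF hR hι hx hij hi hj hrest ?_
    intro h
    apply hnt
    refine Or.inr ⟨hn.trans hn2, ?_⟩
    have hsum : x i * x i + x j * x j = 1 := by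
      have h1 := hR.unit x hx
      rwa [dt_eq_sum_supp, hs, Finset.sum_pair hij] at h1
    intro c hc
    by_cases b1 : c = i
    · rw [b1]
      exact h
    · by_cases b2 : c = j
      · rw [b2]
        linear_combination 2 * hsum - h
      · exact absurd (hrest c b1 b2) hc
  by_cases hn3 : n = 3
  · obtain ⟨i, j, k, hij, hik, hjk, hs⟩ := Finset.card_eq_three.1 (hcard.trans hn3)
    have hi : x i ≠ 0 := mem_supp.1 (by rw [hs]; simp)
    have hj : x j ≠ 0 := mem_supp.1 (by rw [hs]; simp)
    have hk : x k ≠ 0 := mem_supp.1 (by rw [hs]; simp)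
    have hrest : ∀ c, c ≠ i → c ≠ j → c ≠ k → x c = 0 := fun c a b d => nz_supp (by rw [hs]; simp [a, b, d])
    exact case3 hF hR hι (by omega) hx hij hik hjk hi hj hk hrest
  -- weight at least four
  have hn4 : 4 ≤ n := by omega
  have hnz : ∀ {c : ι}, c ∈ supp x → x c * x c ≠ 0 := fun hc => mul_ne_zero (mem_supp.1 hc) (mem_supp.1 hc)
  by_cases hg : ∃ g, x g ≠ 0 ∧ Good F (x g * x g)
  · obtain ⟨g, hg0, hgg⟩ := hg
    have hgs : g ∈ supp x := mem_supp.2 hg0
    have L : ∀ J₁ : Finset ι, J₁ ⊆ supp x → g ∉ J₁ → 2 ≤ J₁.card → sq x J₁ ≠ 0 → x g * x g + sq x J₁ ≠ 1 → G3 R := by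
      intro J₁ h₁ hgJ hc hs hs'
      have hd : Disjoint ({g} : Finset ι) J₁ := by simpa using hgJ
      obtain ⟨a, b, ha, hb, hab⟩ := conic h7 h2 (mul_ne_zero hg0 hg0) hs
      refine fin_lower hF hR hι hx IH hd (by simpa using hgs) h₁ (by rw [sq_singleton]; exact hgg)
        (by rw [sq_singleton]; exact mul_ne_zero hg0 hg0) hs (by rw [sq_singleton]; exact hs') ?_ ha hb
        (by rw [sq_singleton]; exact hab)
      rw [Finset.card_union_of_disjoint hd, Finset.card_singleton]
      omega
    have hT : 2 < ((supp x).erase g).card := by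
      rw [Finset.card_erase_of_mem hgs]
      omega
    obtain ⟨j, k, l, hj, hk, hl, hjk, hjl, hkl⟩ := Finset.two_lt_card_iff.1 hT
    rw [Finset.mem_erase] at hj hk hl
    rcases choose_sum h2 h3 (1 - x g * x g) (hnz hj.2) (hnz hk.2) (hnz hl.2) with ⟨a, b⟩ | ⟨a, b⟩ | ⟨a, b⟩ | ⟨a, b⟩
    · refine L {j, k} ?_ (by simp [hj.1.symm, hk.1.symm]) (by rw [Finset.card_pair hjk]) (by rw [sq_pair x hjk]; exact a)
        (by rw [sq_pair x hjk]; intro h; apply b; linear_combination h)
      intro c hc
      simp only [Finset.mem_insert, Finset.mem_singleton] at hc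
      rcases hc with rfl | rfl
      · exact hj.2
      · exact hk.2
    · refine L {j, l} ?_ (by simp [hj.1.symm, hl.1.symm]) (by rw [Finset.card_pair hjl]) (by rw [sq_pair x hjl]; exact a)
        (by rw [sq_pair x hjl]; intro h; apply b; linear_combination h)
      intro c hc
      simp only [Finset.mem_insert, Finset.mem_singleton] at hc
      rcases hc with rfl | rfl
      · exact hj.2
      · exact hl.2
    · refine L {k, l} ?_ (by simp [hk.1.symm, hl.1.symm]) (by rw [Finset.card_pair hkl]) (by rw [sq_pair x hkl]; exact a)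
        (by rw [sq_pair x hkl]; intro h; apply b; linear_combination h)
      intro c hc
      simp only [Finset.mem_insert, Finset.mem_singleton] at hc
      rcases hc with rfl | rfl
      · exact hk.2
      · exact hl.2
    · refine L {j, k, l} ?_ (by simp [hj.1.symm, hk.1.symm, hl.1.symm]) ?_ (by rw [sq_triple x hjk hjl hkl]; exact a)
        (by rw [sq_triple x hjk hjl hkl]; intro h; apply b; linear_combination h)
      · intro c hc
        simp only [Finset.mem_insert, Finset.mem_singleton] at hc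
        rcases hc with rfl | rfl | rfl
        · exact hj.2
        · exact hk.2
        · exact hl.2
      · rw [Finset.card_eq_three.2 ⟨j, k, l, hjk, hjl, hkl, rfl⟩]
        omega
  push Not at hg
  by_cases hpair : ∃ i j, i ≠ j ∧ x i ≠ 0 ∧ x j ≠ 0 ∧ Good F (x i * x i + x j * x j) ∧ x i * x i + x j * x j ≠ 0
  · obtain ⟨i, j, hij, hi, hj, hgg, hne⟩ := hpair
    have his : i ∈ supp x := mem_supp.2 hi
    have hjs : j ∈ supp x := mem_supp.2 hj
    have hS : sq x {i, j} = x i * x i + x j * x j := sq_pair x hij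
    have L : ∀ J₁ : Finset ι, J₁ ⊆ supp x → i ∉ J₁ → j ∉ J₁ → 1 ≤ J₁.card → sq x J₁ ≠ 0 →
        x i * x i + x j * x j + sq x J₁ ≠ 1 → G3 R := by
      intro J₁ h₁ hiJ hjJ hc hs hs'
      have hd : Disjoint ({i, j} : Finset ι) J₁ := by
        rw [Finset.disjoint_left]
        intro c hc
        simp only [Finset.mem_insert, Finset.mem_singleton] at hc
        rcases hc with rfl | rfl
        · exact hiJ
        · exact hjJ
      obtain ⟨a, b, ha, hb, hab⟩ := conic h7 h2 hne hs
      refine fin_lower hF hR hι hx IH hd ?_ h₁ (by rw [hS]; exact hgg) (by rw [hS]; exact hne) hs (by rw [hS]; exact hs') ?_ ha hb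
        (by rw [hS]; exact hab)
      · intro c hc
        simp only [Finset.mem_insert, Finset.mem_singleton] at hc
        rcases hc with rfl | rfl
        · exact his
        · exact hjs
      · rw [Finset.card_union_of_disjoint hd, Finset.card_pair hij]
        omega
    have hT : 1 < ((supp x).erase i |>.erase j).card := by
      rw [Finset.card_erase_of_mem (Finset.mem_erase.2 ⟨hij.symm, hjs⟩), Finset.card_erase_of_mem his]
      omega
    obtain ⟨l, hl, l', hl', hll⟩ := Finset.one_lt_card.1 hT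
    simp only [Finset.mem_erase] at hl hl'
    have hl0 : x l ≠ 0 := mem_supp.1 hl.2.2
    have hl0' : x l' ≠ 0 := mem_supp.1 hl'.2.2
    by_cases c1 : x i * x i + x j * x j + x l * x l = 1
    · by_cases c2 : x i * x i + x j * x j + x l' * x l' = 1
      · have e : x l * x l = x l' * x l' := by linear_combination c1 - c2
        refine L {l, l'} ?_ (by simp [hl.2.1.symm, hl'.2.1.symm]) (by simp [hl.1.symm, hl'.1.symm])
          (by rw [Finset.card_pair hll]; omega) ?_ ?_
        · intro c hc
          simp only [Finset.mem_insert, Finset.mem_singleton] at hc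
          rcases hc with rfl | rfl
          · exact hl.2.2
          · exact hl'.2.2
        · rw [sq_pair x hll, e]
          intro h
          have : 2 * (x l' * x l') = 0 := by linear_combination h
          exact mul_ne_zero h2 (mul_ne_zero hl0' hl0') this
        · rw [sq_pair x hll]
          intro h
          apply mul_ne_zero hl0' hl0'
          linear_combination h - c1
      · refine L {l'} (by simpa using hl'.2.2) (by simpa using hl'.2.1.symm) (by simpa using hl'.1.symm) (by simp)
          (by rw [sq_singleton]; exact mul_ne_zero hl0' hl0') (by rw [sq_singleton]; exact c2)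
    · exact L {l} (by simpa using hl.2.2) (by simpa using hl.2.1.symm) (by simpa using hl.1.symm) (by simp)
        (by rw [sq_singleton]; exact mul_ne_zero hl0 hl0) (by rw [sq_singleton]; exact c1)
  push Not at hpair
  -- every coordinate has square one quarter
  have hq : ∀ c, x c ≠ 0 → 4 * (x c * x c) = 1 := by
    intro c hc
    have hcs : c ∈ supp x := mem_supp.2 hc
    obtain ⟨c', hc', hne⟩ : ∃ c' ∈ supp x, c' ≠ c := by
      have : 1 < (supp x).card := by omega
      exact Finset.exists_mem_ne this c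
    have hc0 : x c' ≠ 0 := mem_supp.1 hc'
    have hbad : ¬ Good F (x c * x c) := hg c hc
    have hbad' : ¬ Good F (x c' * x c') := hg c' hc0
    rcases bad_sum h2 h3 h5 hbad hbad' with ⟨a, -⟩ | ⟨a, b⟩ | ⟨a, b⟩
    · exact a
    · exact absurd b (by
        intro h
        exact h (hpair c c' hne.symm hc hc0 a))
    · exfalso
      rcases a with a | a
      · exact not_half_11 hp h3 b hc a
      · exact not_half_11 hp h3 b hc0 a
  by_cases hn4' : n = 4
  · -- the step with fresh coordinates
    obtain ⟨i, hi⟩ : (supp x).Nonempty := Finset.card_pos.1 (by omega)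
    have hT : ((supp x).erase i).card = 3 := by
      rw [Finset.card_erase_of_mem hi]
      omega
    obtain ⟨j, k, n', hjk, hjn, hkn, hs⟩ := Finset.card_eq_three.1 hT
    have hj : j ∈ (supp x).erase i := by rw [hs]; simp
    have hk : k ∈ (supp x).erase i := by rw [hs]; simp
    have hn' : n' ∈ (supp x).erase i := by rw [hs]; simp
    rw [Finset.mem_erase] at hj hk hn'
    have hsupp : ∀ c, c ≠ i → c ≠ j → c ≠ k → c ≠ n' → x c = 0 := by
      intro c a1 a2 a3 a4
      apply nz_supp
      intro h5'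
      have : c ∈ (supp x).erase i := Finset.mem_erase.2 ⟨a1, h5'⟩
      rw [hs] at this
      simp [a2, a3, a4] at this
    obtain ⟨l, hl⟩ := exists_fresh ({i, j, k, n'} : Finset ι) (lt_of_le_of_lt Finset.card_le_four (by omega))
    obtain ⟨m, hm⟩ := exists_fresh ({i, j, k, n', l} : Finset ι) (lt_of_le_of_lt Finset.card_le_five (by omega))
    obtain ⟨q, hq'⟩ := exists_fresh ({i, j, k, n', l, m} : Finset ι) (lt_of_le_of_lt Finset.card_le_six (by omega))
    simp only [Finset.mem_insert, Finset.mem_singleton, not_or] at hl hm hq'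
    obtain ⟨l1, l2, l3, l4⟩ := hl
    obtain ⟨m1, m2, m3, m4, m5⟩ := hm
    obtain ⟨q1, q2, q3, q4, q5, q6⟩ := hq'
    have hnd : ([i, j, k, n', l, m, q] : List ι).Nodup := by
      simp only [List.nodup_cons, List.mem_cons, List.not_mem_nil, or_false, not_or, List.nodup_nil, not_false_eq_true,
        and_true]
      exact ⟨⟨hj.1.symm, hk.1.symm, hn'.1.symm, Ne.symm l1, Ne.symm m1, Ne.symm q1⟩,
        ⟨hjk, hjn, Ne.symm l2, Ne.symm m2, Ne.symm q2⟩, ⟨hkn, Ne.symm l3, Ne.symm m3, Ne.symm q3⟩,
        ⟨Ne.symm l4, Ne.symm m4, Ne.symm q4⟩, ⟨Ne.symm m5, Ne.symm q5⟩, Ne.symm q6⟩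
    obtain ⟨z, hz, z1, z2, z3, z4, z5, z6, z7, z8⟩ := zstep hR hx hnd (hsupp l l1 l2 l3 l4) (hsupp m m1 m2 m3 m4)
      (hsupp q q1 q2 q3 q4) hsupp
    have x0 := mem_supp.1 hi
    have x1 := mem_supp.1 hj.2
    have qi := hq i x0
    have qj := hq j x1
    have ez1 : 16 * (z i * z i) = 1 := by
      rw [z1]
      have e : 2 * (1 - 2 * (x i * x i)) = 1 := by linear_combination -qi
      linear_combination (4 * (x i * x i)) * (2 * (1 - 2 * (x i * x i)) + 1) * e + qi
    have ez2 : 16 * (z j * z j) = 1 := by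
      rw [z2]
      linear_combination (4 * (x i * x i) + 1) * (4 * (x j * x j)) * qi + qj
    have ne1 : z i ≠ 0 := by
      intro h
      rw [h] at ez1
      exact one_ne_zero (by linear_combination -ez1 : (1 : F) = 0)
    have ne2 : z j ≠ 0 := by
      intro h
      rw [h] at ez2
      exact one_ne_zero (by linear_combination -ez2 : (1 : F) = 0)
    have ne3 : z l ≠ 0 := by rw [z5]; exact x1
    have hij' : i ≠ j := hj.1.symm
    have hd : Disjoint ({i, j} : Finset ι) {l} := by simp [l1, l2]
    have hS : sq z {i, j} = z i * z i + z j * z j := sq_pair z hij'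
    have h8 : 8 * (z i * z i + z j * z j) = 1 := by
      have : 2 * (8 * (z i * z i + z j * z j) - 1) = 0 := by linear_combination ez1 + ez2
      have := (mul_eq_zero.1 this).resolve_left h2
      linear_combination this
    have hS0 : z i * z i + z j * z j ≠ 0 := by
      intro h
      rw [h] at h8
      exact one_ne_zero (by linear_combination -h8 : (1 : F) = 0)
    have hS1 : sq z {l} = x j * x j := by rw [sq_singleton, z5]
    have hx0 : x j * x j ≠ 0 := mul_ne_zero x1 x1
    obtain ⟨a, b, ha, hb, hab⟩ := conic h7 h2 hS0 hx0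
    obtain ⟨v, hv, hw, -⟩ := lower_step hF hR hz hd
      (by
        intro c hc
        simp only [Finset.mem_insert, Finset.mem_singleton] at hc
        rcases hc with rfl | rfl
        · exact mem_supp.2 ne1
        · exact mem_supp.2 ne2)
      (Finset.singleton_subset_iff.2 (mem_supp.2 ne3)) (by rw [hS]; exact good_eighth h2 h3 h8) (by rw [hS]; exact hS0) (by rw [hS1]; exact hx0)
      (by
        rw [hS, hS1]
        intro h
        apply h5
        linear_combination h8 + 2 * qj - 8 * h)
      ha hb (by rw [hS, hS1]; exact hab)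
    have hcard3 : (({i, j} : Finset ι) ∪ {l}).card = 3 := by
      rw [Finset.card_union_of_disjoint hd, Finset.card_pair hij', Finset.card_singleton]
    exact IH 3 (by omega) v hv (by rw [hw, hcard3]) (not_triv_of_three (by rw [hw, hcard3]))
  · -- weight at least five
    obtain ⟨c₁, c₂, c₃, c₄, c₅, m1, m2, m3, m4, m5, n12, n13, n14, n15, n23, n24, n25, n34, n35, n45⟩ :=
      five_of_card (s := supp x) (by omega)
    have q1 := hq c₁ (mem_supp.1 m1)
    have q2 := hq c₂ (mem_supp.1 m2)
    have q3 := hq c₃ (mem_supp.1 m3)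
    have q4 := hq c₄ (mem_supp.1 m4)
    have q5 := hq c₅ (mem_supp.1 m5)
    have hS : sq x {c₁, c₂, c₃} = x c₁ * x c₁ + x c₂ * x c₂ + x c₃ * x c₃ := sq_triple x n12 n13 n23
    have hS' : sq x {c₄, c₅} = x c₄ * x c₄ + x c₅ * x c₅ := sq_pair x n45
    have e3 : 4 * (x c₁ * x c₁ + x c₂ * x c₂ + x c₃ * x c₃) = 3 := by linear_combination q1 + q2 + q3
    have e2 : 2 * (x c₄ * x c₄ + x c₅ * x c₅) = 1 := by
      have : 2 * (2 * (x c₄ * x c₄ + x c₅ * x c₅) - 1) = 0 := by linear_combination q4 + q5
      have := (mul_eq_zero.1 this).resolve_left h2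
      linear_combination this
    have ne3 : x c₁ * x c₁ + x c₂ * x c₂ + x c₃ * x c₃ ≠ 0 := by
      intro h
      rw [h] at e3
      exact h3 (by linear_combination -e3)
    have ne2 : x c₄ * x c₄ + x c₅ * x c₅ ≠ 0 := by
      intro h
      rw [h] at e2
      exact one_ne_zero (by linear_combination -e2 : (1 : F) = 0)
    have hd : Disjoint ({c₁, c₂, c₃} : Finset ι) {c₄, c₅} := by
      simp [Ne.symm n14, Ne.symm n15, Ne.symm n24, Ne.symm n25, Ne.symm n34, Ne.symm n35]
    obtain ⟨a, b, ha, hb, hab⟩ := conic h7 h2 ne3 ne2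
    refine fin_lower hF hR hι hx IH hd ?_ ?_ (by rw [hS]; exact good_three_quarters h2 e3) (by rw [hS]; exact ne3)
      (by rw [hS']; exact ne2) (by
        rw [hS, hS']
        intro h
        have : (1 : F) = 0 := by linear_combination 4 * h - e3 - 2 * e2
        exact one_ne_zero this) ?_ ha hb (by rw [hS, hS']; exact hab)
    · intro c hc
      simp only [Finset.mem_insert, Finset.mem_singleton] at hc
      rcases hc with rfl | rfl | rfl
      · exact m1
      · exact m2
      · exact m3
    · intro c hc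
      simp only [Finset.mem_insert, Finset.mem_singleton] at hc
      rcases hc with rfl | rfl
      · exact m4
      · exact m5
    · rw [Finset.card_union_of_disjoint hd, Finset.card_pair n45, Finset.card_eq_three.2 ⟨c₁, c₂, c₃, n12, n13, n23, rfl⟩]
      omega

end main

end Cfsg.Agent.Lib.Classical.Frame
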