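/-
The induction at `p = 5`, and the direct argument at `p = 3`.
-/
import Mathlib
import Cfsg.Agent.Lib.Classical.Frame.Clos6

set_option autoImplicit false
set_option linter.unusedSectionVars false
set_option linter.unusedSimpArgs false
set_option linter.unusedVariables false

namespace Cfsg.Agent.Lib.Classical.Frame

open Finset

variable {F ι : Type*} [Field F] [Fintype F] [Fintype ι] [DecidableEq ι]
variable {R : Set (ι → F)}

section five

variable (hF : Fld F) (hR : Closed R) (hι : 9 ≤ Fintype.card ι)
include hF hR hι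

/-- **Main induction for `p = 5`.** -/
theorem main_5 (hc : Fintype.card F = 5) : ∀ (n : ℕ) (x : ι → F), x ∈ R → wt x = n → ¬ Triv x → G3 R := by
  have hp := hF.prime
  have h5 := five_zero hp hc
  have h1 : (1 : F) ≠ 0 := one_ne_zero
  have h2 : (2 : F) ≠ 0 := by
    have := cast_ne_zero_of_lt (F := F) hp (n := 2) (by norm_num) (by omega)
    exact_mod_cast this
  have h3 : (3 : F) ≠ 0 := by
    have := cast_ne_zero_of_lt (F := F) hp (n := 3) (by norm_num) (by omega)
    exact_mod_cast this
  have h4 : (4 : F) ≠ 0 := by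
    have := cast_ne_zero_of_lt (F := F) hp (n := 4) (by norm_num) (by omega)
    exact_mod_cast this
  have g1 : Good F (1 : F) := by
    refine ⟨?_, ?_, fun h => absurd hc h⟩
    · intro h
      exact h3 (by linear_combination h)
    · intro h
      exact h1 (by linear_combination h)
  have g2 : ∀ s : F, s = 2 → Good F s := by
    intro s hs
    subst hs
    refine ⟨?_, ?_, fun h => absurd hc h⟩
    · intro h
      exact h2 (by linear_combination h - h5)
    · intro h
      exact h3 (by linear_combination h)
  intro n
  induction n using Nat.strong_induction_on with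
  | _ n ih =>
  intro x hx hn hnt
  have IH : ∀ m < wt x, ∀ y ∈ R, wt y = m → ¬ Triv y → G3 R := fun m hm y hy hw ht =>
    ih m (by omega) y hy hw ht
  have hle : 2 ≤ n := by
    by_contra hc'
    exact hnt (Or.inl (by omega))
  have hcard : (supp x).card = n := hn
  have vals : ∀ {c : ι}, c ∈ supp x → x c * x c = 1 ∨ x c * x c = 4 := fun h => sq_vals5 hp hc (mem_supp.1 h)
  by_cases hn2 : n = 2
  · exfalso
    obtain ⟨i, j, hij, hs⟩ := Finset.card_eq_two.1 (hcard.trans hn2)
    have hsum : x i * x i + x j * x j = 1 := by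
      have h1 := hR.unit x hx
      rwa [dt_eq_sum_supp, hs, Finset.sum_pair hij] at h1
    rcases vals (c := i) (by rw [hs]; simp) with a | a <;> rcases vals (c := j) (by rw [hs]; simp) with b | b <;>
      rw [a, b] at hsum
    · exact h1 (by linear_combination hsum)
    · exact h1 (by linear_combination h5 - hsum)
    · exact h1 (by linear_combination h5 - hsum)
    · exact h2 (by linear_combination hsum - h5)
  by_cases hn3 : n = 3
  · obtain ⟨i, j, k, hij, hik, hjk, hs⟩ := Finset.card_eq_three.1 (hcard.trans hn3)
    have hi : x i ≠ 0 := mem_supp.1 (by rw [hs]; simp)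
    have hj : x j ≠ 0 := mem_supp.1 (by rw [hs]; simp)
    have hk : x k ≠ 0 := mem_supp.1 (by rw [hs]; simp)
    have hrest : ∀ c, c ≠ i → c ≠ j → c ≠ k → x c = 0 := fun c a b d => nz_supp (by rw [hs]; simp [a, b, d])
    have hsum : x i * x i + x j * x j + x k * x k = 1 := by
      have h1 := hR.unit x hx
      rw [dt_of_sub (T := {i, j, k}) (fun c hc => by
        have : c ≠ i ∧ c ≠ j ∧ c ≠ k := by simpa using hc
        exact hrest c this.1 this.2.1 this.2.2), sq_triple x hij hik hjk] at h1
      exact h1
    rcases vals (c := i) (by rw [hs]; simp) with a | a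
    · exact W3 hF hR (by omega) hx hij hik hjk hi hj hk hrest (by rw [a]; exact g1)
    rcases vals (c := j) (by rw [hs]; simp) with b | b
    · exact W3 hF hR (by omega) hx hij.symm hjk hik hj hi hk (fun c a b d => hrest c b a d) (by rw [b]; exact g1)
    rcases vals (c := k) (by rw [hs]; simp) with d | d
    · exact W3 hF hR (by omega) hx hik.symm hjk.symm hij hk hi hj (fun c a b d => hrest c b d a) (by rw [d]; exact g1)
    exfalso
    rw [a, b, d] at hsum
    exact h1 (by linear_combination hsum - 2 * h5)
  have hn4 : 4 ≤ n := by omega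
  by_cases hg : ∃ g, x g ≠ 0 ∧ x g * x g = 1
  · obtain ⟨g, hg0, hg1⟩ := hg
    have hgs : g ∈ supp x := mem_supp.2 hg0
    have hT : 2 < ((supp x).erase g).card := by
      rw [Finset.card_erase_of_mem hgs]
      omega
    obtain ⟨j, k, l, hj, hk, hl, hjk, hjl, hkl⟩ := Finset.two_lt_card_iff.1 hT
    rw [Finset.mem_erase] at hj hk hl
    have L : ∀ a b : ι, a ≠ b → a ≠ g → b ≠ g → a ∈ supp x → b ∈ supp x → x a * x a = x b * x b → G3 R := by
      intro a b hab ag bg ha hb he
      have hd : Disjoint ({g} : Finset ι) {a, b} := by simp [ag.symm, bg.symm]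
      have hS : sq x {a, b} = x a * x a + x b * x b := sq_pair x hab
      have hS0 : sq x {g} = 1 := by rw [sq_singleton, hg1]
      have hcard3 : 2 < (({g} : Finset ι) ∪ {a, b}).card := by
        rw [Finset.card_union_of_disjoint hd, Finset.card_singleton, Finset.card_pair hab]
        omega
      have hsub : ({a, b} : Finset ι) ⊆ supp x := by
        intro c hc
        simp only [Finset.mem_insert, Finset.mem_singleton] at hc
        rcases hc with rfl | rfl
        · exact ha
        · exact hb
      rcases vals ha with v | v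
      · have v' : x b * x b = 1 := by rw [← he, v]
        refine fin_lower hF hR hι hx IH hd (by simpa using hgs) hsub (by rw [hS0]; exact g1) (by rw [hS0]; exact h1)
          (by rw [hS, v, v']; intro h; exact h2 (by linear_combination h)) (by rw [hS0, hS, v, v']; intro h; exact h2 (by linear_combination h)) hcard3 (a := 2) (b := 1)
          h2 h1 (by rw [hS0, hS, v, v']; linear_combination h5)
      · have v' : x b * x b = 4 := by rw [← he, v]
        refine fin_lower hF hR hι hx IH hd (by simpa using hgs) hsub (by rw [hS0]; exact g1) (by rw [hS0]; exact h1)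
          (by rw [hS, v, v']; intro h; exact h3 (by linear_combination h - h5)) (by rw [hS0, hS, v, v']; intro h; exact h3 (by linear_combination h - h5)) hcard3 (a := 2) (b := 2)
          h2 h2 (by rw [hS0, hS, v, v']; linear_combination 7 * h5)
    rcases vals hj.2 with a | a <;> rcases vals hk.2 with b | b
    · exact L j k hjk hj.1 hk.1 hj.2 hk.2 (by rw [a, b])
    · rcases vals hl.2 with d | d
      · exact L j l hjl hj.1 hl.1 hj.2 hl.2 (by rw [a, d])
      · exact L k l hkl hk.1 hl.1 hk.2 hl.2 (by rw [b, d])
    · rcases vals hl.2 with d | d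
      · exact L k l hkl hk.1 hl.1 hk.2 hl.2 (by rw [b, d])
      · exact L j l hjl hj.1 hl.1 hj.2 hl.2 (by rw [a, d])
    · exact L j k hjk hj.1 hk.1 hj.2 hk.2 (by rw [a, b])
  push Not at hg
  have hq : ∀ c, x c ≠ 0 → x c * x c = 4 := by
    intro c hc
    rcases vals (mem_supp.2 hc) with a | a
    · exact absurd a (hg c hc)
    · exact a
  by_cases hn4' : n = 4
  · obtain ⟨i, hi⟩ : (supp x).Nonempty := Finset.card_pos.1 (by omega)
    have hT : ((supp x).erase i).card = 3 := by
      rw [Finset.card_erase_of_mem hi]
      omega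
    obtain ⟨j, k, n', hjk, hjn, hkn, hs⟩ := Finset.card_eq_three.1 hT
    have hj : j ∈ (supp x).erase i := by rw [hs]; simp
    have hk : k ∈ (supp x).erase i := by rw [hs]; simp
    have hn' : n' ∈ (supp x).erase i := by rw [hs]; simp
    rw [Finset.mem_erase] at hj hk hn'
    have hsupp : ∀ c, c ≠ i → c ≠ j → c ≠ k → c ≠ n' → x c = 0 := by
      intro c a1 a2 a3 a4
      apply nz_supp
      intro h5'
      have : c ∈ (supp x).erase i := Finset.mem_erase.2 ⟨a1, h5'⟩
      rw [hs] at this
      simp [a2, a3, a4] at this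
    obtain ⟨l, hl⟩ := exists_fresh ({i, j, k, n'} : Finset ι) (lt_of_le_of_lt Finset.card_le_four (by omega))
    obtain ⟨m, hm⟩ := exists_fresh ({i, j, k, n', l} : Finset ι) (lt_of_le_of_lt Finset.card_le_five (by omega))
    obtain ⟨q, hq'⟩ := exists_fresh ({i, j, k, n', l, m} : Finset ι) (lt_of_le_of_lt Finset.card_le_six (by omega))
    simp only [Finset.mem_insert, Finset.mem_singleton, not_or] at hl hm hq'
    obtain ⟨l1, l2, l3, l4⟩ := hl
    obtain ⟨m1, m2, m3, m4, m5⟩ := hm
    obtain ⟨q1, q2, q3, q4, q5, q6⟩ := hq'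
    have hnd : ([i, j, k, n', l, m, q] : List ι).Nodup := by
      simp only [List.nodup_cons, List.mem_cons, List.not_mem_nil, or_false, not_or, List.nodup_nil, not_false_eq_true,
        and_true]
      exact ⟨⟨hj.1.symm, hk.1.symm, hn'.1.symm, Ne.symm l1, Ne.symm m1, Ne.symm q1⟩,
        ⟨hjk, hjn, Ne.symm l2, Ne.symm m2, Ne.symm q2⟩, ⟨hkn, Ne.symm l3, Ne.symm m3, Ne.symm q3⟩,
        ⟨Ne.symm l4, Ne.symm m4, Ne.symm q4⟩, ⟨Ne.symm m5, Ne.symm q5⟩, Ne.symm q6⟩
    obtain ⟨z, hz, z1, z2, z3, z4, z5, z6, z7, z8⟩ := zstep hR hx hnd (hsupp l l1 l2 l3 l4) (hsupp m m1 m2 m3 m4)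
      (hsupp q q1 q2 q3 q4) hsupp
    have qi := hq i (mem_supp.1 hi)
    have qj := hq j (mem_supp.1 hj.2)
    have qk := hq k (mem_supp.1 hk.2)
    have ez1 : z i * z i = 1 := by
      rw [z1]
      have : (1 - 2 * (x i * x i)) * x i * ((1 - 2 * (x i * x i)) * x i) =
          (1 - 2 * (x i * x i)) * (1 - 2 * (x i * x i)) * (x i * x i) := by ring
      rw [this, qi]
      linear_combination 39 * h5
    have ez2 : z j * z j = 1 := by
      rw [z2]
      have : -(2 * (x i * x i)) * x j * (-(2 * (x i * x i)) * x j) =
          (2 * (x i * x i)) * (2 * (x i * x i)) * (x j * x j) := by ring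
      rw [this, qi, qj]
      linear_combination 51 * h5
    have ez3 : z k * z k = 1 := by
      rw [z3]
      have : -(2 * (x i * x i)) * x k * (-(2 * (x i * x i)) * x k) =
          (2 * (x i * x i)) * (2 * (x i * x i)) * (x k * x k) := by ring
      rw [this, qi, qk]
      linear_combination 51 * h5
    have nzz : ∀ {c : ι}, z c * z c = 1 → z c ≠ 0 := by
      intro c h h'
      rw [h', mul_zero] at h
      exact h1 h.symm
    have hd : Disjoint ({i} : Finset ι) {j, k} := by simp [hj.1.symm, hk.1.symm]
    have hS : sq z {j, k} = z j * z j + z k * z k := sq_pair z hjk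
    have hS0 : sq z {i} = 1 := by rw [sq_singleton, ez1]
    obtain ⟨v, hv, hw, -⟩ := lower_step hF hR hz hd (a := 2) (b := 1)
      (Finset.singleton_subset_iff.2 (mem_supp.2 (nzz ez1)))
      (by
        intro c hc
        simp only [Finset.mem_insert, Finset.mem_singleton] at hc
        rcases hc with rfl | rfl
        · exact mem_supp.2 (nzz ez2)
        · exact mem_supp.2 (nzz ez3))
      (by rw [hS0]; exact g1) (by rw [hS0]; exact h1) (by rw [hS, ez2, ez3]; intro h; exact h2 (by linear_combination h))
      (by rw [hS0, hS, ez2, ez3]; intro h; exact h2 (by linear_combination h)) h2 h1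
      (by rw [hS0, hS, ez2, ez3]; linear_combination h5)
    have hcard3 : (({i} : Finset ι) ∪ {j, k}).card = 3 := by
      rw [Finset.card_union_of_disjoint hd, Finset.card_pair hjk, Finset.card_singleton]
    exact IH 3 (by omega) v hv (by rw [hw, hcard3]) (not_triv_of_three (by rw [hw, hcard3]))
  · obtain ⟨c₁, c₂, c₃, c₄, c₅, m1, m2, m3, m4, m5, n12, n13, n14, n15, n23, n24, n25, n34, n35, n45⟩ :=
      five_of_card (s := supp x) (by omega)
    have q1 := hq c₁ (mem_supp.1 m1)
    have q2 := hq c₂ (mem_supp.1 m2)
    have q3 := hq c₃ (mem_supp.1 m3)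
    have q4 := hq c₄ (mem_supp.1 m4)
    have q5 := hq c₅ (mem_supp.1 m5)
    have hS : sq x {c₁, c₂, c₃} = 2 := by
      rw [sq_triple x n12 n13 n23, q1, q2, q3]
      linear_combination 2 * h5
    have hS' : sq x {c₄, c₅} = 3 := by
      rw [sq_pair x n45, q4, q5]
      linear_combination h5
    have hd : Disjoint ({c₁, c₂, c₃} : Finset ι) {c₄, c₅} := by
      simp [Ne.symm n14, Ne.symm n15, Ne.symm n24, Ne.symm n25, Ne.symm n34, Ne.symm n35]
    refine fin_lower hF hR hι hx IH hd ?_ ?_ (by rw [hS]; exact g2 2 rfl) (by rw [hS]; exact h2)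
      (by rw [hS']; exact h3) (by
        rw [hS, hS']
        intro h
        exact h1 (by linear_combination h5 - h)) ?_ (a := 2) (b := 1) h2 h1 (by rw [hS, hS']; linear_combination 2 * h5)
    · intro c hc
      simp only [Finset.mem_insert, Finset.mem_singleton] at hc
      rcases hc with rfl | rfl | rfl
      · exact m1
      · exact m2
      · exact m3
    · intro c hc
      simp only [Finset.mem_insert, Finset.mem_singleton] at hc
      rcases hc with rfl | rfl
      · exact m4
      · exact m5
    · rw [Finset.card_union_of_disjoint hd, Finset.card_pair n45, Finset.card_eq_three.2 ⟨c₁, c₂, c₃, n12, n13, n23, rfl⟩]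
      omega

/-- **A nontrivial vector gives all vectors of weight at most three.** -/
theorem main_g3 {x : ι → F} (hx : x ∈ R) (hnt : ¬ Triv x) : G3 R := by
  by_cases hc : Fintype.card F = 5
  · exact main_5 hF hR hι hc _ x hx rfl hnt
  · have h7 : 7 ≤ Fintype.card F := by
      by_contra hlt
      have h5 := hF.ge5
      have h6 : Fintype.card F = 6 := by omega
      have := hF.prime
      rw [h6] at this
      exact absurd this (by norm_num)
    exact main_ge7 hF hR hι h7 _ x hx rfl hnt

end five

section three

variable (hR : Closed R) (hι : 9 ≤ Fintype.card ι)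
include hR hι

/-- **The characteristic-three closure.** -/
theorem main_3 (hprime : (Fintype.card F).Prime) (hc : Fintype.card F = 3) {x : ι → F} (hx : x ∈ R) (hnt : ¬ Triv x) :
    ∀ v : ι → F, dt v v = 1 → v ∈ R := by
  have h3 : (3 : F) = 0 := by
    have := card_cast hprime
    rw [hc] at this
    exact_mod_cast this
  have h1 : (1 : F) ≠ 0 := one_ne_zero
  have h2 : (2 : F) ≠ 0 := by
    have := cast_ne_zero_of_lt (F := F) hprime (n := 2) (by norm_num) (by omega)
    exact_mod_cast this
  have vals : ∀ {a : F}, a ≠ 0 → a * a = 1 := by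
    intro a ha
    have e := FiniteField.pow_card a
    rw [hc] at e
    apply mul_left_cancel₀ ha
    rw [mul_one]
    calc a * (a * a) = a ^ 3 := by ring
      _ = a := e
  have hwt : ∀ u : ι → F, dt u u = 1 → ((wt u : ℕ) : F) = 1 := by
    intro u hu
    rw [dt_eq_sum_supp] at hu
    rw [← hu]
    unfold wt
    have : ∑ i ∈ supp u, u i * u i = ∑ i ∈ supp u, (1 : F) := by
      apply Finset.sum_congr rfl
      intro i hi
      exact vals (mem_supp.1 hi)
    rw [this, Finset.sum_const, nsmul_eq_mul, mul_one]
  have hsmall : ∀ u : ι → F, dt u u = 1 → wt u = 1 ∨ 4 ≤ wt u := by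
    intro u hu
    have e := hwt u hu
    by_contra hcon
    push Not at hcon
    have : wt u = 0 ∨ wt u = 2 ∨ wt u = 3 := by omega
    rcases this with h | h | h <;> rw [h] at e
    · simp at e
    · apply h1
      push_cast at e
      linear_combination e
    · apply h1
      push_cast at e
      linear_combination h3 - e
  have hbig : ∀ u : ι → F, dt u u = 1 → 5 ≤ wt u → 7 ≤ wt u := by
    intro u hu h5
    have e := hwt u hu
    by_contra hcon
    have : wt u = 5 ∨ wt u = 6 := by omega
    rcases this with h | h <;> rw [h] at e <;> push_cast at e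
    · apply h1
      linear_combination e - h3
    · apply h2
      linear_combination e - h3
  -- a vector of weight four
  have step1 : ∀ (n : ℕ) (u : ι → F), u ∈ R → wt u = n → 4 ≤ n → ∃ y ∈ R, wt y = 4 := by
    intro n
    induction n using Nat.strong_induction_on with
    | _ n ih =>
    intro u hu hn h4
    by_cases hn4 : n = 4
    · exact ⟨u, hu, by rw [hn, hn4]⟩
    have hun := hR.unit u hu
    have h7 : 7 ≤ n := by
      have := hbig u hun (by omega)
      omega
    obtain ⟨j, k, l, hj, hk, hl, hjk, hjl, hkl⟩ := Finset.two_lt_card_iff.1 (show 2 < (supp u).card by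
      have : (supp u).card = n := hn
      omega)
    set J : Finset ι := {j, k, l} with hJ
    have hsq : sq u J = 0 := by
      rw [hJ, sq_triple u hjk hjl hkl, vals (mem_supp.1 hj), vals (mem_supp.1 hk), vals (mem_supp.1 hl)]
      linear_combination h3
    have hd : Disjoint J (∅ : Finset ι) := Finset.disjoint_empty_right _
    have hf : bv u J ∅ (-1) 1 1 ∈ R := by
      have := hR.flip_set hu J
      convert this using 1
      ext c
      by_cases hc' : c ∈ J
      · simp [bv, hc']
      · simp [bv, hc']
    have hdot : dt (bv u J ∅ (-1) 1 1) u = 1 := by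
      have e1 : dt (bv u J ∅ (-1) 1 1) (bv u J ∅ 1 1 1) = _ := dt_bv u hd (-1) 1 1 1 1 1
      rw [bv_one] at e1
      have e2 := sq_total u hd
      rw [hun] at e2
      rw [e1, hsq]
      rw [hsq] at e2
      simp only [sq, Finset.sum_empty] at e2 ⊢
      linear_combination -e2
    have hy := hR.refl _ hf _ hu
    rw [hdot] at hy
    have hval : ∀ c, (u - (2 * (1 : F)) • bv u J ∅ (-1) 1 1) c = if c ∈ J then 0 else - u c := by
      intro c
      by_cases hc' : c ∈ J
      · simp only [Pi.sub_apply, Pi.smul_apply, smul_eq_mul, bv, hc', if_true]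
        linear_combination u c * h3
      · simp only [Pi.sub_apply, Pi.smul_apply, smul_eq_mul, bv, hc', if_false, Finset.notMem_empty]
        ring
    have hsupp : supp (u - (2 * (1 : F)) • bv u J ∅ (-1) 1 1) = supp u \ J := by
      ext c
      rw [mem_supp, hval, Finset.mem_sdiff, mem_supp]
      by_cases hc' : c ∈ J
      · simp [hc']
      · simp [hc']
    have hcardJ : J.card = 3 := Finset.card_eq_three.2 ⟨j, k, l, hjk, hjl, hkl, rfl⟩
    have hJs : J ⊆ supp u := by
      intro c hc'
      simp only [hJ, Finset.mem_insert, Finset.mem_singleton] at hc'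
      rcases hc' with rfl | rfl | rfl
      · exact hj
      · exact hk
      · exact hl
    have hw : wt (u - (2 * (1 : F)) • bv u J ∅ (-1) 1 1) = n - 3 := by
      unfold wt
      rw [hsupp, Finset.card_sdiff_of_subset hJs, hcardJ]
      have : (supp u).card = n := hn
      omega
    exact ih (n - 3) (by omega) _ hy hw (by omega)
  have hwx : 4 ≤ wt x := by
    rcases hsmall x (hR.unit x hx) with h | h
    · exact absurd (Or.inl (by omega)) hnt
    · exact h
  obtain ⟨y, hy, hy4⟩ := step1 _ x hx rfl hwx
  -- all vectors of weight four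
  have step2 : ∀ v : ι → F, wt v = 4 → v ∈ R := by
    intro v hv
    obtain ⟨σ, hσ⟩ := exists_perm_image (S := supp v) (T := supp y) (by
      have h1 : (supp v).card = 4 := hv
      have h2 : (supp y).card = 4 := hy4
      omega)
    obtain ⟨u, w, huw, hu, hw⟩ := exists_two_zero (x := y) (by omega)
    have h3' := hR.perm_any hy huw (hu.trans hw.symm) σ
    apply flip_of_sq hR h3'
    intro c
    simp only [Function.comp]
    by_cases hc' : c ∈ supp v
    · rw [vals (mem_supp.1 hc'), vals (mem_supp.1 ((hσ c).2 hc'))]
    · have e1 := nz_supp hc'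
      have e2 : y (σ c) = 0 := nz_supp (fun h => hc' ((hσ c).1 h))
      rw [e1, e2]
  -- induction on the weight
  intro v
  induction h : wt v using Nat.strong_induction_on generalizing v with
  | _ n ih =>
  intro hv
  rcases hsmall v hv with h1' | h1'
  · have : (supp v).card = 1 := h1'
    obtain ⟨c, hs⟩ := Finset.card_eq_one.1 this
    have hvv : v c * v c = 1 := by
      rw [dt_eq_sum_supp, hs, Finset.sum_singleton] at hv
      exact hv
    apply flip_of_sq hR (hR.basis c)
    intro t
    by_cases b : t = c
    · subst b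
      simp [hvv]
    · have : v t = 0 := nz_supp (by rw [hs]; simpa using b)
      simp [this, Pi.single_apply, b]
  by_cases h4 : wt v = 4
  · exact step2 v h4
  -- weight at least five
  obtain ⟨c₁, c₂, c₃, c₄, c₅, m1, m2, m3, m4, m5, n12, n13, n14, n15, n23, n24, n25, n34, n35, n45⟩ :=
    five_of_card (s := supp v) (by
      have : (supp v).card = wt v := rfl
      omega)
  set J₀ : Finset ι := {c₁} with hJ₀
  set J₁ : Finset ι := {c₂, c₃, c₄} with hJ₁
  have hd : Disjoint J₀ J₁ := by
    simp [hJ₀, hJ₁, n12, n13, n14]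
  have hs₁ : sq v J₁ = 0 := by
    rw [hJ₁, sq_triple v n23 n24 n34, vals (mem_supp.1 m2), vals (mem_supp.1 m3), vals (mem_supp.1 m4)]
    linear_combination h3
  have hs₀ : sq v J₀ = 1 := by
    rw [hJ₀, sq_singleton, vals (mem_supp.1 m1)]
  have hJ₀s : J₀ ⊆ supp v := by simpa [hJ₀] using m1
  have hJ₁s : J₁ ⊆ supp v := by
    intro c hc'
    simp only [hJ₁, Finset.mem_insert, Finset.mem_singleton] at hc'
    rcases hc' with rfl | rfl | rfl
    · exact m2
    · exact m3
    · exact m4
  have htot := sq_total v hd
  rw [hv, hs₀, hs₁] at htot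
  -- the reflecting vector
  have ha : bv v J₀ J₁ (-1) 1 0 ∈ R := by
    apply step2
    unfold wt
    rw [supp_bv hJ₀s hJ₁s (neg_ne_zero.2 h1) h1, Finset.card_union_of_disjoint hd,
      Finset.card_eq_three.2 ⟨c₂, c₃, c₄, n23, n24, n34, rfl⟩, hJ₀, Finset.card_singleton]
  -- the vector of smaller weight
  have hz : bv v J₀ J₁ (-1) 0 1 ∈ R := by
    have hlt : wt (bv v J₀ J₁ (-1) 0 1) < n := by
      rw [← h]
      apply Finset.card_lt_card
      refine ⟨?_, ?_⟩
      · intro c hc'
        rw [mem_supp] at hc' ⊢
        intro h0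
        apply hc'
        simp only [bv, h0, mul_zero]
      · intro hsub
        have := hsub m2
        rw [mem_supp] at this
        apply this
        have h1J : c₂ ∈ J₁ := by simp [hJ₁]
        have h0J : c₂ ∉ J₀ := by simp [hJ₀, n12.symm]
        simp [bv, h1J, h0J]
    refine ih _ hlt _ rfl ?_
    rw [dt_bv v hd, hs₀, hs₁]
    linear_combination -htot
  have hv' := hR.refl _ ha _ hz
  rw [dt_bv v hd, hs₀, hs₁] at hv'
  convert hv' using 1
  ext c
  simp only [bv, Pi.sub_apply, Pi.smul_apply, smul_eq_mul]
  by_cases h0 : c ∈ J₀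
  · simp only [h0, if_true]
    ring
  · by_cases h1' : c ∈ J₁
    · simp only [h0, h1', if_true, if_false]
      linear_combination v c * h3
    · simp only [h0, h1', if_false]
      ring

end three

end Cfsg.Agent.Lib.Classical.Frame
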