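/-
From all vectors of weight at most three to all vectors: the reflections of square norm act transitively on
vectors of given nonzero norm in three dimensions.
-/
import Mathlib
import Cfsg.Agent.Lib.Classical.Frame.Clos7
import Cfsg.Agent.Lib.Classical.Orth.ReflClass
import Cfsg.Agent.Lib.Classical.Orth.Models

set_option autoImplicit false
set_option linter.unusedSectionVars false
set_option linter.unusedSimpArgs false
set_option linter.unusedVariables false

namespace Cfsg.Agent.Lib.Classical.Frame

open Finset QuadraticMap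
open Cfsg.Agent.Lib.Classical.Orth.Basic
open Cfsg.Agent.Lib.Classical.Orth.Spinor
open Cfsg.Agent.Lib.Classical.Orth.ReflClass

section form

variable {F : Type*} [Field F] {κ : Type} [Fintype κ] [DecidableEq κ]

variable (F κ) in
/-- The dot form. -/
noncomputable def dotQ : QuadraticForm F (κ → F) := QuadraticMap.weightedSumSquares F (fun _ => (1 : F))

lemma dotQ_apply (x : κ → F) : dotQ F κ x = dt x x := by
  simp [dotQ, QuadraticMap.weightedSumSquares_apply, dt]

lemma polar_dotQ (x y : κ → F) : polar (⇑(dotQ F κ)) x y = 2 * dt x y := by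
  unfold polar
  rw [dotQ_apply, dotQ_apply, dotQ_apply]
  unfold dt
  rw [Finset.mul_sum, ← Finset.sum_sub_distrib, ← Finset.sum_sub_distrib]
  apply Finset.sum_congr rfl
  intro i _
  simp only [Pi.add_apply]
  ring

lemma dotQ_nondeg (h2 : (2 : F) ≠ 0) : (polarBilin (dotQ F κ)).Nondegenerate := by
  apply Cfsg.Agent.Lib.Classical.Orth.Models.nondegenerate_of_separating
  intro x hx
  ext i
  have := hx i
  rw [polar_dotQ] at this
  have h3 : dt (Pi.single i 1 : κ → F) x = x i := by
    unfold dt
    rw [Finset.sum_eq_single i]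
    · simp
    · intro b _ hb
      simp [Pi.single_apply, hb]
    · simp
  rw [h3] at this
  simpa using (mul_eq_zero.1 this).resolve_left h2

end form

variable {F : Type*} [Field F] [Fintype F]

/-- An isometry moving one vector to another of the same nonzero norm. -/
lemma exists_iso_move {κ : Type} [Fintype κ] [DecidableEq κ] {Q : QuadraticForm F (κ → F)} (h2 : (2 : F) ≠ 0) {β β' : κ → F} (he : Q β = Q β')
    (hs : Q β ≠ 0) : ∃ h : ↥(Cfsg.isometryGroup F (⇑Q)), act h β = β' := by
  by_cases hd : Q (β - β') = 0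
  · have hf : polar (⇑Q) β β' = 2 * Q β := by
      rw [Q_sub] at hd
      linear_combination -hd + he.symm
    have h0 : Q (β + β') ≠ 0 := by
      rw [Q_add, hf, ← he]
      have h4 : (2 : F) * 2 * Q β ≠ 0 := mul_ne_zero (mul_ne_zero h2 h2) hs
      intro h
      apply h4
      linear_combination h
    have hb' : Q β' ≠ 0 := by rwa [← he]
    refine ⟨reflectionIso Q β' hb' * reflectionIso Q (β + β') h0, ?_⟩
    rw [act_mul, reflectionIso_act, reflectionIso_act]
    have h5 : polar (⇑Q) (β + β') β = Q (β + β') := by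
      rw [polar_add_left, polar_self_eq, polar_comm, hf, Q_add, hf, ← he]
      ring
    rw [h5, inv_mul_cancel₀ h0, one_smul]
    have h6 : β - (β + β') = -β' := by abel
    have h7 : (Q β')⁻¹ * -(2 * Q β') = -2 := by
      field_simp
    rw [h6, polar_neg_right, polar_self_eq, h7]
    ext i
    simp only [Pi.sub_apply, Pi.neg_apply, Pi.smul_apply, smul_eq_mul]
    ring
  · refine ⟨reflectionIso Q (β - β') hd, ?_⟩
    rw [reflectionIso_act]
    have h5 : polar (⇑Q) (β - β') β = Q (β - β') := by
      rw [polar_sub_left, polar_self_eq, polar_comm, Q_sub, ← he]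
      ring
    rw [h5, inv_mul_cancel₀ hd, one_smul]
    abel

/-- Generators of the class group have trivial class sign. -/
lemma classGroup_le_ker {κ : Type} [Fintype κ] [DecidableEq κ] {Q : QuadraticForm F (κ → F)} {c : F} (hc : c ≠ 0)
    (ψ : ↥(Cfsg.isometryGroup F (⇑Q)) →* ℤˣ)
    (hψ : ∀ (v : κ → F) (hv : Q v ≠ 0), ψ (reflectionIso Q v hv) = 1 ↔ IsSquare (Q v / c)) :
    classGroup Q c ≤ ψ.ker := by
  unfold classGroup
  rw [Subgroup.closure_le]
  rintro g ⟨v, s, hs, hQv, hgv⟩
  have hQv0 : Q v ≠ 0 := by
    rw [hQv]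
    exact mul_ne_zero hc (pow_ne_zero _ hs)
  have hr : reflectionIso Q v hQv0 = g := by
    apply Subtype.ext
    apply Units.ext
    rw [hgv]
    rfl
  show g ∈ ψ.ker
  rw [MonoidHom.mem_ker, ← hr, hψ]
  rw [hQv]
  refine ⟨s, ?_⟩
  field_simp

/-- **Transitivity in three dimensions.** -/
theorem trans3 (h5 : 5 ≤ Fintype.card F) (h2 : (2 : F) ≠ 0) {β β' : Fin 3 → F} (he : dt β β = dt β' β') (hs : dt β β ≠ 0)
    (h0 : β' 2 = 0) : ∃ g ∈ classGroup (dotQ F (Fin 3)) 1, act g β = β' := by
  classical
  set Q := dotQ F (Fin 3) with hQdef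
  have hQ : (polarBilin Q).Nondegenerate := dotQ_nondeg h2
  obtain ⟨h, hh⟩ := exists_iso_move (Q := Q) h2 (β := β) (β' := β') (by rw [hQdef, dotQ_apply, dotQ_apply, he])
    (by rw [hQdef, dotQ_apply]; exact hs)
  have hidx := classGroup_index (Q := Q) hQ h2 (by simp) (Or.inr (Or.inr h5)) (c := 1) one_ne_zero
  by_cases hm : h ∈ classGroup Q 1
  · exact ⟨h, hm, hh⟩
  -- a reflection fixing the target, in a vector of nonsquare norm
  have hs' : dt β' β' ≠ 0 := by rwa [← he]
  have hb : dt β' β' = β' 0 * β' 0 + β' 1 * β' 1 := by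
    simp [dt, Fin.sum_univ_three, h0]
  obtain ⟨x, z, hxz⟩ := binary h2 hs' one_ne_zero (nonsq h2)
  let e : Fin 3 → F := ![x * β' 1, -(x * β' 0), z]
  have he1 : dt e e = nonsq h2 := by
    rw [← hxz, hb]
    simp [dt, Fin.sum_univ_three, e]
    ring
  have he2 : dt e β' = 0 := by
    simp [dt, Fin.sum_univ_three, e, h0]
    ring
  have hQe : Q e = nonsq h2 := by rw [hQdef, dotQ_apply, he1]
  have hQe0 : Q e ≠ 0 := by
    rw [hQe]
    exact nonsq_ne_zero h2
  obtain ⟨ψ, hψ⟩ := exists_class_hom (Q := Q) h2 1 one_ne_zero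
  have hnot : reflectionIso Q e hQe0 ∉ classGroup Q 1 := by
    intro hmem
    have h3 := classGroup_le_ker one_ne_zero ψ hψ hmem
    rw [MonoidHom.mem_ker, hψ, hQe, div_one] at h3
    exact nonsq_spec h2 h3
  have hmul : reflectionIso Q e hQe0 * h ∈ classGroup Q 1 := by
    rw [Subgroup.mul_mem_iff_of_index_two hidx]
    simp [hnot, hm]
  refine ⟨_, hmul, ?_⟩
  rw [act_mul, hh, reflectionIso_act, hQdef, polar_dotQ, he2]
  simp

/-! ### Splicing three coordinates -/

variable {ι : Type*} [Fintype ι] [DecidableEq ι]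

/-- Replace three coordinates. -/
def spl (i j k : ι) (z : ι → F) (β : Fin 3 → F) : ι → F :=
  fun c => if c = i then β 0 else if c = j then β 1 else if c = k then β 2 else z c

section splice

variable {i j k : ι} (hij : i ≠ j) (hik : i ≠ k) (hjk : j ≠ k)
include hij hik hjk

lemma spl_i (z : ι → F) (β : Fin 3 → F) : spl i j k z β i = β 0 := by simp [spl]
lemma spl_j (z : ι → F) (β : Fin 3 → F) : spl i j k z β j = β 1 := by simp [spl, hij.symm]
lemma spl_k (z : ι → F) (β : Fin 3 → F) : spl i j k z β k = β 2 := by simp [spl, hik.symm, hjk.symm]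

lemma dt_spl_zero (γ : Fin 3 → F) (z : ι → F) (β : Fin 3 → F) : dt (spl i j k 0 γ) (spl i j k z β) = dt γ β := by
  unfold dt
  rw [← Finset.sum_subset (Finset.subset_univ ({i, j, k} : Finset ι)), Finset.sum_insert (by simp [hij, hik]),
    Finset.sum_pair hjk, Fin.sum_univ_three, spl_i hij hik hjk, spl_i hij hik hjk, spl_j hij hik hjk, spl_j hij hik hjk,
    spl_k hij hik hjk, spl_k hij hik hjk, add_assoc]
  intro c _ hc
  have hc' : c ≠ i ∧ c ≠ j ∧ c ≠ k := by simpa using hc
  simp [spl, hc'.1, hc'.2.1, hc'.2.2]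

lemma dt_spl (z : ι → F) (β : Fin 3 → F) : dt (spl i j k z β) (spl i j k z β) = dt β β + sq z ({i, j, k} : Finset ι)ᶜ := by
  have h1 : dt (spl i j k z β) (spl i j k z β) = sq (spl i j k z β) {i, j, k} + sq (spl i j k z β) ({i, j, k} : Finset ι)ᶜ := by
    unfold dt sq
    rw [Finset.sum_add_sum_compl]
  rw [h1, sq_triple _ hij hik hjk, spl_i hij hik hjk, spl_j hij hik hjk, spl_k hij hik hjk]
  congr 1
  · simp [dt, Fin.sum_univ_three]
  · unfold sq
    apply Finset.sum_congr rfl
    intro c hc
    have hc' : c ≠ i ∧ c ≠ j ∧ c ≠ k := by simpa using hc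
    simp [spl, hc'.1, hc'.2.1, hc'.2.2]

lemma spl_self (z : ι → F) : spl i j k z ![z i, z j, z k] = z := by
  ext c
  unfold spl
  by_cases h1 : c = i
  · simp [h1]
  · by_cases h2 : c = j
    · simp [h2, hij.symm]
    · by_cases h3 : c = k
      · simp [h3, hik.symm, hjk.symm]
      · simp [h1, h2, h3]

end splice

variable {R : Set (ι → F)}

/-- The action of the class group of the three-dimensional form on spliced vectors preserves `R`. -/
theorem spl_class (h2 : (2 : F) ≠ 0) (hR : Closed R) (hG : G3 R) {i j k : ι} (hij : i ≠ j) (hik : i ≠ k) (hjk : j ≠ k)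
    {g : ↥(Cfsg.isometryGroup F (⇑(dotQ F (Fin 3))))} (hg : g ∈ classGroup (dotQ F (Fin 3)) 1) :
    ∀ (z : ι → F) (β : Fin 3 → F), spl i j k z β ∈ R ↔ spl i j k z (act g β) ∈ R := by
  classical
  set Q := dotQ F (Fin 3) with hQdef
  unfold classGroup at hg
  induction hg using Subgroup.closure_induction with
  | mem g hg =>
    obtain ⟨v, t, ht, hv, hgv⟩ := hg
    have hv0 : Q v ≠ 0 := by
      rw [hv]
      exact mul_ne_zero one_ne_zero (pow_ne_zero _ ht)
    have hr : reflectionIso Q v hv0 = g := by
      apply Subtype.ext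
      apply Units.ext
      rw [hgv]
      rfl
    rw [← hr]
    -- the unit vector
    have hvv : dt v v = t ^ 2 := by
      rw [← dotQ_apply, ← hQdef, hv, one_mul]
    set w : Fin 3 → F := t⁻¹ • v with hw
    have hww : dt w w = 1 := by
      have : dt w w = t⁻¹ * t⁻¹ * dt v v := by
        unfold dt
        rw [Finset.mul_sum]
        apply Finset.sum_congr rfl
        intro c _
        simp only [hw, Pi.smul_apply, smul_eq_mul]
        ring
      rw [this, hvv]
      field_simp
    have ha : spl i j k 0 w ∈ R := by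
      apply hG
      · rw [dt_spl hij hik hjk, hww]
        simp [sq]
      · unfold wt
        calc _ ≤ ({i, j, k} : Finset ι).card := by
                apply Finset.card_le_card
                intro c hc
                by_contra h9
                have h10 : c ≠ i ∧ c ≠ j ∧ c ≠ k := by simpa using h9
                apply mem_supp.1 hc
                simp [spl, h10.1, h10.2.1, h10.2.2]
          _ ≤ 3 := Finset.card_le_three
    have forward : ∀ (z : ι → F) (β : Fin 3 → F), spl i j k z β ∈ R →
        spl i j k z (act (reflectionIso Q v hv0) β) ∈ R := by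
      intro z β hx
      have h3 := hR.refl _ ha _ hx
      rw [dt_spl_zero hij hik hjk] at h3
      convert h3 using 1
      rw [reflectionIso_act, hQdef, polar_dotQ, dotQ_apply, hvv]
      have hdtw : dt w β = t⁻¹ * dt v β := by
        unfold dt
        rw [Finset.mul_sum]
        apply Finset.sum_congr rfl
        intro c _
        simp only [hw, Pi.smul_apply, smul_eq_mul]
        ring
      rw [hdtw]
      ext c
      unfold spl
      by_cases h1 : c = i
      · simp only [h1, if_true, Pi.sub_apply, Pi.smul_apply, smul_eq_mul, hw]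
        field_simp
      · by_cases h4 : c = j
        · simp only [h4, hij.symm, if_true, if_false, Pi.sub_apply, Pi.smul_apply, smul_eq_mul, hw]
          field_simp
        · by_cases h5 : c = k
          · simp only [h5, hik.symm, hjk.symm, if_true, if_false, Pi.sub_apply, Pi.smul_apply, smul_eq_mul, hw]
            field_simp
          · simp [h1, h4, h5]
    intro z β
    refine ⟨forward z β, fun h => ?_⟩
    have h3 := forward z _ h
    rw [← act_mul, reflectionIso_mul_self, act_one] at h3
    exact h3
  | one =>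
    intro z β
    rw [act_one]
  | mul g h _ _ ihg ihh =>
    intro z β
    rw [act_mul, ihh z β, ihg z (act h β)]
  | inv g _ ih =>
    intro z β
    rw [ih z (act g⁻¹ β), act_act_inv]

/-- **All vectors.** -/
theorem sphere_of_G3 (hF : Fld F) (hR : Closed R) (hG : G3 R) : ∀ v : ι → F, dt v v = 1 → v ∈ R := by
  classical
  have hp := hF.prime
  have h2 : (2 : F) ≠ 0 := Cfsg.Agent.Lib.PSL2.TorusCore.two_ne_zero_of_odd_card hF.odd
  have h3 : (3 : F) ≠ 0 := by
    have := cast_ne_zero_of_lt (F := F) hp (n := 3) (by norm_num) (by have := hF.ge5; omega)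
    exact_mod_cast this
  intro v
  induction h : wt v using Nat.strong_induction_on generalizing v with
  | _ n ih =>
  intro hv
  by_cases hle : wt v ≤ 3
  · exact hG v hv hle
  have key : ∀ i j k : ι, i ≠ j → i ≠ k → j ≠ k → i ∈ supp v → j ∈ supp v → k ∈ supp v →
      v i * v i + v j * v j + v k * v k ≠ 0 → v ∈ R := by
    intro i j k hij hik hjk hi hj hk hs
    set β : Fin 3 → F := ![v i, v j, v k] with hβ
    have hbb : dt β β = v i * v i + v j * v j + v k * v k := by
      simp [dt, Fin.sum_univ_three, hβ]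
    obtain ⟨a, b, hab⟩ := binary h2 one_ne_zero one_ne_zero (v i * v i + v j * v j + v k * v k)
    set β' : Fin 3 → F := ![a, b, 0] with hβ'
    have hbb' : dt β' β' = a * a + b * b := by
      simp [dt, Fin.sum_univ_three, hβ']
    obtain ⟨g, hg, hgb⟩ := trans3 hF.ge5 h2 (β := β) (β' := β') (by rw [hbb, hbb', ← hab]; ring) (by rw [hbb]; exact hs) (by simp [hβ'])
    have hiff := spl_class h2 hR hG hij hik hjk hg v β
    rw [hgb, hβ, spl_self hij hik hjk] at hiff
    rw [hiff]
    have hlt : wt (spl i j k v β') < n := by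
      rw [← h]
      apply Finset.card_lt_card
      refine ⟨?_, ?_⟩
      · intro c hc
        rw [mem_supp] at hc
        rw [mem_supp]
        by_cases h1 : c = k
        · exfalso
          apply hc
          rw [h1, spl_k hij hik hjk]
          simp [hβ']
        · by_cases h4 : c = i
          · rw [h4]
            exact mem_supp.1 hi
          · by_cases h5 : c = j
            · rw [h5]
              exact mem_supp.1 hj
            · intro h0
              apply hc
              simp [spl, h1, h4, h5, h0]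
      · intro hsub
        have := hsub hk
        rw [mem_supp, spl_k hij hik hjk] at this
        apply this
        simp [hβ']
    refine ih _ hlt _ rfl ?_
    rw [dt_spl hij hik hjk]
    have e : a * a + b * b = v i * v i + v j * v j + v k * v k := by linear_combination hab
    have h1 := dt_spl hij hik hjk v β
    rw [hβ, spl_self hij hik hjk, hv, ← hβ] at h1
    rw [hbb', e, ← hbb]
    exact h1.symm
  obtain ⟨c₁, c₂, c₃, m1, m2, m3, n12, n13, n23⟩ := Finset.two_lt_card_iff.1 (show 2 < (supp v).card by
    have : (supp v).card = wt v := rfl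
    omega)
  have h1 : 0 < (supp v \ {c₁, c₂, c₃}).card := by
    have := Finset.le_card_sdiff ({c₁, c₂, c₃} : Finset ι) (supp v)
    have h3' : ({c₁, c₂, c₃} : Finset ι).card ≤ 3 := Finset.card_le_three
    have : (supp v).card = wt v := rfl
    omega
  obtain ⟨c₄, h4⟩ := Finset.card_pos.1 h1
  simp only [Finset.mem_sdiff, Finset.mem_insert, Finset.mem_singleton, not_or] at h4
  obtain ⟨m4, n14, n24, n34⟩ := h4
  by_cases e1 : v c₁ * v c₁ + v c₂ * v c₂ + v c₃ * v c₃ = 0
  · by_cases e2 : v c₁ * v c₁ + v c₂ * v c₂ + v c₄ * v c₄ = 0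
    · by_cases e3 : v c₁ * v c₁ + v c₃ * v c₃ + v c₄ * v c₄ = 0
      · by_cases e4 : v c₂ * v c₂ + v c₃ * v c₃ + v c₄ * v c₄ = 0
        · exfalso
          have : 3 * (v c₁ * v c₁) = 0 := by linear_combination e1 + e2 + e3 - 2 * e4
          rcases mul_eq_zero.1 this with h | h
          · exact h3 h
          · exact mem_supp.1 m1 (by simpa using h)
        · exact key c₂ c₃ c₄ n23 (Ne.symm n24) (Ne.symm n34) m2 m3 m4 e4
      · exact key c₁ c₃ c₄ n13 (Ne.symm n14) (Ne.symm n34) m1 m3 m4 e3
    · exact key c₁ c₂ c₄ n12 (Ne.symm n14) (Ne.symm n24) m1 m2 m4 e2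
  · exact key c₁ c₂ c₃ n12 n13 n23 m1 m2 m3 e1

/-- **The closure theorem.** -/
theorem closure_final (hprime : (Fintype.card F).Prime) (hodd : Odd (Fintype.card F)) (hι : 9 ≤ Fintype.card ι) (hR : Closed R)
    {x : ι → F} (hx : x ∈ R) (hnt : ¬ Triv x) : ∀ v : ι → F, dt v v = 1 → v ∈ R := by
  by_cases h3 : Fintype.card F = 3
  · exact main_3 hR hι hprime h3 hx hnt
  · have h5 : 5 ≤ Fintype.card F := by
      have h2 := hprime.two_le
      by_contra hlt
      have : Fintype.card F = 2 ∨ Fintype.card F = 3 ∨ Fintype.card F = 4 := by omega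
      rcases this with h | h | h
      · rw [h] at hodd
        exact absurd hodd (by decide)
      · exact h3 h
      · rw [h] at hprime
        exact absurd hprime (by norm_num)
    have hF : Fld F := ⟨hprime, hodd, h5⟩
    exact sphere_of_G3 hF hR (main_g3 hF hR hι hx hnt)

end Cfsg.Agent.Lib.Classical.Frame
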