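/-
Overgroups of the frame stabiliser in even dimension, on coordinates: groups of isometries of the dot product containing
the sign changes and the even permutations. If every element sending a coordinate vector to a trivial vector is monomial,
then a non-monomial element has at most four zero coordinates in each image of a coordinate vector.
-/
import Mathlib
import Cfsg.Agent.Lib.Classical.Frame.Clos8

set_option autoImplicit false
set_option linter.unusedSectionVars false
set_option linter.unusedSimpArgs false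
set_option linter.unusedVariables false

namespace Cfsg.Agent.Lib.Classical.Frame.Even

open Finset

variable {κ : Type} [Fintype κ] [DecidableEq κ] {F : Type*} [Field F] [Fintype F]

/-- The group of linear automorphisms of the coordinate space. -/
abbrev Aut (κ : Type) (F : Type*) [Field F] := (κ → F) ≃ₗ[F] (κ → F)

/-- Coordinate vectors. -/
def ee (i : κ) : κ → F := Pi.single i 1

lemma ee_ne_zero (i : κ) : (ee i : κ → F) ≠ 0 := by
  intro h
  have := congrFun h i
  simp [ee] at this

lemma dt_add_left (x y z : κ → F) : dt (x + y) z = dt x z + dt y z := by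
  unfold dt
  rw [← Finset.sum_add_distrib]
  exact Finset.sum_congr rfl (fun i _ => by rw [Pi.add_apply]; ring)

lemma dt_add_right (x y z : κ → F) : dt x (y + z) = dt x y + dt x z := by
  rw [dt_comm, dt_add_left, dt_comm y, dt_comm z]

lemma dt_smul_left (a : F) (x z : κ → F) : dt (a • x) z = a * dt x z := by
  unfold dt
  rw [Finset.mul_sum]
  exact Finset.sum_congr rfl (fun i _ => by rw [Pi.smul_apply, smul_eq_mul]; ring)

lemma dt_smul_right (a : F) (x z : κ → F) : dt x (a • z) = a * dt x z := by
  rw [dt_comm, dt_smul_left, dt_comm]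

lemma dt_neg_left (x z : κ → F) : dt (-x) z = - dt x z := by
  have := dt_smul_left (-1 : F) x z
  simpa using this

lemma dt_neg_right (x z : κ → F) : dt x (-z) = - dt x z := by
  rw [dt_comm, dt_neg_left, dt_comm]

lemma dt_sub_left (x y z : κ → F) : dt (x - y) z = dt x z - dt y z := by
  rw [sub_eq_add_neg, dt_add_left, dt_neg_left, sub_eq_add_neg]

lemma dt_sub_right (x y z : κ → F) : dt x (y - z) = dt x y - dt x z := by
  rw [sub_eq_add_neg, dt_add_right, dt_neg_right, sub_eq_add_neg]

lemma dt_ee_left (i : κ) (x : κ → F) : dt (ee i) x = x i := by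
  unfold dt ee
  rw [Finset.sum_eq_single i]
  · simp
  · intro b _ hb
    simp [Pi.single_apply, hb]
  · simp

lemma dt_ee_right (x : κ → F) (i : κ) : dt x (ee i) = x i := by
  rw [dt_comm, dt_ee_left]

lemma dt_zero_left (z : κ → F) : dt 0 z = (0 : F) := by
  unfold dt
  simp

lemma dt_zero_right (z : κ → F) : dt z 0 = (0 : F) := by
  unfold dt
  simp

lemma dt_sum_right {ι' : Type*} (S : Finset ι') (x : κ → F) (y : ι' → κ → F) : dt x (∑ l ∈ S, y l) = ∑ l ∈ S, dt x (y l) := by
  classical
  induction S using Finset.induction_on with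
  | empty => simp [dt_zero_right]
  | insert a S ha ih => rw [Finset.sum_insert ha, Finset.sum_insert ha, dt_add_right, ih]

lemma ee_apply (i c : κ) : (ee i : κ → F) c = if c = i then 1 else 0 := by
  simp [ee, Pi.single_apply]

lemma dt_ee_ee (i j : κ) : dt (ee i : κ → F) (ee j) = if i = j then 1 else 0 := by
  rw [dt_ee_left, ee_apply]

/-- Orthonormal families. -/
def Orn (b : κ → κ → F) : Prop := ∀ l l', dt (b l) (b l') = if l = l' then 1 else 0

lemma orn_ee : Orn (ee : κ → κ → F) := dt_ee_ee

/-- Monomial automorphisms. -/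
def Mon (g : Aut κ F) : Prop := ∀ i, ∃ j, ∃ s : F, g (ee i) = s • ee j

/-- Sign changes. -/
noncomputable def flp (I : Finset κ) : Aut κ F :=
  LinearEquiv.ofInvolutive
    { toFun := fun x c => if c ∈ I then - x c else x c
      map_add' := by
        intro x y
        ext c
        by_cases hc : c ∈ I <;> simp [hc]
        ring
      map_smul' := by
        intro a x
        ext c
        by_cases hc : c ∈ I <;> simp [hc] }
    (by
      intro x
      ext c
      by_cases hc : c ∈ I <;> simp [hc])

lemma flp_apply (I : Finset κ) (x : κ → F) (c : κ) : flp I x c = if c ∈ I then - x c else x c := rfl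

lemma flp_mul_self (I : Finset κ) : (flp I : Aut κ F) * flp I = 1 := by
  apply LinearEquiv.ext
  intro x
  ext c
  change flp I (flp I x) c = x c
  rw [flp_apply, flp_apply]
  by_cases hc : c ∈ I <;> simp [hc]

lemma flp_fix {I : Finset κ} {x : κ → F} (h : ∀ c ∈ I, x c = 0) : flp I x = x := by
  ext c
  rw [flp_apply]
  by_cases hc : c ∈ I
  · rw [if_pos hc, h c hc, neg_zero]
  · rw [if_neg hc]

lemma flp_union {I J : Finset κ} (h : Disjoint I J) : (flp (I ∪ J) : Aut κ F) = flp I * flp J := by
  apply LinearEquiv.ext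
  intro x
  ext c
  change flp (I ∪ J) x c = flp I (flp J x) c
  rw [flp_apply, flp_apply, flp_apply]
  by_cases h1 : c ∈ I
  · have h2 : c ∉ J := Finset.disjoint_left.1 h h1
    simp [h1, h2]
  · by_cases h2 : c ∈ J <;> simp [h1, h2]

lemma dt_flp (I : Finset κ) (x : κ → F) : dt x (flp I x) = dt x x - 2 * ∑ i ∈ I, x i * x i := by
  have h1 : ∑ i ∈ I, x i * x i = ∑ i, if i ∈ I then x i * x i else 0 := by
    rw [Finset.sum_ite_mem]
    simp
  rw [h1, Finset.mul_sum]
  unfold dt
  rw [← Finset.sum_sub_distrib]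
  apply Finset.sum_congr rfl
  intro i _
  rw [flp_apply]
  by_cases hc : i ∈ I <;> simp [hc]
  ring

/-- Coordinate permutations. -/
noncomputable def pm (σ : Equiv.Perm κ) : Aut κ F := LinearEquiv.funCongrLeft F F σ

lemma pm_apply (σ : Equiv.Perm κ) (x : κ → F) : pm σ x = x ∘ σ := rfl

/-- The overgroup hypotheses. -/
structure PH (𝔐 : Subgroup (Aut κ F)) : Prop where
  orth : ∀ g ∈ 𝔐, ∀ x y, dt (g x) (g y) = dt x y
  flip : ∀ a b : κ, a ≠ b → (flp {a, b} : Aut κ F) ∈ 𝔐
  perm : ∀ σ : Equiv.Perm κ, Equiv.Perm.sign σ = 1 → (pm σ : Aut κ F) ∈ 𝔐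
  triv : ∀ m ∈ 𝔐, ∀ i, Triv (m (ee i)) → Mon m

lemma Aut_inv_apply (g : Aut κ F) (x : κ → F) : g⁻¹ (g x) = x := by
  have : (g⁻¹ * g) x = x := by simp
  exact this

lemma Aut_apply_inv (g : Aut κ F) (x : κ → F) : g (g⁻¹ x) = x := by
  have : (g * g⁻¹) x = x := by simp
  exact this

lemma Aut_mul_apply (g h : Aut κ F) (x : κ → F) : (g * h) x = g (h x) := rfl

lemma triv_ee (i : κ) : Triv (ee i : κ → F) := by
  left
  have : supp (ee i : κ → F) ⊆ {i} := by
    intro c hc
    have := mem_supp.1 hc
    rw [ee_apply] at this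
    by_contra h
    rw [Finset.mem_singleton] at h
    simp [h] at this
  exact (Finset.card_le_card this).trans (by simp)

variable {𝔐 : Subgroup (Aut κ F)}

lemma PH.flp_mem2 (hP : PH 𝔐) {I : Finset κ} (h : I.card = 2) : (flp I : Aut κ F) ∈ 𝔐 := by
  obtain ⟨a, b, hab, rfl⟩ := Finset.card_eq_two.1 h
  exact hP.flip a b hab

lemma PH.flp_mem4 (hP : PH 𝔐) {I : Finset κ} (h : I.card = 4) : (flp I : Aut κ F) ∈ 𝔐 := by
  obtain ⟨A, hA, hAc⟩ := Finset.exists_subset_card_eq (s := I) (n := 2) (by omega)
  have hdis : Disjoint A (I \ A) := Finset.disjoint_sdiff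
  have e : I = A ∪ (I \ A) := (Finset.union_sdiff_of_subset hA).symm
  have hc : (I \ A).card = 2 := by
    rw [Finset.card_sdiff_of_subset hA]
    omega
  rw [e, flp_union hdis]
  exact 𝔐.mul_mem (hP.flp_mem2 hAc) (hP.flp_mem2 hc)

/-- Images of coordinate vectors are orthonormal. -/
lemma PH.orn (hP : PH 𝔐) {g : Aut κ F} (hg : g ∈ 𝔐) : Orn (fun l => g (ee l)) := by
  intro l l'
  rw [hP.orth g hg, dt_ee_ee]

lemma triv_smul_ee (s : F) (i : κ) : Triv (s • ee i : κ → F) := by
  left
  have : supp (s • ee i : κ → F) ⊆ {i} := by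
    intro c hc
    have := mem_supp.1 hc
    rw [Pi.smul_apply, smul_eq_mul, ee_apply] at this
    by_contra h
    rw [Finset.mem_singleton] at h
    simp [h] at this
  exact (Finset.card_le_card this).trans (by simp)

/-- A non-monomial element has a non-monomial inverse. -/
lemma PH.not_mon_inv (hP : PH 𝔐) {g : Aut κ F} (hg : g ∈ 𝔐) (h : ¬ Mon g) [Nonempty κ] : ¬ Mon g⁻¹ := by
  intro hm
  apply h
  obtain ⟨i⟩ := ‹Nonempty κ›
  obtain ⟨j, s, hs⟩ := hm i
  have hs0 : s ≠ 0 := by
    rintro rfl
    rw [zero_smul] at hs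
    have h1 : g (g⁻¹ (ee i)) = g 0 := by rw [hs]
    rw [Aut_apply_inv, map_zero] at h1
    exact ee_ne_zero i h1
  apply hP.triv g hg j
  have h3 : g (s • ee j) = ee i := by
    rw [← hs, Aut_apply_inv]
  have h4 : g (ee j) = s⁻¹ • ee i := by
    rw [← h3, map_smul, smul_smul, inv_mul_cancel₀ hs0, one_smul]
  rw [h4]
  exact triv_smul_ee _ _

/-- Frame vectors, relation with reflections. -/
def Tr (f f' : κ → F) : Prop := f' = f ∨ f' = -f ∨ dt f f' = 0

/-- An element of the group fixing the image of a coordinate vector permutes the image frame. -/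
lemma PH.frame_of_fix (hP : PH 𝔐) {g t : Aut κ F} (hg : g ∈ 𝔐) (ht : t ∈ 𝔐) {i : κ} (hfix : t (g (ee i)) = g (ee i)) (l : κ) :
    ∃ l', ∃ s : F, t (g (ee l)) = s • g (ee l') := by
  have h1 : (g⁻¹ * t * g) ∈ 𝔐 := 𝔐.mul_mem (𝔐.mul_mem (𝔐.inv_mem hg) ht) hg
  have h3 : (g⁻¹ * t * g) (ee i) = ee i := by
    change g⁻¹ (t (g (ee i))) = ee i
    rw [hfix, Aut_inv_apply]
  have h4 : Mon (g⁻¹ * t * g) := hP.triv _ h1 i (by rw [h3]; exact triv_ee i)
  obtain ⟨l', s, hs⟩ := h4 l
  refine ⟨l', s, ?_⟩
  have h5 : g⁻¹ (t (g (ee l))) = s • ee l' := hs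
  have h6 := congrArg g h5
  rw [Aut_apply_inv, map_smul] at h6
  exact h6

lemma PH.tr_of_frame (hP : PH 𝔐) {g t : Aut κ F} (hg : g ∈ 𝔐) (ht : t ∈ 𝔐) {l l' : κ} {s : F} (h : t (g (ee l)) = s • g (ee l')) (h2 : (2 : F) ≠ 0) :
    Tr (g (ee l)) (t (g (ee l))) := by
  by_cases hl : l' = l
  · subst hl
    have h1 := hP.orth t ht (g (ee l')) (g (ee l'))
    rw [h, dt_smul_left, dt_smul_right, hP.orth g hg, dt_ee_ee, if_pos rfl] at h1
    have h3 : (s - 1) * (s + 1) = 0 := by linear_combination h1
    rcases mul_eq_zero.1 h3 with h4 | h4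
    · left
      rw [h, sub_eq_zero.1 h4, one_smul]
    · right
      left
      have : s = -1 := by linear_combination h4
      rw [h, this]
      simp
  · right
    right
    rw [h, dt_smul_right, hP.orth g hg, dt_ee_ee, if_neg (Ne.symm hl), mul_zero]

/-- Off a set of coordinates, the weight is bounded. -/
lemma wt_le_of_off {f : κ → F} {S : Finset κ} (h : ∀ i, i ∉ S → f i = 0) : wt f ≤ S.card := by
  apply Finset.card_le_card
  intro c hc
  by_contra hc'
  exact (mem_supp.1 hc) (h c hc')

lemma tr_pair (h2 : (2 : F) ≠ 0) {f : κ → F} (hu : dt f f = 1) {c d : κ} (hcd : c ≠ d) (hfc : f c ≠ 0) (h : Tr f (flp {c, d} f)) :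
    (∀ i, i ≠ c → i ≠ d → f i = 0) ∨ 2 * (f c * f c + f d * f d) = 1 := by
  rcases h with h | h | h
  · exfalso
    have := congrFun h c
    rw [flp_apply, if_pos (by simp)] at this
    apply hfc
    have h3 : 2 * f c = 0 := by linear_combination -this
    exact (mul_eq_zero.1 h3).resolve_left h2
  · left
    intro i hi hi'
    have := congrFun h i
    rw [flp_apply, if_neg (by simp [hi, hi'])] at this
    simp only [Pi.neg_apply] at this
    have h3 : 2 * f i = 0 := by linear_combination this
    exact (mul_eq_zero.1 h3).resolve_left h2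
  · right
    rw [dt_flp, hu, Finset.sum_pair hcd] at h
    linear_combination -h

/-- Five zero coordinates are impossible in a frame vector. -/
theorem no_five (h2 : (2 : F) ≠ 0) {f : κ → F} (hu : dt f f = 1) (hnt : ¬ Triv f) {C : Finset κ} (hC : 5 ≤ C.card)
    (hp2 : ∀ c ∈ C, ∀ d ∈ C, c ≠ d → Tr f (flp {c, d} f))
    (hp4 : ∀ I : Finset κ, I ⊆ C → I.card = 4 → Tr f (flp I f))
    (hps : ∀ c ∈ C, ∀ d ∈ C, ∀ e ∈ C, ∀ h ∈ C, c ≠ d → c ≠ e → c ≠ h → d ≠ e → d ≠ h → e ≠ h → Tr f (pm (Equiv.swap c d * Equiv.swap e h) f))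
    {c : κ} (hc : c ∈ C) (hfc : f c ≠ 0) : False := by
  classical
  have hA : ∀ x ∈ C, f x ≠ 0 → ∀ d ∈ C, x ≠ d → 2 * (f x * f x + f d * f d) = 1 := by
    intro x hx hfx d hd hxd
    rcases tr_pair h2 hu hxd hfx (hp2 x hx d hd hxd) with h | h
    · exfalso
      obtain ⟨d₁, hd₁, hn⟩ : ∃ d₁ ∈ C, d₁ ∉ ({x, d} : Finset κ) := by
        by_contra hcon
        push Not at hcon
        have : C ⊆ {x, d} := hcon
        have := Finset.card_le_card this
        have h3 : ({x, d} : Finset κ).card ≤ 2 := Finset.card_le_two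
        omega
      have hd₁x : x ≠ d₁ := fun h => hn (by simp [h])
      have hd₁d : d ≠ d₁ := fun h => hn (by simp [h])
      have h0 : f d₁ = 0 := h d₁ hd₁x.symm hd₁d.symm
      apply hnt
      rcases tr_pair h2 hu hd₁x hfx (hp2 x hx d₁ hd₁ hd₁x) with h3 | h3
      · left
        have h4 := h3 d hxd.symm hd₁d
        have := wt_le_of_off (f := f) (S := {x}) (fun i hi => by
          have hi' : i ≠ x := by simpa using hi
          by_cases hid : i = d
          · rw [hid, h4]
          · exact h i hi' hid)
        simpa using this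
      · rw [h0] at h3
        have h5 : dt f f = sq f {x, d} := dt_of_sub (fun i hi => by
          have hi' : i ≠ x ∧ i ≠ d := by simpa using hi
          exact h i hi'.1 hi'.2)
        rw [hu, sq_pair f hxd] at h5
        have h6 : 2 * (f x * f x) = 1 := by linear_combination h3
        have h7 : 2 * (f d * f d) = 1 := by linear_combination -2 * h5 - h6 + 2
        by_cases hfd : f d = 0
        · rw [hfd] at h7
          simp at h7
        right
        have hs : supp f = {x, d} := by
          ext i
          simp only [mem_supp, Finset.mem_insert, Finset.mem_singleton]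
          constructor
          · intro hi
            by_contra hcon
            push Not at hcon
            exact hi (h i hcon.1 hcon.2)
          · rintro (rfl | rfl)
            · exact hfx
            · exact hfd
        refine ⟨?_, ?_⟩
        · show (supp f).card = 2
          rw [hs]
          exact Finset.card_pair hxd
        · intro i hi
          have : i ∈ supp f := mem_supp.2 hi
          rw [hs] at this
          simp only [Finset.mem_insert, Finset.mem_singleton] at this
          rcases this with rfl | rfl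
          · exact h6
          · exact h7
    · exact h
  have h40 : (4 : F) ≠ 0 := by
    have : (4 : F) = 2 * 2 := by norm_num
    rw [this]
    exact mul_ne_zero h2 h2
  by_cases hex : ∃ d₀ ∈ C, d₀ ≠ c ∧ f d₀ ≠ 0
  · obtain ⟨d₀, hd₀, hne, hfd₀⟩ := hex
    have hcd := hA c hc hfc d₀ hd₀ hne.symm
    have h4c : 4 * (f c * f c) = 1 := by
      obtain ⟨d₁, hd₁, hn⟩ : ∃ d₁ ∈ C, d₁ ∉ ({c, d₀} : Finset κ) := by
        by_contra hcon
        push Not at hcon
        have : C ⊆ {c, d₀} := hcon
        have := Finset.card_le_card this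
        have h3 : ({c, d₀} : Finset κ).card ≤ 2 := Finset.card_le_two
        omega
      have h1x : c ≠ d₁ := fun h => hn (by simp [h])
      have h1d : d₀ ≠ d₁ := fun h => hn (by simp [h])
      have e1 := hA c hc hfc d₁ hd₁ h1x
      have e2 := hA d₀ hd₀ hfd₀ d₁ hd₁ h1d
      linear_combination hcd + e1 - e2
    have h4 : ∀ x ∈ C, 4 * (f x * f x) = 1 := by
      intro x hx
      by_cases hxc : x = c
      · rw [hxc]
        exact h4c
      · have e1 := hA c hc hfc x hx (Ne.symm hxc)
        linear_combination 2 * e1 - h4c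
    obtain ⟨I, hI, hIc⟩ := Finset.exists_subset_card_eq (s := C) (n := 4) (by omega)
    have hnz : ∀ x ∈ C, f x ≠ 0 := by
      intro x hx h0
      have := h4 x hx
      rw [h0] at this
      simp at this
    rcases hp4 I hI hIc with h | h | h
    · obtain ⟨i, hi⟩ : I.Nonempty := by
        rw [← Finset.card_pos]
        omega
      have := congrFun h i
      rw [flp_apply, if_pos hi] at this
      apply hnz i (hI hi)
      have h3 : 2 * f i = 0 := by linear_combination -this
      exact (mul_eq_zero.1 h3).resolve_left h2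
    · obtain ⟨z, hz, hzI⟩ : ∃ z ∈ C, z ∉ I := by
        by_contra hcon
        push Not at hcon
        have := Finset.card_le_card (show C ⊆ I from hcon)
        omega
      have := congrFun h z
      rw [flp_apply, if_neg hzI] at this
      simp only [Pi.neg_apply] at this
      apply hnz z hz
      have h3 : 2 * f z = 0 := by linear_combination this
      exact (mul_eq_zero.1 h3).resolve_left h2
    · rw [dt_flp, hu] at h
      have h5 : 4 * ∑ i ∈ I, f i * f i = 4 := by
        rw [Finset.mul_sum, Finset.sum_congr rfl (fun i hi => h4 i (hI hi))]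
        simp [hIc]
      have h6 : ∑ i ∈ I, f i * f i = 1 := by
        apply mul_left_cancel₀ h40
        rw [h5, mul_one]
      rw [h6] at h
      have h7 : (1 : F) = 0 := by linear_combination -h
      exact one_ne_zero h7
  · push Not at hex
    have hcard : 4 ≤ (C.erase c).card := by
      rw [Finset.card_erase_of_mem hc]
      omega
    obtain ⟨T, hT, hTc⟩ := Finset.exists_subset_card_eq (s := C.erase c) (n := 3) (by omega)
    obtain ⟨d, e, h, hde, hdh, heh, rfl⟩ := Finset.card_eq_three.1 hTc
    have hd : d ∈ C.erase c := hT (by simp)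
    have he : e ∈ C.erase c := hT (by simp)
    have hh : h ∈ C.erase c := hT (by simp)
    rw [Finset.mem_erase] at hd he hh
    have fd := hex d hd.2 hd.1
    have fe := hex e he.2 he.1
    have fh := hex h hh.2 hh.1
    have h2c := hA c hc hfc d hd.2 hd.1.symm
    rw [fd] at h2c
    have hsq : 2 * (f c * f c) = 1 := by linear_combination h2c
    set σ := Equiv.swap c d * Equiv.swap e h with hσ
    have hσd : σ d = c := by
      rw [hσ, Equiv.Perm.mul_apply, Equiv.swap_apply_of_ne_of_ne hde hdh, Equiv.swap_apply_right]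
    have hσc : σ c = d := by
      rw [hσ, Equiv.Perm.mul_apply, Equiv.swap_apply_of_ne_of_ne he.1.symm hh.1.symm, Equiv.swap_apply_left]
    have hσo : ∀ i, i ≠ c → i ≠ d → i ≠ e → i ≠ h → σ i = i := by
      intro i h1 h3 h4 h5
      rw [hσ, Equiv.Perm.mul_apply, Equiv.swap_apply_of_ne_of_ne h4 h5, Equiv.swap_apply_of_ne_of_ne h1 h3]
    rcases hps c hc d hd.2 e he.2 h hh.2 hd.1.symm he.1.symm hh.1.symm hde hdh heh with h1 | h1 | h1
    · have := congrFun h1 d
      rw [pm_apply, Function.comp, hσd, fd] at this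
      exact hfc this
    · have := congrFun h1 d
      rw [pm_apply, Function.comp, hσd, Pi.neg_apply, fd, neg_zero] at this
      exact hfc this
    · have e1 : dt f (pm σ f) = ∑ i, (f i * f i - if i = c then f c * f c else 0) := by
        unfold dt
        apply Finset.sum_congr rfl
        intro i _
        rw [pm_apply, Function.comp]
        by_cases ic : i = c
        · subst ic
          rw [hσc, fd, if_pos rfl]
          ring
        · rw [if_neg ic]
          by_cases id : i = d
          · rw [id, fd]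
            ring
          · by_cases ie : i = e
            · rw [ie, fe]
              ring
            · by_cases ih : i = h
              · rw [ih, fh]
                ring
              · rw [hσo i ic id ie ih]
                ring
      rw [e1, Finset.sum_sub_distrib, Finset.sum_ite_eq' Finset.univ c, if_pos (Finset.mem_univ _)] at h1
      have h3 : ∑ i, f i * f i = 1 := hu
      rw [h3] at h1
      have h7 : (1 : F) = 0 := by linear_combination 2 * h1 + hsq
      exact one_ne_zero h7

/-- **Zero coordinates are few.** -/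
theorem zeros_le (hP : PH 𝔐) (h2 : (2 : F) ≠ 0) {g : Aut κ F} (hg : g ∈ 𝔐) (hng : ¬ Mon g) (i : κ) (C : Finset κ)
    (hC : ∀ c ∈ C, g (ee i) c = 0) : C.card ≤ 4 := by
  by_contra hcon
  push Not at hcon
  have hC5 : 5 ≤ C.card := hcon
  obtain ⟨c, hc⟩ : C.Nonempty := by
    rw [← Finset.card_pos]
    omega
  -- a frame vector with a nonzero coordinate `c`
  obtain ⟨l, hl⟩ : ∃ l, g (ee l) c ≠ 0 := by
    by_contra hall
    push Not at hall
    have h0 : g⁻¹ (ee c) = 0 := by
      ext l
      have h3 := hP.orth g hg (ee l) (g⁻¹ (ee c))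
      rw [Aut_apply_inv, dt_ee_right, dt_ee_left] at h3
      rw [Pi.zero_apply, ← h3, hall l]
    have h3 : g (g⁻¹ (ee c)) = g 0 := by rw [h0]
    rw [Aut_apply_inv, map_zero] at h3
    exact ee_ne_zero c h3
  have htr : ∀ t ∈ 𝔐, t (g (ee i)) = g (ee i) → Tr (g (ee l)) (t (g (ee l))) := by
    intro t ht hfix
    obtain ⟨l', s, hs⟩ := hP.frame_of_fix hg ht hfix l
    exact hP.tr_of_frame hg ht hs h2
  have hu : dt (g (ee l)) (g (ee l)) = 1 := by
    rw [hP.orth g hg, dt_ee_ee, if_pos rfl]
  have hnt : ¬ Triv (g (ee l)) := fun h => hng (hP.triv g hg l h)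
  refine no_five h2 hu hnt hC5 ?_ ?_ ?_ hc hl
  · intro c hc d hd hcd
    apply htr _ (hP.flip c d hcd)
    apply flp_fix
    intro x hx
    simp only [Finset.mem_insert, Finset.mem_singleton] at hx
    rcases hx with rfl | rfl
    · exact hC _ hc
    · exact hC _ hd
  · intro I hI hIc
    apply htr _ (hP.flp_mem4 hIc)
    apply flp_fix
    intro x hx
    exact hC _ (hI hx)
  · intro c hc d hd e he h hh n1 n2 n3 n4 n5 n6
    apply htr _ (hP.perm _ (by
      rw [Equiv.Perm.sign_mul, Equiv.Perm.sign_swap n1, Equiv.Perm.sign_swap n6]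
      rfl))
    ext x
    rw [pm_apply, Function.comp, Equiv.Perm.mul_apply]
    have yc := hC _ hc
    have yd := hC _ hd
    have ye := hC _ he
    have yh := hC _ hh
    by_cases x1 : x = c
    · rw [x1, Equiv.swap_apply_of_ne_of_ne n2 n3, Equiv.swap_apply_left, yd, yc]
    by_cases x2 : x = d
    · rw [x2, Equiv.swap_apply_of_ne_of_ne n4 n5, Equiv.swap_apply_right, yc, yd]
    by_cases x3 : x = e
    · rw [x3, Equiv.swap_apply_left, Equiv.swap_apply_of_ne_of_ne n3.symm n5.symm, yh, ye]
    by_cases x4 : x = h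
    · rw [x4, Equiv.swap_apply_right, Equiv.swap_apply_of_ne_of_ne n2.symm n4.symm, ye, yh]
    rw [Equiv.swap_apply_of_ne_of_ne x3 x4, Equiv.swap_apply_of_ne_of_ne x1 x2]

end Cfsg.Agent.Lib.Classical.Frame.Even
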