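/-
The central involution of the dihedral group generated by two involutions of the group; signed permutations of orthonormal
frames; bounds for the number of frame vectors moved by an involution.
-/
import Mathlib
import Cfsg.Agent.Lib.Classical.Frame.Even1

set_option autoImplicit false
set_option linter.unusedSectionVars false
set_option linter.unusedSimpArgs false
set_option linter.unusedVariables false

namespace Cfsg.Agent.Lib.Classical.Frame.Even

open Finset

variable {κ : Type} [Fintype κ] [DecidableEq κ] {F : Type*} [Field F] [Fintype F]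

/-- The central involution attached to two involutions. -/
structure Cfg (u v c : Aut κ F) (μ : F) : Prop where
  cc : ∀ x, c (c x) = x
  ne : c ≠ 1
  cu : ∀ x, c (u x) = u (c x)
  cv : ∀ x, c (v x) = v (c x)
  hμ : μ = 1 ∨ μ = -1
  eig : ∀ x, u (v x) = -x → c x = μ • x
  fix : ∀ x, u x = x → v x = x → c x = x

instance finite_aut : Finite (Aut κ F) :=
  Finite.of_injective (fun g : Aut κ F => (g : (κ → F) → (κ → F))) DFunLike.coe_injective

lemma Aut_pow_neg {w : Aut κ F} {x : κ → F} (h : w x = -x) (k : ℕ) : (w ^ k) x = ((-1 : F) ^ k) • x := by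
  induction k with
  | zero => simp
  | succ k ih =>
    rw [pow_succ, Aut_mul_apply, h, map_neg, ih, pow_succ]
    simp

lemma Aut_pow_fix {w : Aut κ F} {x : κ → F} (h : w x = x) (k : ℕ) : (w ^ k) x = x := by
  induction k with
  | zero => simp
  | succ k ih =>
    rw [pow_succ, Aut_mul_apply, h, ih]

theorem exists_cfg (h2 : (2 : F) ≠ 0) {u v : Aut κ F} (hu : u * u = 1) (hv : v * v = 1) {q : κ → F} (hq : q ≠ 0) (hq' : u (v q) = -q) :
    ∃ c μ, (∀ 𝔐 : Subgroup (Aut κ F), u ∈ 𝔐 → v ∈ 𝔐 → c ∈ 𝔐) ∧ Cfg u v c μ := by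
  set w := u * v with hw
  have hwq : w q = -q := hq'
  have hfin : IsOfFinOrder w := isOfFinOrder_of_finite w
  have hpos := hfin.orderOf_pos
  have hN : w ^ orderOf w = 1 := pow_orderOf_eq_one w
  have h1 : ((-1 : F) ^ orderOf w) • q = q := by
    rw [← Aut_pow_neg hwq, hN]
    rfl
  have hev : Even (orderOf w) := by
    by_contra hodd
    rw [Nat.not_even_iff_odd] at hodd
    rw [hodd.neg_one_pow, neg_one_smul] at h1
    apply hq
    ext c
    have := congrFun h1 c
    simp only [Pi.neg_apply] at this
    have h3 : 2 * q c = 0 := by linear_combination -this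
    exact (mul_eq_zero.1 h3).resolve_left h2
  obtain ⟨m, hm⟩ := hev
  have hmpos : m ≠ 0 := by omega
  have hmlt : m < orderOf w := by omega
  have hne : w ^ m ≠ 1 := pow_ne_one_of_lt_orderOf hmpos hmlt
  have hcc : w ^ m * w ^ m = 1 := by
    rw [← pow_add, ← hm, hN]
  have hinv : (w ^ m)⁻¹ = w ^ m := inv_eq_of_mul_eq_one_left hcc
  have hwinv : w⁻¹ = v * u := by
    apply inv_eq_of_mul_eq_one_left
    rw [hw]
    calc v * u * (u * v) = v * (u * u) * v := by group
      _ = 1 := by rw [hu, mul_one, hv]
  have su : SemiconjBy u w w⁻¹ := by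
    rw [hwinv]
    show u * w = v * u * u
    rw [hw, ← mul_assoc, hu, one_mul, mul_assoc, hu, mul_one]
  have sv : SemiconjBy v w w⁻¹ := by
    rw [hwinv]
    show v * w = v * u * v
    rw [hw, mul_assoc]
  have su' : u * w ^ m = w ^ m * u := by
    have := su.pow_right m
    have h3 : u * w ^ m = (w⁻¹) ^ m * u := this
    rw [h3, inv_pow, hinv]
  have sv' : v * w ^ m = w ^ m * v := by
    have := sv.pow_right m
    have h3 : v * w ^ m = (w⁻¹) ^ m * v := this
    rw [h3, inv_pow, hinv]
  refine ⟨w ^ m, (-1) ^ m, ?_, ?_⟩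
  · intro 𝔐 h3 h4
    exact 𝔐.pow_mem (𝔐.mul_mem h3 h4) m
  · refine ⟨?_, hne, ?_, ?_, neg_one_pow_eq_or F m, ?_, ?_⟩
    · intro x
      have := congrArg (fun g : Aut κ F => g x) hcc
      exact this
    · intro x
      have := congrArg (fun g : Aut κ F => g x) su'
      exact this.symm
    · intro x
      have := congrArg (fun g : Aut κ F => g x) sv'
      exact this.symm
    · intro x hx
      exact Aut_pow_neg hx m
    · intro x h3 h4
      apply Aut_pow_fix
      change u (v x) = x
      rw [h4, h3]

/-- A signed permutation of an orthonormal frame. -/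
structure Sgn (c : Aut κ F) (b : κ → κ → F) (τ : κ → κ) (s : κ → F) : Prop where
  act : ∀ l, c (b l) = s l • b (τ l)
  inv : ∀ l, τ (τ l) = l
  sq : ∀ l, s l = 1 ∨ s l = -1
  eq : ∀ l, s (τ l) = s l

theorem exists_sgn (h2 : (2 : F) ≠ 0) {c : Aut κ F} {b : κ → κ → F} (horn : Orn b) (hcc : ∀ x, c (c x) = x) (horth : ∀ x y, dt (c x) (c y) = dt x y)
    (hb : ∀ l, ∃ l', ∃ s : F, c (b l) = s • b l') : ∃ τ s, Sgn c b τ s := by
  choose τ s hs using hb
  have hsq : ∀ l, s l = 1 ∨ s l = -1 := by
    intro l
    have h1 := horth (b l) (b l)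
    rw [hs, dt_smul_left, dt_smul_right, horn, horn, if_pos rfl, if_pos rfl] at h1
    have h3 : (s l - 1) * (s l + 1) = 0 := by linear_combination h1
    rcases mul_eq_zero.1 h3 with h4 | h4
    · left
      linear_combination h4
    · right
      linear_combination h4
  have hne : ∀ l, s l ≠ 0 := by
    intro l h0
    rcases hsq l with h | h <;> rw [h0] at h
    · exact zero_ne_one h
    · have : (1 : F) = 0 := by linear_combination h
      exact one_ne_zero this
  have key : ∀ l, s l * s (τ l) * dt (b (τ (τ l))) (b l) = 1 := by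
    intro l
    have h1 : c (c (b l)) = (s l * s (τ l)) • b (τ (τ l)) := by
      rw [hs, map_smul, hs, smul_smul]
    rw [hcc] at h1
    have h3 : dt (b l) (b l) = dt ((s l * s (τ l)) • b (τ (τ l))) (b l) := by
      rw [← h1]
    rw [horn, if_pos rfl, dt_smul_left] at h3
    exact h3.symm
  have hinv : ∀ l, τ (τ l) = l := by
    intro l
    by_contra hcon
    have := key l
    rw [horn, if_neg hcon, mul_zero] at this
    exact zero_ne_one this
  refine ⟨τ, s, ⟨hs, hinv, hsq, ?_⟩⟩
  intro l
  have := key l
  rw [hinv, horn, if_pos rfl, mul_one] at this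
  rcases hsq l with h | h <;> rcases hsq (τ l) with h' | h' <;> rw [h, h'] at this ⊢
  · have h7 : (2 : F) = 0 := by linear_combination -this
    exact absurd h7 h2
  · have h7 : (2 : F) = 0 := by linear_combination -this
    exact absurd h7 h2

/-- **Few moved frame vectors.** -/
theorem moved_le (h2 : (2 : F) ≠ 0) {c : Aut κ F} {b : κ → κ → F} {τ : κ → κ} {s : κ → F} (hS : Sgn c b τ s) (horn : Orn b) (hcc : ∀ x, c (c x) = x)
    {S : Finset κ} (hSτ : ∀ l ∈ S, τ l ∈ S) (PP : Submodule F (κ → F)) (hPP : ∀ l ∈ S, b l - c (b l) ∈ PP)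
    {X : Finset κ} {w : κ → κ → F} (hL : ∀ y ∈ PP, c y = -y → (∀ x ∈ X, dt y (w x) = 0) → y = 0)
    (T : Finset κ) (hT : ∀ l ∈ T, l ∈ S ∧ c (b l) ≠ b l) : T.card ≤ 2 * X.card := by
  classical
  obtain ⟨ρ, hρ⟩ : ∃ ρ : κ → ℕ, Function.Injective ρ :=
    ⟨fun l => (Fintype.equivFin κ l).val, fun a b h => (Fintype.equivFin κ).injective (Fin.ext h)⟩
  set Mv := S.filter (fun l => c (b l) ≠ b l) with hMv
  set Rep := Mv.filter (fun l => ρ l ≤ ρ (τ l)) with hRep
  have hτinj : Function.Injective τ := by
    intro x y h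
    have := congrArg τ h
    rwa [hS.inv, hS.inv] at this
  have hsub : Mv ⊆ Rep ∪ Rep.image τ := by
    intro l hl
    by_cases hle : ρ l ≤ ρ (τ l)
    · exact Finset.mem_union_left _ (Finset.mem_filter.2 ⟨hl, hle⟩)
    · apply Finset.mem_union_right
      rw [Finset.mem_image]
      refine ⟨τ l, ?_, hS.inv l⟩
      rw [hRep, Finset.mem_filter, hMv, Finset.mem_filter]
      have hl' := Finset.mem_filter.1 hl
      refine ⟨⟨hSτ _ hl'.1, ?_⟩, ?_⟩
      · intro hfix
        apply hl'.2
        have h3 : c (b l) = s l • b (τ l) := hS.act l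
        have h4 := hcc (b l)
        rw [h3, map_smul, hfix] at h4
        rw [h3]
        exact h4
      · rw [hS.inv]
        omega
  have hcard : Mv.card ≤ 2 * Rep.card := by
    calc Mv.card ≤ (Rep ∪ Rep.image τ).card := Finset.card_le_card hsub
      _ ≤ Rep.card + (Rep.image τ).card := Finset.card_union_le _ _
      _ ≤ Rep.card + Rep.card := by
          have := Finset.card_image_le (s := Rep) (f := τ)
          omega
      _ = 2 * Rep.card := by ring
  -- orthogonality of the differences
  set y : κ → κ → F := fun l => b l - c (b l) with hy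
  have hyc : ∀ l, c (y l) = - y l := by
    intro l
    simp only [hy, map_sub, hcc, neg_sub]
  have hys : ∀ l, y l = b l - s l • b (τ l) := by
    intro l
    simp only [hy, hS.act]
  have hnorm : ∀ l ∈ Rep, dt (y l) (y l) ≠ 0 := by
    intro l hl
    have hl' : c (b l) ≠ b l := (Finset.mem_filter.1 (Finset.mem_filter.1 hl).1).2
    rw [hys, dt_sub_left, dt_sub_right, dt_sub_right, dt_smul_left, dt_smul_right, dt_smul_right, dt_smul_left, horn, horn, horn, horn,
      if_pos rfl, if_pos rfl]
    have hsq : s l * s l = 1 := by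
      rcases hS.sq l with h | h <;> rw [h] <;> ring
    by_cases ht : τ l = l
    · rw [if_pos ht.symm, if_pos ht]
      have hs : s l = -1 := by
        rcases hS.sq l with h | h
        · exfalso
          apply hl'
          rw [hS.act, h, ht, one_smul]
        · exact h
      rw [hs]
      have : (1 : F) - -1 * 1 - (-1 * 1 - -1 * (-1 * 1)) = 2 * 2 := by ring
      rw [this]
      exact mul_ne_zero h2 h2
    · rw [if_neg (Ne.symm ht), if_neg ht]
      have : (1 : F) - s l * 0 - (s l * 0 - s l * (s l * 1)) = 1 + s l * s l := by ring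
      rw [this, hsq]
      have : (1 + 1 : F) = 2 := by ring
      rw [this]
      exact h2
  have horth : ∀ l ∈ Rep, ∀ l' ∈ Rep, l ≠ l' → dt (y l) (y l') = 0 := by
    intro l hl l' hl' hne
    have h1 : ρ l ≤ ρ (τ l) := (Finset.mem_filter.1 hl).2
    have h3 : ρ l' ≤ ρ (τ l') := (Finset.mem_filter.1 hl').2
    have n1 : l ≠ τ l' := by
      intro e
      apply hne
      apply hρ
      have e2 : τ l = l' := by rw [e, hS.inv]
      rw [e2] at h1
      rw [← e] at h3
      omega
    have n2 : τ l ≠ l' := by
      intro e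
      apply n1
      rw [← e, hS.inv]
    have n3 : τ l ≠ τ l' := fun e => hne (hτinj e)
    rw [hys, hys, dt_sub_left, dt_sub_right, dt_sub_right, dt_smul_left, dt_smul_right, dt_smul_right, dt_smul_left, horn, horn, horn, horn,
      if_neg hne, if_neg n1, if_neg n2, if_neg n3]
    ring
  -- linear independence
  have hli : LinearIndependent F (fun l : ↥Rep => (fun x : ↥X => dt (y l) (w x))) := by
    rw [Fintype.linearIndependent_iff]
    intro lam hlam l
    set Y : κ → F := ∑ l : ↥Rep, lam l • y l with hY
    have hYP : Y ∈ PP := by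
      apply Submodule.sum_mem
      intro l _
      apply Submodule.smul_mem
      apply hPP
      exact (Finset.mem_filter.1 (Finset.mem_filter.1 l.2).1).1
    have hYc : c Y = -Y := by
      rw [hY, map_sum, ← Finset.sum_neg_distrib]
      apply Finset.sum_congr rfl
      intro l _
      rw [map_smul, hyc, smul_neg]
    have hYw : ∀ x ∈ X, dt Y (w x) = 0 := by
      intro x hx
      have := congrFun hlam ⟨x, hx⟩
      simp only [Finset.sum_apply, Pi.smul_apply, smul_eq_mul, Pi.zero_apply] at this
      rw [dt_comm, hY, dt_sum_right]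
      rw [← this]
      apply Finset.sum_congr rfl
      intro l _
      rw [dt_smul_right, dt_comm]
    have hY0 := hL Y hYP hYc hYw
    have h3 : dt (y l) Y = lam l * dt (y l) (y l) := by
      rw [hY, dt_sum_right, Finset.sum_eq_single l]
      · rw [dt_smul_right]
      · intro l' _ hl'
        rw [dt_smul_right, horth _ l.2 _ l'.2 (fun e => hl' (Subtype.ext e.symm)), mul_zero]
      · simp
    rw [hY0, dt_zero_right] at h3
    exact (mul_eq_zero.1 h3.symm).resolve_right (hnorm _ l.2)
  have hle := hli.fintype_card_le_finrank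
  rw [Module.finrank_fintype_fun_eq_card] at hle
  simp only [Fintype.card_coe] at hle
  have hTM : T ⊆ Mv := by
    intro l hl
    exact Finset.mem_filter.2 (hT l hl)
  have := Finset.card_le_card hTM
  omega

end Cfsg.Agent.Lib.Classical.Frame.Even
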