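/-
The local analysis of the central involution attached to a sign change in the standard frame and a sign change of four
vectors in another frame.
-/
import Mathlib
import Cfsg.Agent.Lib.Classical.Frame.Even2

set_option autoImplicit false
set_option linter.unusedSectionVars false
set_option linter.unusedSimpArgs false
set_option linter.unusedVariables false

namespace Cfsg.Agent.Lib.Classical.Frame.Even

open Finset

variable {κ : Type} [Fintype κ] [DecidableEq κ] {F : Type*} [Field F] [Fintype F]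

/-- The image frame. -/
abbrev fr (g : Aut κ F) (l : κ) : κ → F := g (ee l)

/-- Fixed vectors as a subspace. -/
def fixSub (v : Aut κ F) : Submodule F (κ → F) where
  carrier := {y | v y = y}
  add_mem' := by
    intro x y hx hy
    simp only [Set.mem_setOf_eq] at hx hy ⊢
    rw [map_add, hx, hy]
  zero_mem' := by
    simp
  smul_mem' := by
    intro a x hx
    simp only [Set.mem_setOf_eq] at hx ⊢
    rw [map_smul, hx]

lemma mem_fixSub {v : Aut κ F} {y : κ → F} : y ∈ fixSub v ↔ v y = y := Iff.rfl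

variable {𝔐 : Subgroup (Aut κ F)}

/-- Rows of the frame. -/
theorem PH.row_zero (hP : PH 𝔐) (h2 : (2 : F) ≠ 0) {g : Aut κ F} (hg : g ∈ 𝔐) (hng : ¬ Mon g) [Nonempty κ] (i : κ) (C : Finset κ)
    (hC : ∀ l ∈ C, fr g l i = 0) : C.card ≤ 4 := by
  apply zeros_le hP h2 (𝔐.inv_mem hg) (hP.not_mon_inv hg hng) i C
  intro l hl
  have h3 := hP.orth g hg (g⁻¹ (ee i)) (ee l)
  rw [Aut_apply_inv, dt_ee_left, dt_ee_right] at h3
  rw [← h3]
  exact hC l hl

/-- Commuting with a small sign change forces monomial. -/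
theorem PH.mon_of_comm (hP : PH 𝔐) (h2 : (2 : F) ≠ 0) (hn : 9 ≤ Fintype.card κ) {m : Aut κ F} (hm : m ∈ 𝔐) {I : Finset κ} (hI : I.Nonempty) (hI4 : I.card ≤ 4)
    (hcomm : ∀ x, m (flp I x) = flp I (m x)) : Mon m := by
  by_contra hng
  haveI : Nonempty κ := Fintype.card_pos_iff.1 (by omega)
  obtain ⟨i, hi⟩ := hI
  have hz := hP.row_zero h2 hm hng i Iᶜ (by
    intro l hl
    have hl' : l ∉ I := by simpa using hl
    have h1 : flp I (ee l : κ → F) = ee l := by
      apply flp_fix
      intro c hc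
      rw [ee_apply, if_neg (by rintro rfl; exact hl' hc)]
    have h3 := hcomm (ee l)
    rw [h1] at h3
    have h4 := congrFun h3 i
    rw [flp_apply, if_pos hi] at h4
    have h5 : 2 * m (ee l) i = 0 := by linear_combination h4
    exact (mul_eq_zero.1 h5).resolve_left h2)
  rw [Finset.card_compl] at hz
  omega

lemma PH.fr_dt (hP : PH 𝔐) {g : Aut κ F} (hg : g ∈ 𝔐) (l l' : κ) : dt (fr g l) (fr g l') = if l = l' then 1 else 0 := hP.orn hg l l'

lemma PH.fr_ne_zero (hP : PH 𝔐) {g : Aut κ F} (hg : g ∈ 𝔐) (l : κ) : fr g l ≠ 0 := by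
  intro h
  have h5 := hP.fr_dt hg l l
  rw [h, dt_zero_left, if_pos rfl] at h5
  exact zero_ne_one h5

lemma PH.dt_inv (hP : PH 𝔐) {g : Aut κ F} (hg : g ∈ 𝔐) (x : κ → F) (j : κ) : g⁻¹ x j = dt x (fr g j) := by
  have h3 := hP.orth g hg (g⁻¹ x) (ee j)
  rw [Aut_apply_inv, dt_ee_right] at h3
  exact h3.symm

/-- The sign change in the image frame. -/
noncomputable def vv (g : Aut κ F) (J : Finset κ) : Aut κ F := g * flp J * g⁻¹

lemma vv_apply (g : Aut κ F) (J : Finset κ) (x : κ → F) : vv g J x = g (flp J (g⁻¹ x)) := rfl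

lemma vv_sq (g : Aut κ F) (J : Finset κ) : vv g J * vv g J = 1 := by
  unfold vv
  calc g * flp J * g⁻¹ * (g * flp J * g⁻¹) = g * (flp J * flp J) * g⁻¹ := by group
    _ = 1 := by rw [flp_mul_self, mul_one, mul_inv_cancel]

lemma PH.vfix (hP : PH 𝔐) {g : Aut κ F} (hg : g ∈ 𝔐) {J : Finset κ} {x : κ → F} (h : ∀ j ∈ J, dt x (fr g j) = 0) : vv g J x = x := by
  have h1 : flp J (g⁻¹ x) = g⁻¹ x := by
    apply flp_fix
    intro c hc
    rw [hP.dt_inv hg]
    exact h c hc
  rw [vv_apply, h1, Aut_apply_inv]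

lemma vneg (g : Aut κ F) {J : Finset κ} {j : κ} (h : j ∈ J) : vv g J (fr g j) = - fr g j := by
  rw [vv_apply, fr, Aut_inv_apply, ← map_neg]
  apply congrArg g
  ext c
  rw [flp_apply, Pi.neg_apply]
  by_cases hc : c ∈ J
  · rw [if_pos hc]
  · rw [if_neg hc, ee_apply, if_neg (by rintro rfl; exact hc h)]
    simp

lemma PH.vpos (hP : PH 𝔐) {g : Aut κ F} (hg : g ∈ 𝔐) {J : Finset κ} {l : κ} (h : l ∉ J) : vv g J (fr g l) = fr g l := by
  apply hP.vfix hg
  intro j hj
  rw [hP.fr_dt hg l j, if_neg (by rintro rfl; exact h hj)]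

lemma uneg_left (a b : κ) : flp {a, b} (ee a : κ → F) = - ee a := by
  ext c
  rw [flp_apply, Pi.neg_apply]
  by_cases hc : c ∈ ({a, b} : Finset κ)
  · rw [if_pos hc]
  · rw [if_neg hc, ee_apply, if_neg (by rintro rfl; simp at hc)]
    simp

lemma uneg_right (a b : κ) : flp {a, b} (ee b : κ → F) = - ee b := by
  ext c
  rw [flp_apply, Pi.neg_apply]
  by_cases hc : c ∈ ({a, b} : Finset κ)
  · rw [if_pos hc]
  · rw [if_neg hc, ee_apply, if_neg (by rintro rfl; simp at hc)]
    simp

lemma ufix {a b : κ} {x : κ → F} (h1 : x a = 0) (h3 : x b = 0) : flp {a, b} x = x := by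
  apply flp_fix
  intro c hc
  simp only [Finset.mem_insert, Finset.mem_singleton] at hc
  rcases hc with rfl | rfl
  · exact h1
  · exact h3

lemma upos {a b i : κ} (h1 : i ≠ a) (h3 : i ≠ b) : flp {a, b} (ee i : κ → F) = ee i := by
  apply ufix
  · rw [ee_apply, if_neg h1.symm]
  · rw [ee_apply, if_neg h3.symm]

/-- The local configuration. -/
structure Loc (𝔐 : Subgroup (Aut κ F)) (g : Aut κ F) (a b : κ) (J : Finset κ) (c : Aut κ F) (μ : F) (τ : κ → κ) (s : κ → F) (σ : κ → κ) (r : κ → F) : Prop where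
  mem : c ∈ 𝔐
  cfg : Cfg (flp {a, b}) (vv g J) c μ
  sf : Sgn c (fr g) τ s
  se : Sgn c ee σ r

/-- Existence of the configuration. -/
theorem PH.exists_loc (hP : PH 𝔐) (h2 : (2 : F) ≠ 0) (hn : 9 ≤ Fintype.card κ) {g : Aut κ F} (hg : g ∈ 𝔐) {a b : κ} (hab : a ≠ b) {J : Finset κ} (hJ : J.card = 4)
    {q : κ → F} (hq : q ≠ 0) (hq' : flp {a, b} (vv g J q) = -q) : ∃ c μ τ s σ r, Loc 𝔐 g a b J c μ τ s σ r := by
  have hvm : vv g J ∈ 𝔐 := 𝔐.mul_mem (𝔐.mul_mem hg (hP.flp_mem4 hJ)) (𝔐.inv_mem hg)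
  obtain ⟨c, μ, hmem, hcfg⟩ := exists_cfg h2 (flp_mul_self {a, b}) (vv_sq g J) hq hq'
  have hc : c ∈ 𝔐 := hmem 𝔐 (hP.flip a b hab) hvm
  have hJne : J.Nonempty := by
    rw [← Finset.card_pos]
    omega
  have hm1 : Mon c := hP.mon_of_comm h2 hn hc (I := {a, b}) (by simp) (by rw [Finset.card_pair hab]; omega) hcfg.cu
  have hcg : g⁻¹ * c * g ∈ 𝔐 := 𝔐.mul_mem (𝔐.mul_mem (𝔐.inv_mem hg) hc) hg
  have hm2 : Mon (g⁻¹ * c * g) := hP.mon_of_comm h2 hn hcg hJne (by omega) (by
    intro x
    have h1 := hcfg.cv (g x)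
    rw [vv_apply, vv_apply, Aut_inv_apply] at h1
    change g⁻¹ (c (g (flp J x))) = flp J (g⁻¹ (c (g x)))
    rw [h1, Aut_inv_apply])
  have he := exists_sgn h2 (orn_ee (κ := κ) (F := F)) hcfg.cc (hP.orth c hc) hm1
  have hf := exists_sgn h2 (hP.orn hg) hcfg.cc (hP.orth c hc) (by
    intro l
    obtain ⟨l', s, hs⟩ := hm2 l
    refine ⟨l', s, ?_⟩
    have h5 : g⁻¹ (c (g (ee l))) = s • ee l' := hs
    have h6 := congrArg g h5
    rw [Aut_apply_inv, map_smul] at h6
    exact h6)
  obtain ⟨σ, r, hse⟩ := he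
  obtain ⟨τ, s, hsf⟩ := hf
  exact ⟨c, μ, τ, s, σ, r, hc, hcfg, hsf, hse⟩

section loc

variable {g : Aut κ F} {a b : κ} {J : Finset κ} {c : Aut κ F} {μ : F} {τ : κ → κ} {s : κ → F} {σ : κ → κ} {r : κ → F}

lemma Loc.orth (hP : PH 𝔐) (L : Loc 𝔐 g a b J c μ τ s σ r) (x y : κ → F) : dt (c x) (c y) = dt x y := hP.orth c L.mem x y

lemma zero_of_self_neg (h2 : (2 : F) ≠ 0) {y : κ → F} (h : y = -y) : y = 0 := by
  ext i
  have := congrFun h i
  simp only [Pi.neg_apply] at this
  have h3 : 2 * y i = 0 := by linear_combination this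
  exact (mul_eq_zero.1 h3).resolve_left h2

/-- Vectors fixed by both involutions and negated by `c` vanish. -/
lemma Loc.zero_of (h2 : (2 : F) ≠ 0) (L : Loc 𝔐 g a b J c μ τ s σ r) {y : κ → F} (h1 : c y = -y) (h3 : flp {a, b} y = y) (h4 : vv g J y = y) : y = 0 := by
  have := L.cfg.fix y h3 h4
  rw [h1] at this
  exact zero_of_self_neg h2 this.symm

lemma eig_orth (h2 : (2 : F) ≠ 0) {c : Aut κ F} (ho : ∀ x y, dt (c x) (c y) = dt x y) {y z : κ → F} (h1 : c y = -y) (h3 : c z = z) : dt y z = 0 := by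
  have := ho y z
  rw [h1, h3, dt_neg_left] at this
  have h5 : 2 * dt y z = 0 := by linear_combination -this
  exact (mul_eq_zero.1 h5).resolve_left h2

/-- `τ` preserves `J`. -/
lemma Loc.tau_mem (hP : PH 𝔐) (h2 : (2 : F) ≠ 0) (hg : g ∈ 𝔐) (L : Loc 𝔐 g a b J c μ τ s σ r) {j : κ} (hj : j ∈ J) : τ j ∈ J := by
  by_contra hcon
  have h1 := L.cfg.cv (fr g j)
  rw [vneg g hj, map_neg, L.sf.act, map_smul, hP.vpos hg hcon] at h1
  have hs0 : s j ≠ 0 := by
    rcases L.sf.sq j with h | h <;> rw [h]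
    · exact one_ne_zero
    · exact neg_ne_zero.2 one_ne_zero
  have h3 : fr g (τ j) = - fr g (τ j) := by
    apply smul_right_injective _ hs0
    simp only [smul_neg]
    exact h1.symm ▸ (by simp)
  exact hP.fr_ne_zero hg _ (zero_of_self_neg h2 h3)

lemma Loc.tau_not_mem (hP : PH 𝔐) (h2 : (2 : F) ≠ 0) (hg : g ∈ 𝔐) (L : Loc 𝔐 g a b J c μ τ s σ r) {l : κ} (hl : l ∉ J) : τ l ∉ J := by
  intro h
  have := L.tau_mem hP h2 hg h
  rw [L.sf.inv] at this
  exact hl this

lemma Loc.sigma_mem (hP : PH 𝔐) (h2 : (2 : F) ≠ 0) (L : Loc 𝔐 g a b J c μ τ s σ r) {x : κ} (hx : x = a ∨ x = b) : σ x = a ∨ σ x = b := by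
  by_contra hcon
  push Not at hcon
  have h1 := L.cfg.cu (ee x)
  have hux : flp {a, b} (ee x : κ → F) = - ee x := by
    rcases hx with rfl | rfl
    · exact uneg_left _ _
    · exact uneg_right _ _
  rw [hux, map_neg, L.se.act, map_smul, upos hcon.1 hcon.2] at h1
  have hs0 : r x ≠ 0 := by
    rcases L.se.sq x with h | h <;> rw [h]
    · exact one_ne_zero
    · exact neg_ne_zero.2 one_ne_zero
  have h3 : (ee (σ x) : κ → F) = - ee (σ x) := by
    apply smul_right_injective _ hs0
    simp only [smul_neg]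
    exact h1.symm ▸ (by simp)
  exact ee_ne_zero _ (zero_of_self_neg h2 h3)

lemma Loc.sigma_not_mem (hP : PH 𝔐) (h2 : (2 : F) ≠ 0) (L : Loc 𝔐 g a b J c μ τ s σ r) {i : κ} (h1 : i ≠ a) (h3 : i ≠ b) : σ i ≠ a ∧ σ i ≠ b := by
  constructor
  · intro h
    have := L.sigma_mem hP h2 (x := σ i) (Or.inl h)
    rw [L.se.inv] at this
    rcases this with h4 | h4
    · exact h1 h4
    · exact h3 h4
  · intro h
    have := L.sigma_mem hP h2 (x := σ i) (Or.inr h)
    rw [L.se.inv] at this
    rcases this with h4 | h4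
    · exact h1 h4
    · exact h3 h4

/-- **No coordinate vector is negated.** -/
theorem Loc.no_neg_row (hP : PH 𝔐) (h2 : (2 : F) ≠ 0) (hn : 14 ≤ Fintype.card κ) (hg : g ∈ 𝔐) (hng : ¬ Mon g) (L : Loc 𝔐 g a b J c μ τ s σ r) (hJ : J.card = 4)
    (i : κ) : c (ee i) ≠ - ee i := by
  intro hi
  classical
  haveI : Nonempty κ := Fintype.card_pos_iff.1 (by omega)
  set T := Jᶜ.filter (fun l => c (fr g l) ≠ fr g l) with hT
  have hTc : T.card ≤ 2 * ({a, b} : Finset κ).card := by
    refine moved_le h2 L.sf (hP.orn hg) L.cfg.cc (S := Jᶜ) ?_ (fixSub (vv g J)) ?_ (w := ee) ?_ T ?_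
    · intro l hl
      have hl' : l ∉ J := by simpa using hl
      simpa using L.tau_not_mem hP h2 hg hl'
    · intro l hl
      have hl' : l ∉ J := by simpa using hl
      rw [mem_fixSub, map_sub, ← L.cfg.cv, hP.vpos hg hl']
    · intro y hy hcy hx
      apply L.zero_of h2 hcy _ hy
      apply ufix
      · have := hx a (by simp)
        rwa [dt_ee_right] at this
      · have := hx b (by simp)
        rwa [dt_ee_right] at this
    · intro l hl
      rw [hT, Finset.mem_filter] at hl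
      exact hl
  have hab2 : ({a, b} : Finset κ).card ≤ 2 := Finset.card_le_two
  have hz := hP.row_zero h2 hg hng i (J ∪ T)ᶜ (by
    intro l hl
    have hl' : l ∉ J ∧ l ∉ T := by simpa using hl
    have hfix : c (fr g l) = fr g l := by
      by_contra hcon
      exact hl'.2 (Finset.mem_filter.2 ⟨by simpa using hl'.1, hcon⟩)
    have := eig_orth h2 (hP.orth c L.mem) hi hfix
    rwa [dt_ee_left] at this)
  rw [Finset.card_compl] at hz
  have h5 := Finset.card_union_le J T
  omega

/-- The action on the two chosen coordinates. -/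
theorem Loc.ua_cases (hP : PH 𝔐) (h2 : (2 : F) ≠ 0) (hn : 14 ≤ Fintype.card κ) (hg : g ∈ 𝔐) (hng : ¬ Mon g) (L : Loc 𝔐 g a b J c μ τ s σ r) (hJ : J.card = 4) (hab : a ≠ b) :
    (c (ee a) = ee a ∧ c (ee b) = ee b) ∨ ∃ ε : F, (ε = 1 ∨ ε = -1) ∧ c (ee a) = ε • ee b ∧ c (ee b) = ε • ee a := by
  have hfix : ∀ x, σ x = x → c (ee x) = ee x := by
    intro x hx
    have h1 := L.se.act x
    rw [hx] at h1
    rcases L.se.sq x with h | h
    · rw [h1, h, one_smul]
    · exfalso
      apply L.no_neg_row hP h2 hn hg hng hJ x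
      rw [h1, h]
      simp
  have hσinj : ∀ x y, σ x = σ y → x = y := by
    intro x y h
    have := congrArg σ h
    rwa [L.se.inv, L.se.inv] at this
  rcases L.sigma_mem hP h2 (x := a) (Or.inl rfl) with h | h
  · left
    refine ⟨hfix a h, hfix b ?_⟩
    rcases L.sigma_mem hP h2 (x := b) (Or.inr rfl) with h' | h'
    · exact absurd (hσinj _ _ (h'.trans h.symm)).symm hab
    · exact h'
  · right
    have hb : σ b = a := by
      rw [← h, L.se.inv]
    refine ⟨r a, L.se.sq a, ?_, ?_⟩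
    · rw [L.se.act, h]
    · rw [L.se.act, hb, ← h, L.se.eq]

/-- Three columns: a frame vector is an eigenvector. -/
lemma three_col {c : Aut κ F} {b : κ → κ → F} {τ : κ → κ} {s : κ → F} {μ : F} (hμ : μ ≠ 0) (S : Sgn c b τ s) (horn : Orn b) {x y z : κ} (hxy : x ≠ y) (hyz : y ≠ z)
    {α β γ η : F} (hα : α ≠ 0) (hγ : γ ≠ 0) (h1 : c (α • b x - β • b y) = μ • (α • b x - β • b y)) (h3 : c (γ • b x - η • b z) = μ • (γ • b x - η • b z))
    (hxz : x ≠ z) : τ x = x ∧ s x = μ := by
  have key : ∀ {p : κ} {α' β' : F}, x ≠ p → α' ≠ 0 → c (α' • b x - β' • b p) = μ • (α' • b x - β' • b p) →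
      α' * s x * dt (b (τ x)) (b x) - β' * s p * dt (b (τ p)) (b x) = μ * α' := by
    intro p α' β' hp ha h
    have e1 := congrArg (fun w => dt w (b x)) h
    simp only [map_sub, map_smul, S.act, smul_sub, smul_smul, dt_sub_left, dt_smul_left] at e1
    rw [horn x x, horn p x, if_pos rfl, if_neg (Ne.symm hp)] at e1
    linear_combination e1
  have k1 := key hxy hα h1
  have k3 := key hxz hγ h3
  by_cases ht : τ x = x
  · refine ⟨ht, ?_⟩
    have hn : τ y ≠ x := by
      intro e
      apply hxy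
      rw [← S.inv y, e, ht]
    rw [ht, horn x x, horn (τ y) x, if_pos rfl, if_neg hn] at k1
    apply mul_left_cancel₀ hα
    linear_combination k1
  · exfalso
    rw [horn (τ x) x, if_neg ht] at k1 k3
    have n1 : τ y = x := by
      by_contra hcon
      rw [horn (τ y) x, if_neg hcon] at k1
      have : μ * α = 0 := by linear_combination -k1
      exact mul_ne_zero hμ hα this
    have n3 : τ z = x := by
      by_contra hcon
      rw [horn (τ z) x, if_neg hcon] at k3
      have : μ * γ = 0 := by linear_combination -k3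
      exact mul_ne_zero hμ hγ this
    apply hyz
    rw [← S.inv y, ← S.inv z, n1, n3]

end loc

/-- Two rows cannot agree up to sign in four columns with nonzero entries. -/
theorem no_twin (hP : PH 𝔐) (h2 : (2 : F) ≠ 0) (hn : 14 ≤ Fintype.card κ) {g : Aut κ F} (hg : g ∈ 𝔐) (hng : ¬ Mon g) {a b : κ} (hab : a ≠ b) {ε : F} (hε : ε = 1 ∨ ε = -1)
    {J : Finset κ} (hJ : J.card = 4) (h : ∀ j ∈ J, fr g j a = ε * fr g j b ∧ fr g j a ≠ 0) : False := by
  classical
  set p : κ → F := ee a - ε • ee b with hp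
  have hp0 : p ≠ 0 := by
    intro h0
    have := congrFun h0 a
    simp [hp, ee_apply, hab] at this
  have hvp : vv g J p = p := by
    apply hP.vfix hg
    intro j hj
    rw [hp, dt_sub_left, dt_smul_left, dt_ee_left, dt_ee_left, (h j hj).1]
    ring
  have hup : flp {a, b} p = -p := by
    rw [hp, map_sub, map_smul, uneg_left, uneg_right]
    simp only [smul_neg]
    abel
  obtain ⟨c, μ, τ, s, σ, r, L⟩ := hP.exists_loc h2 (by omega) hg hab hJ hp0 (by rw [hvp, hup])
  have hcp : c p = μ • p := L.cfg.eig p (by rw [hvp, hup])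
  have hμ0 : μ ≠ 0 := by
    rcases L.cfg.hμ with h3 | h3 <;> rw [h3]
    · exact one_ne_zero
    · exact neg_ne_zero.2 one_ne_zero
  have hpair : ∀ j ∈ J, ∀ j' ∈ J, c (fr g j' a • fr g j - fr g j a • fr g j') = μ • (fr g j' a • fr g j - fr g j a • fr g j') := by
    intro j hj j' hj'
    apply L.cfg.eig
    rw [map_sub, map_smul, map_smul, vneg g hj, vneg g hj']
    have e : fr g j' a • (- fr g j) - fr g j a • (- fr g j') = -(fr g j' a • fr g j - fr g j a • fr g j') := by
      simp only [smul_neg]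
      abel
    rw [e, map_neg, ufix]
    · simp only [Pi.sub_apply, Pi.smul_apply, smul_eq_mul]
      ring
    · simp only [Pi.sub_apply, Pi.smul_apply, smul_eq_mul]
      rw [(h j hj).1, (h j' hj').1]
      ring
  have hcol : ∀ j ∈ J, τ j = j ∧ s j = μ := by
    intro j hj
    have h3 : 2 < (J.erase j).card := by
      rw [Finset.card_erase_of_mem hj]
      omega
    obtain ⟨j₁, j₂, _, h₁, h₂, _, n12, _, _⟩ := Finset.two_lt_card_iff.1 h3
    have h₁' := Finset.mem_erase.1 h₁
    have h₂' := Finset.mem_erase.1 h₂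
    exact three_col hμ0 L.sf (hP.orn hg) h₁'.1.symm n12 (h _ h₁'.2).2 (h _ h₂'.2).2 (hpair j hj j₁ h₁'.2) (hpair j hj j₂ h₂'.2) h₂'.1.symm
  obtain ⟨j₀, hj₀⟩ : J.Nonempty := by
    rw [← Finset.card_pos]
    omega
  have hb0 : fr g j₀ b ≠ 0 := by
    intro h0
    have := h j₀ hj₀
    rw [h0, mul_zero] at this
    exact this.2 this.1
  have hε2 : ε * ε = 1 := by
    rcases hε with rfl | rfl <;> ring
  rcases L.cfg.hμ with rfl | rfl
  · -- `c` fixes the columns
    have hfx : ∀ j ∈ J, c (fr g j) = fr g j := by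
      intro j hj
      have := L.sf.act j
      rw [(hcol j hj).1, (hcol j hj).2, one_smul] at this
      exact this
    rcases L.ua_cases hP h2 hn hg hng hJ hab with ⟨h3, h4⟩ | ⟨ε', hε', h3, h4⟩
    · apply L.cfg.ne
      apply LinearEquiv.ext
      intro x
      have hy : c (x - c x) = -(x - c x) := by
        rw [map_sub, L.cfg.cc]
        abel
      have := L.zero_of h2 hy (ufix (by
          have := eig_orth h2 (hP.orth c L.mem) hy h3
          rwa [dt_ee_right] at this) (by
          have := eig_orth h2 (hP.orth c L.mem) hy h4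
          rwa [dt_ee_right] at this))
        (hP.vfix hg (fun j hj => eig_orth h2 (hP.orth c L.mem) hy (hfx j hj)))
      exact (sub_eq_zero.1 this).symm
    · have hε'2 : ε' * ε' = 1 := by
        rcases hε' with rfl | rfl <;> ring
      have hyp : c (ee a - ε' • ee b) = -(ee a - ε' • ee b) := by
        rw [map_sub, map_smul, h3, h4, smul_smul, hε'2, one_smul]
        abel
      have h5 := eig_orth h2 (hP.orth c L.mem) hyp (hfx j₀ hj₀)
      rw [dt_sub_left, dt_smul_left, dt_ee_left, dt_ee_left] at h5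
      have h6 := (h j₀ hj₀).1
      have h7 : ε = ε' := by
        apply mul_right_cancel₀ hb0
        linear_combination h5 - h6
      rw [one_smul] at hcp
      have h8 : c p = -p := by
        rw [hp, h7]
        exact hyp
      exact hp0 (zero_of_self_neg h2 (hcp.symm.trans h8))
  · -- `c` negates the columns
    have hfx : ∀ j ∈ J, c (fr g j) = - fr g j := by
      intro j hj
      have := L.sf.act j
      rw [(hcol j hj).1, (hcol j hj).2, neg_one_smul] at this
      exact this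
    rw [neg_one_smul] at hcp
    rcases L.ua_cases hP h2 hn hg hng hJ hab with ⟨h3, h4⟩ | ⟨ε', hε', h3, h4⟩
    · apply hp0
      apply zero_of_self_neg h2
      rw [← hcp, hp, map_sub, map_smul, h3, h4]
    · have h5 : c p = ε' • (ee b : κ → F) - (ε * ε') • (ee a : κ → F) := by
        rw [hp, map_sub, map_smul, h3, h4, smul_smul]
      have h6 := congrFun (h5.symm.trans hcp) a
      simp only [hp, Pi.sub_apply, Pi.smul_apply, Pi.neg_apply, smul_eq_mul, ee_apply, if_true, if_neg hab, mul_zero, sub_zero, zero_sub, mul_one, neg_inj] at h6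
      have hε'ε : ε' = ε := by
        have hεε' : ε * ε' = 1 := h6
        calc ε' = (ε * ε) * ε' := by rw [hε2, one_mul]
          _ = ε * (ε * ε') := by ring
          _ = ε := by rw [hεε', mul_one]
      have h7 := hP.orth c L.mem (ee a) (fr g j₀)
      rw [h3, hfx j₀ hj₀, dt_smul_left, dt_neg_right, dt_ee_left, dt_ee_left, hε'ε] at h7
      have h8 := (h j₀ hj₀).1
      have h9 : 2 * (ε * fr g j₀ b) = 0 := by linear_combination -h7 - h8
      have h10 := (mul_eq_zero.1 h9).resolve_left h2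
      have hε0 : ε ≠ 0 := by
        intro e
        rw [e] at hε2
        simp at hε2
      exact (mul_ne_zero hε0 hb0) h10

end Cfsg.Agent.Lib.Classical.Frame.Even
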