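/-
Conclusion of the local analysis: a group of isometries of the dot product in dimension at least fourteen, containing the
sign changes and the even permutations, in which every element sending a coordinate vector to a trivial vector is monomial,
consists of monomial elements.
-/
import Mathlib
import Cfsg.Agent.Lib.Classical.Frame.Even3

set_option autoImplicit false
set_option linter.unusedSectionVars false
set_option linter.unusedSimpArgs false
set_option linter.unusedVariables false

namespace Cfsg.Agent.Lib.Classical.Frame.Even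

open Finset

variable {κ : Type} [Fintype κ] [DecidableEq κ] {F : Type*} [Field F] [Fintype F]
variable {𝔐 : Subgroup (Aut κ F)}
variable {g : Aut κ F} {a b : κ} {J : Finset κ} {c : Aut κ F} {μ : F} {τ : κ → κ} {s : κ → F} {σ : κ → κ} {r : κ → F}

/-- The sign of the central involution on the kernel is `-1`. -/
theorem Loc.mu_ne_one (hP : PH 𝔐) (h2 : (2 : F) ≠ 0) (hn : 14 ≤ Fintype.card κ) (hg : g ∈ 𝔐) (hng : ¬ Mon g) (L : Loc 𝔐 g a b J c μ τ s σ r) (hJ : J.card = 4) (hab : a ≠ b) :
    μ ≠ 1 := by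
  rintro rfl
  classical
  haveI : Nonempty κ := Fintype.card_pos_iff.1 (by omega)
  have hvv : ∀ x, vv g J (vv g J x) = x := by
    intro x
    have := congrArg (fun h : Aut κ F => h x) (vv_sq g J)
    exact this
  rcases L.ua_cases hP h2 hn hg hng hJ hab with ⟨h3, h4⟩ | ⟨ε, hε, h3, h4⟩
  · apply L.cfg.ne
    apply LinearEquiv.ext
    intro x
    have hy : c (x - c x) = -(x - c x) := by
      rw [map_sub, L.cfg.cc]
      abel
    have hort : ∀ z, c z = -z → flp {a, b} z = z := by
      intro z hz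
      apply ufix
      · have := eig_orth h2 (hP.orth c L.mem) hz h3
        rwa [dt_ee_right] at this
      · have := eig_orth h2 (hP.orth c L.mem) hz h4
        rwa [dt_ee_right] at this
    set y := x - c x with hyd
    have hy' : c (y - vv g J y) = -(y - vv g J y) := by
      rw [map_sub, L.cfg.cv, hy, map_neg]
      abel
    have hv' : vv g J (y - vv g J y) = -(y - vv g J y) := by
      rw [map_sub, hvv]
      abel
    have hc' := L.cfg.eig (y - vv g J y) (by rw [hv', map_neg, hort _ hy'])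
    rw [one_smul] at hc'
    have h0 := zero_of_self_neg h2 (hc'.symm.trans hy')
    have hvy : vv g J y = y := (sub_eq_zero.1 h0).symm
    have h5 := L.zero_of h2 hy (hort y hy) hvy
    exact (sub_eq_zero.1 h5).symm
  · set T := Jᶜ.filter (fun l => c (fr g l) ≠ fr g l) with hT
    have hε2 : ε * ε = 1 := by
      rcases hε with rfl | rfl <;> ring
    have hε0 : ε ≠ 0 := by
      intro e
      rw [e] at hε2
      simp at hε2
    have hTc : T.card ≤ 2 * ({a} : Finset κ).card := by
      refine moved_le h2 L.sf (hP.orn hg) L.cfg.cc (S := Jᶜ) ?_ (fixSub (vv g J)) ?_ (w := ee) ?_ T ?_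
      · intro l hl
        have hl' : l ∉ J := by simpa using hl
        simpa using L.tau_not_mem hP h2 hg hl'
      · intro l hl
        have hl' : l ∉ J := by simpa using hl
        rw [mem_fixSub, map_sub, ← L.cfg.cv, hP.vpos hg hl']
      · intro y hy hcy hx
        have h5 : y a = 0 := by
          have := hx a (by simp)
          rwa [dt_ee_right] at this
        have h6 := hP.orth c L.mem y (ee a)
        rw [hcy, h3, dt_neg_left, dt_smul_right, dt_ee_right, dt_ee_right, h5] at h6
        have h7 : y b = 0 := by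
          have : ε * y b = 0 := by linear_combination -h6
          exact (mul_eq_zero.1 this).resolve_left hε0
        exact L.zero_of h2 hcy (ufix h5 h7) hy
      · intro l hl
        rw [hT, Finset.mem_filter] at hl
        exact hl
    have hTc2 : T.card ≤ 2 := by simpa using hTc
    set Za := Finset.univ.filter (fun l => fr g l a = 0) with hZa
    have hZac : Za.card ≤ 4 := hP.row_zero h2 hg hng a Za (by
      intro l hl
      exact (Finset.mem_filter.1 hl).2)
    have hZc : 4 ≤ (J ∪ T ∪ Za)ᶜ.card := by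
      rw [Finset.card_compl]
      have h5 := Finset.card_union_le (J ∪ T) Za
      have h6 := Finset.card_union_le J T
      omega
    obtain ⟨J', hJ', hJ'c⟩ := Finset.exists_subset_card_eq hZc
    have hyp : c (ee a - ε • ee b) = -(ee a - ε • ee b) := by
      rw [map_sub, map_smul, h3, h4, smul_smul, hε2, one_smul]
      abel
    apply no_twin hP h2 hn hg hng hab hε hJ'c
    intro l hl
    have hl' : l ∉ J ∪ T ∪ Za := by simpa using hJ' hl
    have h5 : l ∉ J ∧ l ∉ T ∧ l ∉ Za := by
      simp only [Finset.mem_union, not_or] at hl'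
      exact ⟨hl'.1.1, hl'.1.2, hl'.2⟩
    have hfix : c (fr g l) = fr g l := by
      by_contra hcon
      exact h5.2.1 (Finset.mem_filter.2 ⟨by simpa using h5.1, hcon⟩)
    have h6 := eig_orth h2 (hP.orth c L.mem) hyp hfix
    rw [dt_sub_left, dt_smul_left, dt_ee_left, dt_ee_left] at h6
    refine ⟨by linear_combination h6, ?_⟩
    intro h0
    exact h5.2.2 (Finset.mem_filter.2 ⟨Finset.mem_univ _, h0⟩)

/-- A vector in the kernel of two rows, on three columns. -/
lemma ker3 (p₁ p₂ p₃ r₁ r₂ r₃ : F) (hp₂ : p₂ ≠ 0) :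
    ∃ ξ₁ ξ₂ ξ₃ : F, (ξ₁ ≠ 0 ∨ ξ₂ ≠ 0 ∨ ξ₃ ≠ 0) ∧ ξ₁ * p₁ + ξ₂ * p₂ + ξ₃ * p₃ = 0 ∧ ξ₁ * r₁ + ξ₂ * r₂ + ξ₃ * r₃ = 0 := by
  by_cases h : p₁ * r₂ - r₁ * p₂ = 0
  · refine ⟨p₂, -p₁, 0, Or.inl hp₂, by ring, by linear_combination -h⟩
  · refine ⟨p₂ * r₃ - r₂ * p₃, p₃ * r₁ - r₃ * p₁, p₁ * r₂ - r₁ * p₂, Or.inr (Or.inr h), by ring, by ring⟩

/-- Partners among columns. -/
def EE (g : Aut κ F) (a b x y : κ) : Prop :=
  ∃ δ : F, (δ = 1 ∨ δ = -1) ∧ fr g x a = δ * fr g y a ∧ fr g x b = δ * fr g y b

lemma vv_three (g : Aut κ F) {J : Finset κ} {x y z : κ} (hx : x ∈ J) (hy : y ∈ J) (hz : z ∈ J) (ξ₁ ξ₂ ξ₃ : F) :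
    vv g J (ξ₁ • fr g x + ξ₂ • fr g y + ξ₃ • fr g z) = -(ξ₁ • fr g x + ξ₂ • fr g y + ξ₃ • fr g z) := by
  rw [map_add, map_add, map_smul, map_smul, map_smul, vneg g hx, vneg g hy, vneg g hz]
  simp only [smul_neg]
  abel

/-- **The matching.** -/
theorem matching (hP : PH 𝔐) (h2 : (2 : F) ≠ 0) (hn : 14 ≤ Fintype.card κ) (hg : g ∈ 𝔐) (hng : ¬ Mon g) (hab : a ≠ b) (hJ : J.card = 4)
    (hnz : ∀ j ∈ J, fr g j a ≠ 0 ∧ fr g j b ≠ 0) :
    ∀ x ∈ J, ∃ y ∈ J, y ≠ x ∧ EE g a b x y ∧ ∀ y' ∈ J, y' ≠ x → EE g a b x y' → y' = y := by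
  classical
  haveI : Nonempty κ := Fintype.card_pos_iff.1 (by omega)
  -- a vector in the kernel
  obtain ⟨q, hq0, hua, hub, hvq⟩ : ∃ q : κ → F, q ≠ 0 ∧ q a = 0 ∧ q b = 0 ∧ vv g J q = -q := by
    have h3 : 2 < J.card := by omega
    obtain ⟨j₁, j₂, j₃, h₁, h₂, h₃, n12, n13, n23⟩ := Finset.two_lt_card_iff.1 h3
    obtain ⟨ξ₁, ξ₂, ξ₃, hξ, e1, e2⟩ := ker3 (fr g j₁ a) (fr g j₂ a) (fr g j₃ a) (fr g j₁ b) (fr g j₂ b) (fr g j₃ b) (hnz j₂ h₂).1
    refine ⟨ξ₁ • fr g j₁ + ξ₂ • fr g j₂ + ξ₃ • fr g j₃, ?_, ?_, ?_, vv_three g h₁ h₂ h₃ _ _ _⟩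
    · intro h0
      have d1 := congrArg (fun w => dt w (fr g j₁)) h0
      have d2 := congrArg (fun w => dt w (fr g j₂)) h0
      have d3 := congrArg (fun w => dt w (fr g j₃)) h0
      simp only [dt_add_left, dt_smul_left, hP.fr_dt hg, dt_zero_left, if_true, if_neg n12, if_neg n13, if_neg n23, if_neg n12.symm, if_neg n13.symm, if_neg n23.symm, mul_zero, add_zero, zero_add, mul_one] at d1 d2 d3
      rcases hξ with h | h | h
      · exact h d1
      · exact h d2
      · exact h d3
    · simp only [Pi.add_apply, Pi.smul_apply, smul_eq_mul]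
      exact e1
    · simp only [Pi.add_apply, Pi.smul_apply, smul_eq_mul]
      exact e2
  obtain ⟨c, μ, τ, s, σ, r, L⟩ := hP.exists_loc h2 (by omega) hg hab hJ hq0 (by rw [hvq, map_neg, ufix hua hub])
  have hμ : μ = -1 := (L.cfg.hμ).resolve_left (L.mu_ne_one hP h2 hn hg hng hJ hab)
  subst hμ
  have hD : ∀ y : κ → F, y a = 0 → y b = 0 → vv g J y = -y → c y = -y := by
    intro y h1 h3 h4
    have := L.cfg.eig y (by rw [h4, map_neg, ufix h1 h3])
    rwa [neg_one_smul] at this
  have ho := hP.orth c L.mem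
  have horn := hP.fr_dt hg
  have hs0 : ∀ l, s l ≠ 0 := by
    intro l
    rcases L.sf.sq l with h | h <;> rw [h]
    · exact one_ne_zero
    · exact neg_ne_zero.2 one_ne_zero
  have hssq : ∀ l, s l * s l = 1 := by
    intro l
    rcases L.sf.sq l with h | h <;> rw [h] <;> ring
  -- not all of `J` is negated
  have hN1 : ∃ j₀ ∈ J, c (fr g j₀) ≠ - fr g j₀ := by
    by_contra hall
    push Not at hall
    obtain ⟨j, hj⟩ : J.Nonempty := by
      rw [← Finset.card_pos]
      omega
    rcases L.ua_cases hP h2 hn hg hng hJ hab with ⟨h3, h4⟩ | ⟨ε, hε, h3, h4⟩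
    · have := eig_orth h2 ho (hall j hj) h3
      rw [dt_ee_right] at this
      exact (hnz j hj).1 this
    · have hε2 : ε * ε = 1 := by
        rcases hε with rfl | rfl <;> ring
      set p : κ → F := ee a + ε • ee b with hp
      have hvp : vv g J p = p := by
        apply hP.vfix hg
        intro j hj
        have h5 := ho (ee a) (fr g j)
        rw [h3, hall j hj, dt_smul_left, dt_neg_right, dt_ee_left, dt_ee_left] at h5
        rw [hp, dt_add_left, dt_smul_left, dt_ee_left, dt_ee_left]
        linear_combination -h5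
      have hup : flp {a, b} p = -p := by
        rw [hp, map_add, map_smul, uneg_left, uneg_right]
        simp only [smul_neg]
        abel
      have hc1 := L.cfg.eig p (by rw [hvp, hup])
      rw [neg_one_smul] at hc1
      have hc2 : c p = p := by
        rw [hp, map_add, map_smul, h3, h4, smul_smul, hε2, one_smul]
        abel
      have h0 := zero_of_self_neg h2 (hc2.symm.trans hc1)
      have := congrFun h0 a
      simp [hp, ee_apply, hab] at this
  -- no column of `J` is negated
  have hN2 : ∀ l₀ ∈ J, c (fr g l₀) ≠ - fr g l₀ := by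
    intro l₀ hl₀ hneg
    obtain ⟨j₀, hj₀, hj₀n⟩ := hN1
    set T := ({a, b} : Finset κ)ᶜ.filter (fun i => c (ee i) ≠ ee i) with hT
    have hTc : T.card ≤ 2 * (J.erase j₀).card := by
      refine moved_le h2 L.se orn_ee L.cfg.cc (S := ({a, b} : Finset κ)ᶜ) ?_ (fixSub (flp {a, b})) ?_ (w := fr g) ?_ T ?_
      · intro i hi
        have hi' : i ≠ a ∧ i ≠ b := by simpa using hi
        have := L.sigma_not_mem hP h2 hi'.1 hi'.2
        simpa using this
      · intro i hi
        have hi' : i ≠ a ∧ i ≠ b := by simpa using hi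
        rw [mem_fixSub, map_sub, ← L.cfg.cu, upos hi'.1 hi'.2]
      · intro y hy hcy hx
        apply L.zero_of h2 hcy hy
        apply hP.vfix hg
        intro j hj
        by_cases hjj : j = j₀
        · subst hjj
          have h5 := ho y (fr g j)
          rw [hcy, L.sf.act] at h5
          by_cases ht : τ j = j
          · rw [ht] at h5
            rcases L.sf.sq j with h6 | h6
            · rw [h6, one_smul, dt_neg_left] at h5
              have h7 : 2 * dt y (fr g j) = 0 := by linear_combination -h5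
              exact (mul_eq_zero.1 h7).resolve_left h2
            · exfalso
              apply hj₀n
              rw [L.sf.act, ht, h6]
              simp
          · have h6 := hx (τ j) (Finset.mem_erase.2 ⟨ht, L.tau_mem hP h2 hg hj⟩)
            rw [dt_neg_left, dt_smul_right, h6] at h5
            rw [← h5]
            ring
        · exact hx j (Finset.mem_erase.2 ⟨hjj, hj⟩)
      · intro i hi
        rw [hT, Finset.mem_filter] at hi
        exact hi
    have hXc : (J.erase j₀).card = 3 := by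
      rw [Finset.card_erase_of_mem hj₀]
      omega
    have hz := zeros_le hP h2 hg hng l₀ (({a, b} : Finset κ) ∪ T)ᶜ (by
      intro i hi
      have hi' : i ∉ ({a, b} : Finset κ) ∧ i ∉ T := by
        rw [Finset.mem_compl, Finset.mem_union, not_or] at hi
        exact hi
      have hfix : c (ee i) = ee i := by
        by_contra hcon
        exact hi'.2 (Finset.mem_filter.2 ⟨by simpa using hi'.1, hcon⟩)
      have := eig_orth h2 ho hneg hfix
      rwa [dt_ee_right] at this)
    rw [Finset.card_compl] at hz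
    have h5 := Finset.card_union_le ({a, b} : Finset κ) T
    have h6 : ({a, b} : Finset κ).card ≤ 2 := Finset.card_le_two
    omega
  -- no column of `J` is fixed
  have hN3 : ∀ j₀ ∈ J, c (fr g j₀) ≠ fr g j₀ := by
    intro j₀ hj₀ hfix
    have hdz : ∀ B ∈ J.erase j₀, ∀ C ∈ J.erase j₀, fr g B a * fr g C b - fr g B b * fr g C a = 0 := by
      intro B hB C hC
      have hB' := Finset.mem_erase.1 hB
      have hC' := Finset.mem_erase.1 hC
      set d₁ := fr g B a * fr g C b - fr g B b * fr g C a with hd₁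
      set d₂ := fr g C a * fr g j₀ b - fr g C b * fr g j₀ a with hd₂
      set d₃ := fr g j₀ a * fr g B b - fr g j₀ b * fr g B a with hd₃
      have hx := hD (d₁ • fr g j₀ + d₂ • fr g B + d₃ • fr g C) (by
          simp only [Pi.add_apply, Pi.smul_apply, smul_eq_mul, hd₁, hd₂, hd₃]
          ring) (by
          simp only [Pi.add_apply, Pi.smul_apply, smul_eq_mul, hd₁, hd₂, hd₃]
          ring) (vv_three g hj₀ hB'.2 hC'.2 _ _ _)
      have h5 := eig_orth h2 ho hx hfix
      rw [dt_add_left, dt_add_left, dt_smul_left, dt_smul_left, dt_smul_left, horn, horn, horn, if_pos rfl, if_neg hB'.1, if_neg hC'.1] at h5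
      linear_combination h5
    have hc3 : (J.erase j₀).card = 3 := by
      rw [Finset.card_erase_of_mem hj₀]
      omega
    obtain ⟨p₁, p₂, p₃, n12, n13, n23, hE⟩ := Finset.card_eq_three.1 hc3
    have hp₁ : p₁ ∈ J.erase j₀ := by rw [hE]; simp
    have hp₂ : p₂ ∈ J.erase j₀ := by rw [hE]; simp
    have hp₃ : p₃ ∈ J.erase j₀ := by rw [hE]; simp
    have hm : ∀ {B C}, B ∈ J.erase j₀ → C ∈ J.erase j₀ →
        c (fr g C a • fr g B - fr g B a • fr g C) = (-1 : F) • (fr g C a • fr g B - fr g B a • fr g C) := by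
      intro B C hB hC
      rw [neg_one_smul]
      apply hD
      · simp only [Pi.sub_apply, Pi.smul_apply, smul_eq_mul]
        ring
      · simp only [Pi.sub_apply, Pi.smul_apply, smul_eq_mul]
        linear_combination -(hdz B hB C hC)
      · rw [map_sub, map_smul, map_smul, vneg g (Finset.mem_erase.1 hB).2, vneg g (Finset.mem_erase.1 hC).2]
        simp only [smul_neg]
        abel
    have h3c := three_col (neg_ne_zero.2 one_ne_zero) L.sf (hP.orn hg) n12 n23 (hnz p₂ (Finset.mem_erase.1 hp₂).2).1 (hnz p₃ (Finset.mem_erase.1 hp₃).2).1 (hm hp₁ hp₂) (hm hp₁ hp₃) n13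
    apply hN2 p₁ (Finset.mem_erase.1 hp₁).2
    rw [L.sf.act, h3c.1, h3c.2, neg_one_smul]
  have hN4 : ∀ j ∈ J, τ j ≠ j := by
    intro j hj ht
    have h5 := L.sf.act j
    rw [ht] at h5
    rcases L.sf.sq j with h6 | h6
    · apply hN3 j hj
      rw [h5, h6, one_smul]
    · apply hN2 j hj
      rw [h5, h6, neg_one_smul]
  intro x hx
  have hτx := L.tau_mem hP h2 hg hx
  have hτxn := hN4 x hx
  have hinv := L.sf.inv
  have hτinj : ∀ {u w : κ}, τ u = τ w → u = w := by
    intro u w h
    have := congrArg τ h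
    rwa [hinv, hinv] at this
  refine ⟨τ x, hτx, hτxn, ?_, ?_⟩
  · -- the partner
    have hc2 : 0 < ((J.erase x).erase (τ x)).card := by
      rw [Finset.card_erase_of_mem (Finset.mem_erase.2 ⟨hτxn, hτx⟩), Finset.card_erase_of_mem hx]
      omega
    obtain ⟨z, hz⟩ := Finset.card_pos.1 hc2
    have hz1 := Finset.mem_erase.1 hz
    have hz2 := Finset.mem_erase.1 hz1.2
    have hzJ := hz2.2
    have hzx := hz2.1
    have hzy := hz1.1
    set w := τ z with hw
    have hwJ : w ∈ J := L.tau_mem hP h2 hg hzJ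
    have hwz : w ≠ z := hN4 z hzJ
    have hwx : w ≠ x := by
      intro e
      apply hzy
      rw [← hinv z, ← hw, e]
    have hwy : w ≠ τ x := by
      intro e
      exact hzx (hτinj e)
    obtain ⟨ξ₁, ξ₂, ξ₃, hξ, e1, e2⟩ := ker3 (fr g x a) (fr g (τ x) a) (fr g z a) (fr g x b) (fr g (τ x) b) (fr g z b) (hnz _ hτx).1
    have hq := hD (ξ₁ • fr g x + ξ₂ • fr g (τ x) + ξ₃ • fr g z) (by
        simp only [Pi.add_apply, Pi.smul_apply, smul_eq_mul]
        exact e1) (by
        simp only [Pi.add_apply, Pi.smul_apply, smul_eq_mul]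
        exact e2) (vv_three g hx hτx hzJ _ _ _)
    have hcq : c (ξ₁ • fr g x + ξ₂ • fr g (τ x) + ξ₃ • fr g z) = (ξ₁ * s x) • fr g (τ x) + (ξ₂ * s x) • fr g x + (ξ₃ * s z) • fr g w := by
      rw [map_add, map_add, map_smul, map_smul, map_smul, L.sf.act, L.sf.act, L.sf.act, hinv, L.sf.eq, smul_smul, smul_smul, smul_smul]
    rw [hcq] at hq
    have d1 := congrArg (fun v => dt v (fr g w)) hq
    have d2 := congrArg (fun v => dt v (fr g x)) hq
    simp only [dt_add_left, dt_smul_left, dt_neg_left, horn, if_true, if_neg hwx, if_neg hwx.symm, if_neg hwy, if_neg hwy.symm, if_neg hwz, if_neg hwz.symm, if_neg hτxn, if_neg hτxn.symm, if_neg hzx, mul_zero, zero_add, add_zero, mul_one, neg_zero] at d1 d2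
    have hξ₃ : ξ₃ = 0 := (mul_eq_zero.1 d1).resolve_right (hs0 z)
    have hξ₂ : ξ₂ = - (ξ₁ * s x) := by
      have := hssq x
      calc ξ₂ = (ξ₂ * s x) * s x := by rw [mul_assoc, this, mul_one]
        _ = - (ξ₁ * s x) := by
          rw [show ξ₂ * s x = - ξ₁ from by simpa using d2]
          ring
    have hξ₁ : ξ₁ ≠ 0 := by
      intro h0
      rw [h0] at hξ₂
      simp only [zero_mul, neg_zero] at hξ₂
      rcases hξ with h | h | h
      · exact h h0
      · exact h hξ₂
      · exact h hξ₃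
    refine ⟨s x, L.sf.sq x, ?_, ?_⟩
    · rw [hξ₂, hξ₃] at e1
      apply mul_left_cancel₀ hξ₁
      linear_combination e1
    · rw [hξ₂, hξ₃] at e2
      apply mul_left_cancel₀ hξ₁
      linear_combination e2
  · rintro y' hy' hne ⟨δ, hδ, e1, e2⟩
    by_contra hcon
    have hq := hD (fr g x - δ • fr g y') (by
        simp only [Pi.sub_apply, Pi.smul_apply, smul_eq_mul]
        linear_combination e1) (by
        simp only [Pi.sub_apply, Pi.smul_apply, smul_eq_mul]
        linear_combination e2) (by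
        rw [map_sub, map_smul, vneg g hx, vneg g hy']
        simp only [smul_neg]
        abel)
    rw [map_sub, map_smul, L.sf.act, L.sf.act] at hq
    have d := congrArg (fun v => dt v (fr g x)) hq
    have hτy : τ y' ≠ x := by
      intro e
      apply hcon
      rw [← e, hinv]
    simp only [dt_sub_left, dt_smul_left, dt_neg_left, horn, if_true, if_neg hτxn, if_neg hτy, if_neg hne, mul_zero, sub_zero] at d
    have : (1 : F) = 0 := by linear_combination d
    exact one_ne_zero this

/-- **All elements are monomial.** -/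
theorem all_mon (hP : PH 𝔐) (h2 : (2 : F) ≠ 0) (hn : 14 ≤ Fintype.card κ) (hg : g ∈ 𝔐) : Mon g := by
  by_contra hng
  classical
  haveI : Nonempty κ := Fintype.card_pos_iff.1 (by omega)
  obtain ⟨a, b, hab⟩ : ∃ a b : κ, a ≠ b := Fintype.one_lt_card_iff.1 (by omega)
  set Za := Finset.univ.filter (fun l => fr g l a = 0) with hZa
  set Zb := Finset.univ.filter (fun l => fr g l b = 0) with hZb
  have hZac : Za.card ≤ 4 := hP.row_zero h2 hg hng a Za (fun l hl => (Finset.mem_filter.1 hl).2)
  have hZbc : Zb.card ≤ 4 := hP.row_zero h2 hg hng b Zb (fun l hl => (Finset.mem_filter.1 hl).2)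
  set NZ := (Za ∪ Zb)ᶜ with hNZ
  have hNZc : 6 ≤ NZ.card := by
    rw [hNZ, Finset.card_compl]
    have h5 := Finset.card_union_le Za Zb
    omega
  have hnz : ∀ j ∈ NZ, fr g j a ≠ 0 ∧ fr g j b ≠ 0 := by
    intro j hj
    have hj' : j ∉ Za ∪ Zb := by simpa [hNZ] using hj
    simp only [Finset.mem_union, not_or] at hj'
    exact ⟨fun h0 => hj'.1 (Finset.mem_filter.2 ⟨Finset.mem_univ _, h0⟩), fun h0 => hj'.2 (Finset.mem_filter.2 ⟨Finset.mem_univ _, h0⟩)⟩
  obtain ⟨x, hx⟩ : NZ.Nonempty := by
    rw [← Finset.card_pos]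
    omega
  set T := NZ.erase x with hT
  have hTc : 5 ≤ T.card := by
    rw [hT, Finset.card_erase_of_mem hx]
    omega
  -- four-subsets through `x`
  have hmatch : ∀ A : Finset κ, A ⊆ T → A.card = 3 → ∃ y ∈ A, EE g a b x y ∧ ∀ y' ∈ A, EE g a b x y' → y' = y := by
    intro A hA hAc
    have hxA : x ∉ A := fun h => (Finset.mem_erase.1 (hA h)).1 rfl
    have hJ : (insert x A).card = 4 := by
      rw [Finset.card_insert_of_notMem hxA, hAc]
    have hsub : ∀ j ∈ insert x A, j ∈ NZ := by
      intro j hj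
      rcases Finset.mem_insert.1 hj with rfl | hj
      · exact hx
      · exact (Finset.mem_erase.1 (hA hj)).2
    obtain ⟨y, hy, hyx, hE, huniq⟩ := matching hP h2 hn hg hng hab hJ (fun j hj => hnz j (hsub j hj)) x (Finset.mem_insert_self _ _)
    have hyA : y ∈ A := (Finset.mem_insert.1 hy).resolve_left hyx
    refine ⟨y, hyA, hE, ?_⟩
    intro y' hy' hE'
    exact huniq y' (Finset.mem_insert_of_mem hy') (fun h => hxA (h ▸ hy')) hE'
  obtain ⟨A₁, hA₁, hA₁c⟩ := Finset.exists_subset_card_eq (s := T) (n := 3) (by omega)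
  obtain ⟨y, hy, hE, -⟩ := hmatch A₁ hA₁ hA₁c
  have hyT := hA₁ hy
  have hT₂ : 4 ≤ (T.erase y).card := by
    rw [Finset.card_erase_of_mem hyT]
    omega
  obtain ⟨A₂, hA₂, hA₂c⟩ := Finset.exists_subset_card_eq (s := T.erase y) (n := 3) (by omega)
  obtain ⟨y', hy', hE', -⟩ := hmatch A₂ (hA₂.trans (Finset.erase_subset _ _)) hA₂c
  have hy'n : y' ≠ y := (Finset.mem_erase.1 (hA₂ hy')).1
  have hy'T : y' ∈ T := (Finset.mem_erase.1 (hA₂ hy')).2
  have hT₃ : 1 ≤ ((T.erase y).erase y').card := by
    rw [Finset.card_erase_of_mem (Finset.mem_erase.2 ⟨hy'n, hy'T⟩)]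
    omega
  obtain ⟨z, hz⟩ := Finset.card_pos.1 hT₃
  have hz1 := Finset.mem_erase.1 hz
  have hz2 := Finset.mem_erase.1 hz1.2
  obtain ⟨y₀, -, -, huniq⟩ := hmatch {y, y', z} (by
      intro i hi
      simp only [Finset.mem_insert, Finset.mem_singleton] at hi
      rcases hi with rfl | rfl | rfl
      · exact hyT
      · exact hy'T
      · exact hz2.2) (Finset.card_eq_three.2 ⟨y, y', z, hy'n.symm, hz2.1.symm, hz1.1.symm, rfl⟩)
  have e1 := huniq y (by simp) hE
  have e2 := huniq y' (by simp) hE'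
  exact hy'n (e2.trans e1.symm)

end Cfsg.Agent.Lib.Classical.Frame.Even
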