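/-
Orthonormal-type frames for quadratic forms: coordinates, reflections in coordinates, the square class of the frame vectors.
-/
import Mathlib
import Cfsg.Agent.Lib.Classical.Frame.Clos8
import Cfsg.Agent.Lib.Classical.Decomp.OddFinal

set_option autoImplicit false
set_option linter.unusedSectionVars false
set_option linter.unusedSimpArgs false
set_option linter.unusedVariables false

namespace Cfsg.Agent.Lib.Classical.Frame

open Matrix QuadraticMap Module Cfsg.Geo
open Cfsg.Agent.Lib.Classical.Orth.Basic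
open Cfsg.Agent.Lib.Classical.Orth.Spinor
open Cfsg.Agent.Lib.Classical.Orth.CartanDieudonne
open Cfsg.Agent.Lib.Classical.Orth.ReflClass
open Cfsg.Agent.Lib.Classical.Decomp

variable {ι : Type} [Fintype ι] [DecidableEq ι] {F : Type*} [Field F]
variable {Q : QuadraticForm F (ι → F)} {t : ℕ}

set_option quotPrecheck false in
local notation "𝔣" => polar (⇑Q)
set_option quotPrecheck false in
local notation "𝕀" => ↥(Cfsg.isometryGroup F (⇑Q))

/-- The vector with given coordinates. -/
def vec (e : Fin t → ι → F) (α : Fin t → F) : ι → F := ∑ i, α i • e i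

lemma vec_add (e : Fin t → ι → F) (α β : Fin t → F) : vec e (α + β) = vec e α + vec e β := by
  unfold vec
  rw [← Finset.sum_add_distrib]
  apply Finset.sum_congr rfl
  intro i _
  rw [Pi.add_apply, add_smul]

lemma vec_smul (e : Fin t → ι → F) (a : F) (α : Fin t → F) : vec e (a • α) = a • vec e α := by
  unfold vec
  rw [Finset.smul_sum]
  apply Finset.sum_congr rfl
  intro i _
  rw [Pi.smul_apply, smul_eq_mul, mul_smul]

lemma vec_sub (e : Fin t → ι → F) (α β : Fin t → F) : vec e (α - β) = vec e α - vec e β := by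
  unfold vec
  rw [← Finset.sum_sub_distrib]
  apply Finset.sum_congr rfl
  intro i _
  rw [Pi.sub_apply, sub_smul]

lemma vec_single (e : Fin t → ι → F) (i : Fin t) (a : F) : vec e (Pi.single i a) = a • e i := by
  unfold vec
  rw [Finset.sum_eq_single i]
  · simp
  · intro j _ hj
    simp [Pi.single_apply, hj]
  · simp

/-- A frame of vectors of the same norm. -/
structure Frm (Q : QuadraticForm F (ι → F)) (e : Fin t → ι → F) (s : F) : Prop where
  hs : s ≠ 0
  norm : ∀ i, Q (e i) = s
  orth : ∀ i j, i ≠ j → polar (⇑Q) (e i) (e j) = 0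
  span : ∀ x, ∃ α, x = vec e α

namespace Frm

variable {e : Fin t → ι → F} {s : F} (fr : Frm Q e s)
include fr

lemma polar_vec_right (i : Fin t) (β : Fin t → F) : 𝔣 (e i) (vec e β) = 2 * s * β i := by
  unfold vec
  have h := map_sum (polarBilin Q (e i)) (fun j => β j • e j) Finset.univ
  simp only [polarBilin_apply_apply] at h
  rw [h, Finset.sum_eq_single i]
  · rw [polar_smul_right', polar_self_eq, fr.norm]
    ring
  · intro j _ hj
    rw [polar_smul_right', fr.orth i j hj.symm, mul_zero]
  · simp

lemma polar_vec (α β : Fin t → F) : 𝔣 (vec e α) (vec e β) = 2 * s * dt α β := by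
  have h : ∀ (J : Finset (Fin t)), 𝔣 (∑ i ∈ J, α i • e i) (vec e β) = ∑ i ∈ J, α i * 𝔣 (e i) (vec e β) := by
    intro J
    induction J using Finset.induction_on with
    | empty => simp
    | insert a J ha ih =>
      rw [Finset.sum_insert ha, Finset.sum_insert ha, polar_add_left, ih, polar_smul_left']
  unfold vec at h ⊢
  rw [h]
  simp_rw [show ∀ i, 𝔣 (e i) (∑ j, β j • e j) = 2 * s * β i from fun i => fr.polar_vec_right i β]
  unfold dt
  rw [Finset.mul_sum]
  apply Finset.sum_congr rfl
  intro i _
  ring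

lemma Q_vec (h2 : (2 : F) ≠ 0) (α : Fin t → F) : Q (vec e α) = s * dt α α := by
  have h := fr.polar_vec α α
  rw [polar_self_eq] at h
  apply mul_left_cancel₀ h2
  linear_combination h

lemma vec_inj (h2 : (2 : F) ≠ 0) {α β : Fin t → F} (h : vec e α = vec e β) : α = β := by
  ext i
  have h1 := fr.polar_vec_right i α
  rw [h, fr.polar_vec_right] at h1
  exact (mul_left_cancel₀ (mul_ne_zero h2 fr.hs) h1).symm

lemma e_eq (i : Fin t) : e i = vec e (Pi.single i 1) := by
  rw [vec_single, one_smul]

/-- Reflections in coordinates. -/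
lemma act_refl_vec {a : Fin t → F} (ha : Q (vec e a) ≠ 0) (h2 : (2 : F) ≠ 0) (x : Fin t → F) :
    act (reflectionIso Q (vec e a) ha) (vec e x) = vec e (x - ((2 * dt a x) / dt a a) • a) := by
  have h0 : dt a a ≠ 0 := by
    intro h
    apply ha
    rw [fr.Q_vec h2, h, mul_zero]
  have hs := fr.hs
  rw [reflectionIso_act, fr.polar_vec, fr.Q_vec h2, vec_sub, vec_smul]
  congr 2
  field_simp

lemma act_refl_unit {a : Fin t → F} (ha : Q (vec e a) ≠ 0) (h2 : (2 : F) ≠ 0) (hu : dt a a = 1) (x : Fin t → F) :
    act (reflectionIso Q (vec e a) ha) (vec e x) = vec e (x - (2 * dt a x) • a) := by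
  rw [fr.act_refl_vec ha h2, hu, div_one]

/-- An isometry is determined on the frame. -/
lemma act_vec (g : 𝕀) (α : Fin t → F) : act g (vec e α) = ∑ i, α i • act g (e i) := by
  unfold vec
  have h : ∀ (J : Finset (Fin t)), act g (∑ i ∈ J, α i • e i) = ∑ i ∈ J, α i • act g (e i) := by
    intro J
    induction J using Finset.induction_on with
    | empty => simp
    | insert a J ha ih =>
      rw [Finset.sum_insert ha, Finset.sum_insert ha, act_add, ih, act_smul]
  exact h _

end Frm

/-- Sign changes on the frame. -/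
lemma exists_diag {e : Fin t → ι → F} {s : F} (fr : Frm Q e s) (h2 : (2 : F) ≠ 0)
    (ψ : 𝕀 →* ℤˣ) (ε : ℤˣ) (hne : ∀ i, Q (e i) ≠ 0) (hψ : ∀ i, ψ (reflectionIso Q (e i) (hne i)) = ε) (J : Finset (Fin t)) :
    ∃ g : 𝕀, (∀ i ∈ J, act g (e i) = - e i) ∧ (∀ i, i ∉ J → act g (e i) = e i) ∧ ψ g = ε ^ J.card := by
  classical
  induction J using Finset.induction_on with
  | empty => exact ⟨1, by simp, fun i _ => act_one _, by simp⟩
  | insert j J hj ih =>
    obtain ⟨g, g1, g2, g3⟩ := ih
    refine ⟨reflectionIso Q (e j) (hne j) * g, ?_, ?_, ?_⟩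
    · intro i hi
      rw [act_mul]
      rcases Finset.mem_insert.1 hi with rfl | hi'
      · rw [g2 _ hj, reflectionIso_act, polar_self_eq, fr.norm]
        have hs := fr.hs
        have : s⁻¹ * (2 * s) = 2 := by field_simp
        rw [this]
        ext c
        simp only [Pi.sub_apply, Pi.smul_apply, Pi.neg_apply, smul_eq_mul]
        ring
      · have hij : i ≠ j := fun h => hj (h ▸ hi')
        rw [g1 i hi', reflectionIso_act, polar_neg_right, fr.orth j i hij.symm]
        simp
    · intro i hi
      have hi' : i ∉ J := fun h => hi (Finset.mem_insert_of_mem h)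
      have hij : i ≠ j := fun h => hi (h ▸ Finset.mem_insert_self _ _)
      rw [act_mul, g2 i hi', reflectionIso_act, fr.orth j i hij.symm]
      simp
    · rw [map_mul, hψ, g3, Finset.card_insert_of_notMem hj, pow_succ']

/-- `-1` is the product of the reflections in the frame. -/
lemma sign_negOne {e : Fin t → ι → F} {s : F} (fr : Frm Q e s) (h2 : (2 : F) ≠ 0) (ht : Odd t)
    (ψ : 𝕀 →* ℤˣ) (ε : ℤˣ) (hne : ∀ i, Q (e i) ≠ 0) (hψ : ∀ i, ψ (reflectionIso Q (e i) (hne i)) = ε) :
    ψ (negOne Q) = ε := by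
  obtain ⟨g, g1, g2, g3⟩ := exists_diag fr h2 ψ ε hne hψ Finset.univ
  have hg : g = negOne Q := by
    apply ext_act
    intro x
    obtain ⟨α, rfl⟩ := fr.span x
    rw [act_negOne, fr.act_vec]
    unfold vec
    rw [← Finset.sum_neg_distrib]
    apply Finset.sum_congr rfl
    intro i _
    rw [g1 i (Finset.mem_univ _), smul_neg]
  rw [← hg, g3, Finset.card_univ, Fintype.card_fin]
  obtain ⟨r, rfl⟩ := ht
  rw [pow_succ, pow_mul]
  have : ε ^ 2 = 1 := Int.units_sq ε
  rw [this, one_pow, one_mul]

variable [Fintype F]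

/-- **The frame vectors lie in the good class.** -/
theorem frame_good (hQ : (polarBilin Q).Nondegenerate) (h2 : (2 : F) ≠ 0) (hodd : Odd (Fintype.card ι)) {e : Fin t → ι → F} {s : F}
    (fr : Frm Q e s) (ht : Odd t) (i₀ : Fin t) (v : ι → F) (hv : Q v ≠ 0) :
    negOne Q * reflectionIso Q v hv ∈ Cfsg.Omega F (⇑Q) ↔ IsSquare (Q v / s) := by
  obtain ⟨c, hc, good⟩ := exists_good_class hQ h2 hodd
  have hne : ∀ i, Q (e i) ≠ 0 := fun i => by rw [fr.norm]; exact fr.hs
  have hs := fr.hs
  have hmem : negOne Q * reflectionIso Q (e i₀) (hne i₀) ∈ Cfsg.Omega F (⇑Q) := by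
    rw [mem_omega_iff Q hQ h2]
    have key : ∀ (ψ : 𝕀 →* ℤˣ), (∀ (u w : ι → F) (hu : Q u ≠ 0) (hw : Q w ≠ 0), Q u = Q w → ψ (reflectionIso Q u hu) = ψ (reflectionIso Q w hw)) →
        ψ (negOne Q * reflectionIso Q (e i₀) (hne i₀)) = 1 := by
      intro ψ hψ
      have h1 := sign_negOne fr h2 ht ψ (ψ (reflectionIso Q (e i₀) (hne i₀))) hne
        (fun i => hψ _ _ _ _ (by rw [fr.norm, fr.norm]))
      rw [map_mul, h1]
      exact Int.units_mul_self _
    constructor
    · apply key
      intro u w hu hw h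
      rw [plusSign_reflection Q h2, plusSign_reflection Q h2, h]
    · apply key
      intro u w hu hw h
      rw [spinorSign_reflection Q h2, spinorSign_reflection Q h2, h]
  have hsq : IsSquare (s / c) := by
    have := (good _ (hne i₀)).1 hmem
    rwa [fr.norm] at this
  rw [good v hv]
  have hsc : s / c ≠ 0 := div_ne_zero hs hc
  constructor
  · intro h
    have h3 := h.div hsq
    have : Q v / c / (s / c) = Q v / s := by
      field_simp
    rwa [this] at h3
  · intro h
    have h3 := h.mul hsq
    have : Q v / s * (s / c) = Q v / c := by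
      field_simp
    rwa [this] at h3

end Cfsg.Agent.Lib.Classical.Frame
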