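/-
Frames from orthogonal decompositions into lines; the set of coordinate vectors attached to an overgroup is closed.
-/
import Mathlib
import Cfsg.Agent.Lib.Classical.Frame.Main1

set_option autoImplicit false
set_option linter.unusedSectionVars false
set_option linter.unusedSimpArgs false
set_option linter.unusedVariables false

namespace Cfsg.Agent.Lib.Classical.Frame

open Matrix QuadraticMap Module Cfsg.Geo
open Cfsg.Agent.Lib.Classical.Orth.Basic
open Cfsg.Agent.Lib.Classical.Orth.Spinor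
open Cfsg.Agent.Lib.Classical.Orth.CartanDieudonne
open Cfsg.Agent.Lib.Classical.Orth.ReflClass
open Cfsg.Agent.Lib.Classical.Decomp

variable {ι : Type} [Fintype ι] [DecidableEq ι] {F : Type*} [Field F]
variable {Q : QuadraticForm F (ι → F)} {t : ℕ}

set_option quotPrecheck false in
local notation "𝔣" => polar (⇑Q)
set_option quotPrecheck false in
local notation "𝕀" => ↥(Cfsg.isometryGroup F (⇑Q))

variable {D : Fin t → Submodule F (ι → F)} {π : Fin t → (ι → F) →ₗ[F] (ι → F)}

/-- A frame from a decomposition into lines. -/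
theorem exists_frame (h2 : (2 : F) ≠ 0) (dec : Dec Q 1 D π) (iso : ∀ i j, AreIsometricFor (⇑Q) (D i) (D j)) (i₀ : Fin t) :
    ∃ (e : Fin t → ι → F) (s : F), Frm Q e s ∧ (∀ i, e i ∈ D i) ∧ ∀ i, ∀ x ∈ D i, ∃ a : F, x = a • e i := by
  classical
  -- a nonzero vector of a line spans it
  have hspan : ∀ i, ∀ w ∈ D i, w ≠ 0 → ∀ x ∈ D i, ∃ a : F, x = a • w := by
    intro i w hw hw0 x hx
    have h1 : finrank F (D i) = 1 := dec.dim i
    have hw' : (⟨w, hw⟩ : D i) ≠ 0 := fun h => hw0 (congrArg Subtype.val h)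
    obtain ⟨c, hc⟩ := (finrank_eq_one_iff_of_nonzero' _ hw').1 h1 ⟨x, hx⟩
    exact ⟨c, by simpa using (congrArg Subtype.val hc).symm⟩
  obtain ⟨w, hw, hw0⟩ : ∃ w ∈ D i₀, w ≠ 0 := by
    have h1 : finrank F (D i₀) = 1 := dec.dim i₀
    have : Nontrivial (D i₀) := Module.nontrivial_of_finrank_pos (R := F) (by omega)
    obtain ⟨u, hu⟩ := exists_ne (0 : D i₀)
    exact ⟨u.1, u.2, fun h => hu (Subtype.ext h)⟩
  have hQw : Q w ≠ 0 := by
    intro hq
    obtain ⟨-, y, hy, hyw⟩ := dec.nd i₀ w hw hw0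
    obtain ⟨a, rfl⟩ := hspan i₀ w hw hw0 y hy
    apply hyw
    rw [polar_smul_right', polar_self_eq, hq]
    ring
  choose T hT using fun i => iso i₀ i
  let e : Fin t → ι → F := fun i => (T i ⟨w, hw⟩ : D i)
  have hei : ∀ i, e i ∈ D i := fun i => (T i ⟨w, hw⟩).2
  have hnorm : ∀ i, Q (e i) = Q w := fun i => hT i ⟨w, hw⟩
  have he0 : ∀ i, e i ≠ 0 := by
    intro i h
    apply hQw
    rw [← hnorm i, h, QuadraticMap.map_zero]
  have hmem : ∀ i, ∀ x ∈ D i, ∃ a : F, x = a • e i := fun i => hspan i (e i) (hei i) (he0 i)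
  refine ⟨e, Q w, ⟨hQw, hnorm, fun i j hij => dec.orth i j hij _ (hei i) _ (hei j), ?_⟩, hei, hmem⟩
  intro x
  choose a ha using fun i => hmem i (π i x) (dec.mem i x)
  refine ⟨a, ?_⟩
  conv_lhs => rw [← dec.sum x]
  unfold vec
  exact Finset.sum_congr rfl (fun i _ => ha i)

/-- Two coordinates. -/
def pr {t : ℕ} {F : Type*} [Field F] (a b : Fin t) (p q : F) : Fin t → F :=
  fun c => (if c = a then p else 0) + (if c = b then q else 0)

lemma pr_eq {t : ℕ} {F : Type*} [Field F] (a b : Fin t) (p q : F) : pr a b p q = (Pi.single a p + Pi.single b q : Fin t → F) := by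
  ext c
  simp [pr, Pi.single_apply]

section stab

variable {e : Fin t → ι → F} {s : F}

/-- Frame-permuting isometries stabilise the decomposition. -/
lemma stab_of_frame (dec : Dec Q 1 D π) (hei : ∀ i, e i ∈ D i) (hmem : ∀ i, ∀ x ∈ D i, ∃ a : F, x = a • e i) (g : 𝕀)
    (σ : Equiv.Perm (Fin t)) (h : ∀ j, ∃ a : F, act g (e j) = a • e (σ j)) : (g : GL ι F) ∈ decompositionStabilizer D := by
  apply mem_stab_of_perm dec
  intro i x hx
  obtain ⟨a, rfl⟩ := hmem i x hx
  obtain ⟨b, hb⟩ := h i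
  have : ((g : GL ι F) : Matrix ι ι F) *ᵥ (a • e i) = act g (a • e i) := rfl
  rw [this, act_smul, hb]
  exact (D (σ i)).smul_mem _ ((D (σ i)).smul_mem _ (hei _))

lemma negOne_stab (dec : Dec Q 1 D π) (hei : ∀ i, e i ∈ D i) (hmem : ∀ i, ∀ x ∈ D i, ∃ a : F, x = a • e i) :
    ((negOne Q : 𝕀) : GL ι F) ∈ decompositionStabilizer D :=
  stab_of_frame dec hei hmem _ 1 (fun j => ⟨-1, by rw [act_negOne]; simp⟩)

lemma dt_single_right (a : Fin t → F) (j : Fin t) (u : F) : dt a (Pi.single j u) = a j * u := by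
  unfold dt
  rw [Finset.sum_eq_single j]
  · simp
  · intro b _ hb
    simp [Pi.single_apply, hb]
  · simp

lemma dt_add_right (a x y : Fin t → F) : dt a (x + y) = dt a x + dt a y := by
  unfold dt
  rw [← Finset.sum_add_distrib]
  apply Finset.sum_congr rfl
  intro i _
  rw [Pi.add_apply]
  ring

/-- The coordinate computation for the reflection in `p e_a + q e_b`. -/
lemma pair_coord (h2 : (2 : F) ≠ 0) {a b : Fin t} (hab : a ≠ b) {p q : F} (hp : p ≠ 0) (hq : q ≠ 0) (hpq : p * p = q * q) (j : Fin t) :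
    ∃ c : F, (Pi.single j 1 - ((2 * (pr a b p q j * 1)) / (2 * (p * p))) • pr a b p q : Fin t → F)
      = c • Pi.single (Equiv.swap a b j) 1 := by
  rw [pr_eq]
  by_cases h1 : j = a
  · subst h1
    refine ⟨-(q / p), ?_⟩
    rw [Equiv.swap_apply_left]
    ext c
    simp only [Pi.sub_apply, Pi.smul_apply, Pi.add_apply, smul_eq_mul, Pi.single_apply, if_true, if_neg hab]
    by_cases c1 : c = j
    · subst c1
      simp only [if_true, if_neg hab]
      field_simp
      ring
    · by_cases c2 : c = b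
      · subst c2
        simp only [if_true, if_neg c1]
        field_simp
        ring
      · simp only [if_neg c1, if_neg c2]
        ring
  · by_cases h3 : j = b
    · subst h3
      refine ⟨-(q / p), ?_⟩
      rw [Equiv.swap_apply_right]
      ext c
      simp only [Pi.sub_apply, Pi.smul_apply, Pi.add_apply, smul_eq_mul, Pi.single_apply, if_true, if_neg hab.symm]
      by_cases c1 : c = a
      · subst c1
        simp only [if_true, if_neg hab]
        field_simp
        ring
      · by_cases c2 : c = j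
        · subst c2
          simp only [if_true, if_neg c1]
          field_simp
          linear_combination hpq
        · simp only [if_neg c1, if_neg c2]
          ring
    · refine ⟨1, ?_⟩
      rw [Equiv.swap_apply_of_ne_of_ne h1 h3, one_smul]
      ext c
      simp only [Pi.sub_apply, Pi.smul_apply, Pi.add_apply, smul_eq_mul, Pi.single_apply, if_neg h1, if_neg h3]
      ring

/-- The reflection in `p e_a + q e_b` with `p² = q²` permutes the frame up to scalars. -/
lemma refl_pair_action (fr : Frm Q e s) (h2 : (2 : F) ≠ 0) {a b : Fin t} (hab : a ≠ b) {p q : F} (hp : p ≠ 0) (hq : q ≠ 0)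
    (hpq : p * p = q * q) (hv : Q (vec e (pr a b p q)) ≠ 0) (j : Fin t) :
    ∃ c : F, act (reflectionIso Q (vec e (pr a b p q)) hv) (e j) = c • e (Equiv.swap a b j) := by
  have hww : dt (pr a b p q) (pr a b p q) = 2 * (p * p) := by
    rw [pr_eq, dt_add_right, dt_single_right, dt_single_right]
    simp only [Pi.add_apply, Pi.single_apply, if_true, if_neg hab, if_neg hab.symm]
    linear_combination -hpq
  have h1 := fr.act_refl_vec hv h2 (Pi.single j 1)
  rw [dt_single_right _ j 1, hww, ← fr.e_eq j] at h1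
  obtain ⟨c, hc⟩ := pair_coord h2 hab hp hq hpq j
  refine ⟨c, ?_⟩
  rw [h1, hc, vec_smul, ← fr.e_eq]

end stab

variable [Fintype F]

section closed

variable {e : Fin t → ι → F} {s : F} {M : Subgroup (GL ι F)}

/-- The coordinate vectors attached to an overgroup of the stabiliser. -/
def SR (Q : QuadraticForm F (ι → F)) (e : Fin t → ι → F) (s : F) (M : Subgroup (GL ι F)) : Set (Fin t → F) :=
  {α | vec e α ∈ SS Q M s}

/-- The elements `-r_v`, for `v` a frame vector or a root vector, lie in `M`. -/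
theorem SR_of_stab (hQ : (polarBilin Q).Nondegenerate) (h2 : (2 : F) ≠ 0) (hodd : Odd (Fintype.card ι)) (ht : Odd t) (i₀ : Fin t) (fr : Frm Q e s)
    (hle : decompositionStabilizer D ⊓ omegaGL (⇑Q) ≤ M) {α : Fin t → F} (hα : dt α α = 1) (hv : Q (vec e α) ≠ 0)
    (hst : ((reflectionIso Q (vec e α) hv : 𝕀) : GL ι F) ∈ decompositionStabilizer D) (hneg : ((negOne Q : 𝕀) : GL ι F) ∈ decompositionStabilizer D) :
    α ∈ SR Q e s M := by
  have hQv : Q (vec e α) = s := by rw [fr.Q_vec h2, hα, mul_one]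
  refine ⟨hQv, hv, hle ⟨(decompositionStabilizer D).mul_mem hneg hst, ?_⟩⟩
  refine ⟨_, (frame_good hQ h2 hodd fr ht i₀ _ hv).2 ?_, rfl⟩
  rw [hQv, div_self fr.hs]
  exact IsSquare.one

lemma hQ_pair (fr : Frm Q e s) (h2 : (2 : F) ≠ 0) {a b : Fin t} (hab : a ≠ b) :
    Q (vec e (pr a b (1 : F) (-1))) = s * 2 := by
  rw [fr.Q_vec h2, pr_eq, dt_add_right, dt_single_right, dt_single_right]
  simp only [Pi.add_apply, Pi.single_apply, if_true, if_neg hab, if_neg hab.symm]
  ring

/-- A transposition of coordinates is a reflection. -/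
lemma swap_coord (fr : Frm Q e s) (h2 : (2 : F) ≠ 0) {a b : Fin t} (hab : a ≠ b) (x : Fin t → F) :
    ∃ hv : Q (vec e (pr a b (1 : F) (-1))) ≠ 0,
      vec e (x ∘ Equiv.swap a b) = act (reflectionIso Q (vec e (pr a b (1 : F) (-1))) hv) (vec e x) := by
  have hs := fr.hs
  have hv : Q (vec e (pr a b (1 : F) (-1))) ≠ 0 := by
    rw [hQ_pair fr h2 hab]
    exact mul_ne_zero hs h2
  refine ⟨hv, ?_⟩
  have hww : dt (pr a b (1 : F) (-1)) (pr a b (1 : F) (-1)) = 2 := by
    rw [pr_eq, dt_add_right, dt_single_right, dt_single_right]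
    simp only [Pi.add_apply, Pi.single_apply, if_true, if_neg hab, if_neg hab.symm]
    norm_num
  have hwx : dt (pr a b (1 : F) (-1)) x = x a - x b := by
    rw [pr_eq, dt_comm, dt_add_right, dt_single_right, dt_single_right]
    ring
  rw [fr.act_refl_vec hv h2, hww, hwx]
  apply congrArg (vec e)
  ext c
  rw [pr_eq]
  simp only [Function.comp, Pi.sub_apply, Pi.smul_apply, smul_eq_mul, Pi.add_apply, Pi.single_apply]
  by_cases c1 : c = a
  · subst c1
    rw [Equiv.swap_apply_left]
    simp only [if_true, if_neg hab]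
    field_simp
    ring
  · by_cases c2 : c = b
    · subst c2
      rw [Equiv.swap_apply_right]
      simp only [if_true, if_neg c1]
      field_simp
      ring
    · rw [Equiv.swap_apply_of_ne_of_ne c1 c2]
      simp only [if_neg c1, if_neg c2]
      ring

lemma pair_stab (fr : Frm Q e s) (h2 : (2 : F) ≠ 0) (dec : Dec Q 1 D π) (hei : ∀ i, e i ∈ D i) (hmem : ∀ i, ∀ x ∈ D i, ∃ a : F, x = a • e i)
    {a b : Fin t} (hab : a ≠ b) {p q : F} (hp : p ≠ 0) (hq : q ≠ 0) (hpq : p * p = q * q)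
    (hv : Q (vec e (pr a b p q)) ≠ 0) :
    ((reflectionIso Q (vec e (pr a b p q)) hv : 𝕀) : GL ι F) ∈ decompositionStabilizer D :=
  stab_of_frame dec hei hmem _ (Equiv.swap a b) (refl_pair_action fr h2 hab hp hq hpq hv)

lemma double_swap (fr : Frm Q e s) (h2 : (2 : F) ≠ 0) (dec : Dec Q 1 D π) (hei : ∀ i, e i ∈ D i) (hmem : ∀ i, ∀ x ∈ D i, ∃ a : F, x = a • e i)
    (hle : decompositionStabilizer D ⊓ omegaGL (⇑Q) ≤ M) {a b c d : Fin t} (hab : a ≠ b) (hcd : c ≠ d) (x : Fin t → F) (hx : x ∈ SR Q e s M) :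
    x ∘ (Equiv.swap a b * Equiv.swap c d) ∈ SR Q e s M := by
  have hs := fr.hs
  obtain ⟨hv, h1⟩ := swap_coord fr h2 hab x
  obtain ⟨hv', h3⟩ := swap_coord fr h2 hcd (x ∘ Equiv.swap a b)
  have e1 : x ∘ (Equiv.swap a b * Equiv.swap c d) = (x ∘ Equiv.swap a b) ∘ Equiv.swap c d := rfl
  have hg := reflection_mul_mem_omega Q h2 _ _ hv hv' (by
    rw [hQ_pair fr h2 hab, hQ_pair fr h2 hcd, div_self (mul_ne_zero hs h2)]
    exact IsSquare.one)
  have hgM : ((reflectionIso Q _ hv' * reflectionIso Q _ hv : 𝕀) : GL ι F) ∈ M := by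
    apply hle
    refine ⟨?_, _, hg, rfl⟩
    exact (decompositionStabilizer D).mul_mem
      (pair_stab fr h2 dec hei hmem hcd one_ne_zero (neg_ne_zero.2 one_ne_zero) (by ring) hv')
      (pair_stab fr h2 dec hei hmem hab one_ne_zero (neg_ne_zero.2 one_ne_zero) (by ring) hv)
  have := SS_act _ hgM hx
  show vec e (x ∘ ⇑(Equiv.swap a b * Equiv.swap c d)) ∈ SS Q M s
  rw [e1, h3, h1, ← act_mul]
  exact this

lemma even_perm (fr : Frm Q e s) (h2 : (2 : F) ≠ 0) (dec : Dec Q 1 D π) (hei : ∀ i, e i ∈ D i) (hmem : ∀ i, ∀ x ∈ D i, ∃ a : F, x = a • e i)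
    (hle : decompositionStabilizer D ⊓ omegaGL (⇑Q) ≤ M) (σ : Equiv.Perm (Fin t)) :
    (Equiv.Perm.sign σ = 1 → ∀ x ∈ SR Q e s M, x ∘ σ ∈ SR Q e s M) ∧
      (Equiv.Perm.sign σ = -1 → ∀ a b : Fin t, a ≠ b → ∀ x ∈ SR Q e s M, x ∘ (Equiv.swap a b * σ) ∈ SR Q e s M) := by
  induction σ using Equiv.Perm.swap_induction_on with
  | one =>
    refine ⟨fun _ x hx => hx, fun h => ?_⟩
    rw [Equiv.Perm.sign_one] at h
    exact absurd h (by decide)
  | swap_mul f x y hxy ih =>
    have hsign : Equiv.Perm.sign (Equiv.swap x y * f) = - Equiv.Perm.sign f := by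
      rw [Equiv.Perm.sign_mul, Equiv.Perm.sign_swap hxy]
      simp
    refine ⟨fun h => ?_, fun h => ?_⟩
    · apply ih.2 _ x y hxy
      rw [hsign] at h
      rw [← neg_neg (Equiv.Perm.sign f), h]
    · intro a b hab z hz
      have hf : Equiv.Perm.sign f = 1 := by
        rw [hsign] at h
        rw [← neg_neg (Equiv.Perm.sign f), h]
        rfl
      have h3 := ih.1 hf _ (double_swap fr h2 dec hei hmem hle hab hxy z hz)
      have e2 : z ∘ (Equiv.swap a b * (Equiv.swap x y * f)) = (z ∘ (Equiv.swap a b * Equiv.swap x y)) ∘ f := rfl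
      rw [e2]
      exact h3

/-- The reflection in a frame vector. -/
lemma frame_refl_stab (fr : Frm Q e s) (h2 : (2 : F) ≠ 0) (dec : Dec Q 1 D π) (hei : ∀ i, e i ∈ D i) (hmem : ∀ i, ∀ x ∈ D i, ∃ a : F, x = a • e i)
    (i : Fin t) (hv : Q (vec e (Pi.single i 1 : Fin t → F)) ≠ 0) :
    ((reflectionIso Q (vec e (Pi.single i 1 : Fin t → F)) hv : 𝕀) : GL ι F) ∈ decompositionStabilizer D := by
  have hα : dt (Pi.single i 1 : Fin t → F) (Pi.single i 1) = 1 := by
    rw [dt_single_right]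
    simp
  refine stab_of_frame dec hei hmem _ 1 (fun j => ?_)
  have h1 := fr.act_refl_unit hv h2 hα (Pi.single j 1)
  rw [← fr.e_eq j, dt_single_right _ j 1] at h1
  by_cases hj : j = i
  · subst hj
    refine ⟨-1, ?_⟩
    rw [h1, Equiv.Perm.one_apply, fr.e_eq j, ← vec_smul]
    apply congrArg (vec e)
    ext c
    simp only [Pi.single_apply, Pi.sub_apply, Pi.smul_apply, smul_eq_mul, if_true]
    by_cases c1 : c = j
    · simp only [c1, if_true]
      norm_num
    · simp only [if_neg c1]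
      ring
  · refine ⟨1, ?_⟩
    rw [h1, Equiv.Perm.one_apply, one_smul, fr.e_eq j]
    apply congrArg (vec e)
    ext c
    simp only [Pi.sub_apply, Pi.smul_apply, smul_eq_mul, Pi.single_apply, if_neg (Ne.symm hj), if_neg hj]
    ring

/-- **The coordinate set is closed.** -/
theorem closed_SR (hQ : (polarBilin Q).Nondegenerate) (h2 : (2 : F) ≠ 0) (hodd : Odd (Fintype.card ι)) (ht : Odd t) (i₀ : Fin t) (fr : Frm Q e s)
    (dec : Dec Q 1 D π) (hei : ∀ i, e i ∈ D i) (hmem : ∀ i, ∀ x ∈ D i, ∃ a : F, x = a • e i)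
    (hle : decompositionStabilizer D ⊓ omegaGL (⇑Q) ≤ M) : Closed (SR Q e s M) := by
  have hneg := negOne_stab dec hei hmem
  have hs := fr.hs
  refine ⟨?_, ?_, ?_, ?_, ?_⟩
  · rintro x ⟨h1, -⟩
    rw [fr.Q_vec h2] at h1
    exact mul_left_cancel₀ hs (by rw [h1, mul_one])
  · intro i
    have hα : dt (Pi.single i 1 : Fin t → F) (Pi.single i 1) = 1 := by
      rw [dt_single_right]
      simp
    have hv : Q (vec e (Pi.single i 1 : Fin t → F)) ≠ 0 := by
      rw [fr.Q_vec h2, hα, mul_one]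
      exact hs
    exact SR_of_stab hQ h2 hodd ht i₀ fr hle hα hv (frame_refl_stab fr h2 dec hei hmem i hv) hneg
  · intro a ha x hx
    have hQa : Q (vec e a) ≠ 0 := ha.2.1
    have hu : dt a a = 1 := by
      have h1 := ha.1
      rw [fr.Q_vec h2] at h1
      exact mul_left_cancel₀ hs (by rw [h1, mul_one])
    show vec e _ ∈ SS Q M s
    rw [← fr.act_refl_unit hQa h2 hu]
    exact SS_refl ha hx hQa
  · intro σ hσ x hx
    exact (even_perm fr h2 dec hei hmem hle σ).1 hσ x hx
  · intro u hu i j hij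
    have hu0 : u ≠ 0 := by
      rintro rfl
      simp at hu
    have hα : dt (pr i j u u) (pr i j u u) = 1 := by
      rw [pr_eq, dt_add_right, dt_single_right, dt_single_right]
      simp only [Pi.add_apply, Pi.single_apply, if_true, if_neg hij, if_neg hij.symm]
      linear_combination hu
    have hv : Q (vec e (pr i j u u)) ≠ 0 := by
      rw [fr.Q_vec h2, hα, mul_one]
      exact hs
    rw [← pr_eq]
    exact SR_of_stab hQ h2 hodd ht i₀ fr hle hα hv (pair_stab fr h2 dec hei hmem hij hu0 hu0 rfl hv) hneg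

end closed

end Cfsg.Agent.Lib.Classical.Frame
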