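/-
Maximality of the stabiliser of an orthogonal frame in `Ω` of odd dimension over a prime field.
-/
import Mathlib
import Cfsg.Agent.Lib.Classical.Frame.Main2

set_option autoImplicit false
set_option linter.unusedSectionVars false
set_option linter.unusedSimpArgs false
set_option linter.unusedVariables false

namespace Cfsg.Agent.Lib.Classical.Frame

open Matrix QuadraticMap Module Cfsg.Geo
open Cfsg.Agent.Lib.Classical.Orth.Basic
open Cfsg.Agent.Lib.Classical.Orth.Spinor
open Cfsg.Agent.Lib.Classical.Orth.CartanDieudonne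
open Cfsg.Agent.Lib.Classical.Orth.ReflClass
open Cfsg.Agent.Lib.Classical.Decomp

section pure

variable {F : Type*} [Field F] {κ : Type*} [Fintype κ] [DecidableEq κ]

lemma dt_two {a b : κ} (hab : a ≠ b) {x : κ → F} (hx : ∀ c, c ≠ a → c ≠ b → x c = 0) (y : κ → F) :
    dt x y = x a * y a + x b * y b := by
  unfold dt
  rw [← Finset.sum_pair hab (f := fun c => x c * y c)]
  symm
  apply Finset.sum_subset (Finset.subset_univ _)
  intro c _ hc
  have hc' : c ≠ a ∧ c ≠ b := by simpa using hc
  rw [hx c hc'.1 hc'.2, zero_mul]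

lemma Triv.wt_le {v : κ → F} (h : Triv v) : wt v ≤ 2 := by
  rcases h with h | ⟨h, -⟩ <;> omega

lemma wt_ge_three {v : κ → F} {a b c : κ} (hab : a ≠ b) (hac : a ≠ c) (hbc : b ≠ c) (ha : v a ≠ 0) (hb : v b ≠ 0) (hc : v c ≠ 0) :
    3 ≤ wt v := by
  have : 2 < (supp v).card := Finset.two_lt_card_iff.2 ⟨a, b, c, mem_supp.2 ha, mem_supp.2 hb, mem_supp.2 hc, hab, hac, hbc⟩
  exact this

/-- Orthonormal trivial vectors, whose pairwise sums are trivial, have weight one. -/
theorem no_weight_two {ι' : Type*} [Fintype ι'] [DecidableEq ι'] {A : ι' → κ → F} (hort : ∀ i l, i ≠ l → dt (A i) (A l) = 0) (hun : ∀ i, dt (A i) (A i) = 1)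
    (htr : ∀ i, Triv (A i)) (hsum : ∀ (u : F) (i l : ι'), 2 * (u * u) = 1 → i ≠ l → Triv (u • (A i + A l)))
    (h3 : 3 ≤ Fintype.card ι') (i : ι') : wt (A i) ≤ 1 := by
  rcases htr i with h | ⟨h, hh⟩
  · exact h
  exfalso
  obtain ⟨a, b, hab, hs⟩ := Finset.card_eq_two.1 h
  have hia : A i a ≠ 0 := mem_supp.1 (by rw [hs]; simp)
  have hib : A i b ≠ 0 := mem_supp.1 (by rw [hs]; simp)
  have hioff : ∀ c, c ≠ a → c ≠ b → A i c = 0 := by
    intro c h1 h2
    by_contra h4
    have : c ∈ supp (A i) := mem_supp.2 h4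
    rw [hs] at this
    simp [h1, h2] at this
  have ha2 := hh a hia
  have hb2 := hh b hib
  have key : ∀ l, l ≠ i → ∀ c, c ≠ a → c ≠ b → A l c = 0 := by
    intro l hl c hca hcb
    by_contra hc0
    have hu : A i a ≠ 0 := hia
    have hT := (hsum (A i a) i l ha2 hl.symm).wt_le
    have h0 := hort i l hl.symm
    rw [dt_two hab hioff] at h0
    have htl := (htr l).wt_le
    have hβc : (A i a • (A i + A l)) c ≠ 0 := by
      simp only [Pi.smul_apply, Pi.add_apply, smul_eq_mul, hioff c hca hcb, zero_add]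
      exact mul_ne_zero hu hc0
    by_cases hβa : (A i a • (A i + A l)) a = 0
    · -- `A l a = - A i a`
      have e : A l a = - A i a := by
        simp only [Pi.smul_apply, Pi.add_apply, smul_eq_mul] at hβa
        have := (mul_eq_zero.1 hβa).resolve_left hu
        linear_combination this
      have h1 : A l b = 0 := by
        by_contra h6
        have := wt_ge_three hab hca.symm hcb.symm (by rw [e]; exact neg_ne_zero.2 hia) h6 hc0
        omega
      rw [e, h1, mul_zero, add_zero] at h0
      exact mul_ne_zero hia hia (by linear_combination -h0)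
    · by_cases hβb : (A i a • (A i + A l)) b = 0
      · have e : A l b = - A i b := by
          simp only [Pi.smul_apply, Pi.add_apply, smul_eq_mul] at hβb
          have := (mul_eq_zero.1 hβb).resolve_left hu
          linear_combination this
        have h1 : A l a = 0 := by
          by_contra h6
          have := wt_ge_three hab hca.symm hcb.symm h6 (by rw [e]; exact neg_ne_zero.2 hib) hc0
          omega
        rw [e, h1, mul_zero, zero_add] at h0
        exact mul_ne_zero hib hib (by linear_combination -h0)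
      · have := wt_ge_three hab hca.symm hcb.symm hβa hβb hβc
        omega
  -- two further indices
  obtain ⟨l, hl, l', hl', hll⟩ : ∃ l ∈ Finset.univ.erase i, ∃ l' ∈ Finset.univ.erase i, l ≠ l' := by
    apply Finset.one_lt_card.1
    rw [Finset.card_erase_of_mem (Finset.mem_univ _), Finset.card_univ]
    omega
  have hli : l ≠ i := (Finset.mem_erase.1 hl).1
  have hli' : l' ≠ i := (Finset.mem_erase.1 hl').1
  have e1 := hort i l hli.symm
  have e2 := hort i l' hli'.symm
  have e3 := hort l l' hll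
  have e4 := hun l
  have e5 := hun l'
  rw [dt_two hab hioff] at e1 e2
  rw [dt_two hab (key l hli)] at e3 e4
  rw [dt_two hab (key l' hli')] at e5
  set p := A l a
  set q := A l b
  set r := A l' a
  set w := A l' b
  have hdet : p * w - q * r = 0 := by
    apply mul_left_cancel₀ hia
    linear_combination w * e1 - q * e2
  have : (1 : F) = 0 := by
    linear_combination -(r * r + w * w) * e4 - e5 + (p * r + q * w) * e3 + (p * w - q * r) * hdet
  exact one_ne_zero this

end pure

variable {ι : Type} [Fintype ι] [DecidableEq ι] {F : Type*} [Field F] [Fintype F]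
variable {Q : QuadraticForm F (ι → F)} {t : ℕ}

set_option quotPrecheck false in
local notation "𝔣" => polar (⇑Q)
set_option quotPrecheck false in
local notation "𝕀" => ↥(Cfsg.isometryGroup F (⇑Q))

variable {D : Fin t → Submodule F (ι → F)} {π : Fin t → (ι → F) →ₗ[F] (ι → F)} {M : Subgroup (GL ι F)}

/-- If `SS` contains all vectors of norm `c` and `M` lies in `Ω`, then `M` contains `Ω`. -/
theorem omega_le' (hQ : (polarBilin Q).Nondegenerate) (h2 : (2 : F) ≠ 0) {c : F} (hc : c ≠ 0) (hodd : Odd (Fintype.card ι)) (hcard : 5 ≤ Fintype.card ι)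
    (hle : M ≤ omegaGL (⇑Q)) (hall : ∀ x, Q x = c → x ∈ SS Q M c) : omegaGL (⇑Q) ≤ M := by
  classical
  have hneg2 : negOne Q * negOne Q = 1 := by
    apply ext_act
    intro x
    rw [act_mul, act_negOne, act_negOne, neg_neg]
    change x = (((1 : GL ι F) : GL ι F) : Matrix ι ι F) *ᵥ x
    simp
  let N : Subgroup 𝕀 :=
    { carrier := {g | (g : GL ι F) ∈ M ∨ ((negOne Q * g : 𝕀) : GL ι F) ∈ M}
      one_mem' := Or.inl M.one_mem
      mul_mem' := by
        intro g h hg hh
        rcases hg with hg | hg <;> rcases hh with hh | hh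
        · exact Or.inl (M.mul_mem hg hh)
        · refine Or.inr ?_
          have : negOne Q * (g * h) = g * (negOne Q * h) := by
            rw [← mul_assoc, negOne_comm, mul_assoc]
          rw [this]
          exact M.mul_mem hg hh
        · refine Or.inr ?_
          have : negOne Q * (g * h) = (negOne Q * g) * h := by
            rw [mul_assoc]
          rw [this]
          exact M.mul_mem hg hh
        · refine Or.inl ?_
          have : g * h = (negOne Q * g) * (negOne Q * h) := by
            rw [mul_assoc, ← mul_assoc g, ← negOne_comm, mul_assoc, ← mul_assoc, hneg2, one_mul]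
          rw [this]
          exact M.mul_mem hg hh
      inv_mem' := by
        intro g hg
        rcases hg with hg | hg
        · exact Or.inl (M.inv_mem hg)
        · refine Or.inr ?_
          have : negOne Q * g⁻¹ = (negOne Q * g)⁻¹ := by
            rw [_root_.mul_inv_rev]
            have h1 : (negOne Q)⁻¹ = negOne Q := inv_eq_of_mul_eq_one_left hneg2
            rw [h1, ← negOne_comm]
          rw [this]
          exact M.inv_mem hg }
  have hNmem : ∀ g : 𝕀, g ∈ N ↔ ((g : GL ι F) ∈ M ∨ ((negOne Q * g : 𝕀) : GL ι F) ∈ M) := fun g => Iff.rfl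
  have hcl : classGroup Q c ≤ N := by
    unfold classGroup
    rw [Subgroup.closure_le]
    rintro g ⟨v, s, hs, hQv, hgv⟩
    have hs2 : s⁻¹ ≠ 0 := inv_ne_zero hs
    have hQv0 : Q v ≠ 0 := by
      rw [hQv]
      exact mul_ne_zero hc (pow_ne_zero _ hs)
    have hQv' : Q (s⁻¹ • v) = c := by
      rw [Q_smul, hQv]
      field_simp
    obtain ⟨-, h0, hm⟩ := hall _ hQv'
    have hr : reflectionIso Q (s⁻¹ • v) h0 = g := by
      apply Subtype.ext
      apply Units.ext
      rw [hgv]
      change Cfsg.reflectionMatrix (⇑Q) (s⁻¹ • v) = Cfsg.reflectionMatrix (⇑Q) v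
      exact reflectionMatrix_smul Q s⁻¹ hs2 v hQv0
    rw [hr] at hm
    exact Or.inr hm
  have hidx := classGroup_index (Q := Q) hQ h2 (by omega) (Or.inr (Or.inl hcard)) hc
  have hΩ : Cfsg.Omega F (⇑Q) ≤ classGroup Q c := by
    have hnorm : (classGroup Q c).Normal := Subgroup.normal_of_index_eq_two hidx
    change commutator _ ≤ _
    rw [commutator_def, Subgroup.commutator_le]
    intro g₁ _ g₂ _
    rw [commutatorElement_def, Subgroup.mul_mem_iff_of_index_two hidx, inv_mem_iff]
    constructor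
    · intro h
      have := hnorm.conj_mem _ h g₁⁻¹
      simpa [mul_assoc] using this
    · intro h
      exact hnorm.conj_mem _ h g₁
  rintro _ ⟨g, hgΩ, rfl⟩
  rcases (hNmem g).1 (hcl (hΩ hgΩ)) with h1 | h1
  · exact h1
  · exfalso
    obtain ⟨g', hg'Ω, hg'⟩ := hle h1
    have hg'2 : g' = negOne Q * g := Subtype.ext hg'
    have hnΩ : negOne Q ∈ Cfsg.Omega F (⇑Q) := by
      have := (Cfsg.Omega F (⇑Q)).mul_mem hg'Ω ((Cfsg.Omega F (⇑Q)).inv_mem hgΩ)
      rwa [hg'2, mul_inv_cancel_right] at this
    obtain ⟨h3, h4⟩ := (mem_omega_iff Q hQ h2 _).1 hnΩ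
    have := signs_negOne hQ h2 hodd
    rw [h3, h4] at this
    exact absurd this (by decide)

/-- A unit vector with three nonzero coordinates. -/
lemma exists_unit3 (hprime : (Fintype.card F).Prime) (hodd : Odd (Fintype.card F)) (ht : 4 ≤ t) :
    ∃ (a : Fin t → F) (i₀ i₁ i₂ : Fin t), i₀ ≠ i₁ ∧ i₀ ≠ i₂ ∧ i₁ ≠ i₂ ∧ dt a a = 1 ∧ a i₀ ≠ 0 ∧ a i₁ ≠ 0 ∧ a i₂ ≠ 0 := by
  let i₀ : Fin t := ⟨0, by omega⟩
  let i₁ : Fin t := ⟨1, by omega⟩
  let i₂ : Fin t := ⟨2, by omega⟩
  let i₃ : Fin t := ⟨3, by omega⟩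
  have n01 : i₀ ≠ i₁ := by simp [i₀, i₁, Fin.ext_iff]
  have n02 : i₀ ≠ i₂ := by simp [i₀, i₂, Fin.ext_iff]
  have n03 : i₀ ≠ i₃ := by simp [i₀, i₃, Fin.ext_iff]
  have n12 : i₁ ≠ i₂ := by simp [i₁, i₂, Fin.ext_iff]
  have n13 : i₁ ≠ i₃ := by simp [i₁, i₃, Fin.ext_iff]
  have n23 : i₂ ≠ i₃ := by simp [i₂, i₃, Fin.ext_iff]
  have h2 : (2 : F) ≠ 0 := Cfsg.Agent.Lib.PSL2.TorusCore.two_ne_zero_of_odd_card hodd
  by_cases h3 : (3 : F) = 0
  · -- four coordinates equal to one
    let a : Fin t → F := fun c => if c = i₀ ∨ c = i₁ ∨ c = i₂ ∨ c = i₃ then 1 else 0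
    refine ⟨a, i₀, i₁, i₂, n01, n02, n12, ?_, by simp [a], by simp [a], by simp [a]⟩
    have hsub : ∀ c, c ∉ ({i₀, i₁, i₂, i₃} : Finset (Fin t)) → a c = 0 := by
      intro c hc
      simp only [Finset.mem_insert, Finset.mem_singleton] at hc
      simp [a, hc]
    rw [dt_of_sub hsub]
    unfold sq
    rw [Finset.sum_insert (by simp [n01, n02, n03]), Finset.sum_insert (by simp [n12, n13]), Finset.sum_pair n23]
    simp only [a, true_or, or_true, if_true]
    linear_combination h3
  · let a : Fin t → F := fun c => if c = i₀ then 3⁻¹ else if c = i₁ then 2 * 3⁻¹ else if c = i₂ then 2 * 3⁻¹ else 0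
    have e0 : a i₀ = 3⁻¹ := by simp [a]
    have e1 : a i₁ = 2 * 3⁻¹ := by simp [a, n01.symm]
    have e2 : a i₂ = 2 * 3⁻¹ := by simp [a, n02.symm, n12.symm]
    refine ⟨a, i₀, i₁, i₂, n01, n02, n12, ?_, ?_, ?_, ?_⟩
    · have hsub : ∀ c, c ∉ ({i₀, i₁, i₂} : Finset (Fin t)) → a c = 0 := by
        intro c hc
        have hc' : c ≠ i₀ ∧ c ≠ i₁ ∧ c ≠ i₂ := by simpa using hc
        simp [a, hc'.1, hc'.2.1, hc'.2.2]
      rw [dt_of_sub hsub, sq_triple a n01 n02 n12, e0, e1, e2]
      field_simp
      norm_num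
    · rw [e0]
      exact inv_ne_zero h3
    · rw [e1]
      exact mul_ne_zero h2 (inv_ne_zero h3)
    · rw [e2]
      exact mul_ne_zero h2 (inv_ne_zero h3)

/-- **Maximality of the stabiliser of an orthogonal frame.** -/
theorem frame_maximal (hprime : (Fintype.card F).Prime) (hoddF : Odd (Fintype.card F)) (hQ : (polarBilin Q).Nondegenerate) (h2 : (2 : F) ≠ 0)
    (hodd : Odd (Fintype.card ι)) (ht9 : 9 ≤ t) (ht : Odd t) (hcard : 5 ≤ Fintype.card ι) (dec : Dec Q 1 D π)
    (iso : ∀ i j, AreIsometricFor (⇑Q) (D i) (D j)) :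
    IsMaximalIn (omegaGL (⇑Q)) (decompositionStabilizer D ⊓ omegaGL (⇑Q)) := by
  classical
  let i₀ : Fin t := ⟨0, by omega⟩
  obtain ⟨e, s, fr, hei, hmem⟩ := exists_frame h2 dec iso i₀
  have hs := fr.hs
  refine ⟨?_, ?_⟩
  · -- properness
    refine SetLike.lt_iff_le_and_exists.2 ⟨inf_le_right, ?_⟩
    obtain ⟨a, j₀, j₁, j₂, n01, n02, n12, hu, h0, h1, h3⟩ := exists_unit3 hprime hoddF (t := t) (by omega)
    have hQa : Q (vec e a) = s := by rw [fr.Q_vec h2, hu, mul_one]
    have hv : Q (vec e a) ≠ 0 := by rw [hQa]; exact hs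
    have hgΩ := (frame_good hQ h2 hodd fr ht i₀ _ hv).2 (by rw [hQa, div_self hs]; exact IsSquare.one)
    refine ⟨_, ⟨_, hgΩ, rfl⟩, ?_⟩
    rintro ⟨⟨σ, hσ⟩, -⟩
    have h4 : ((Matrix.toLin' (((Subgroup.subtype (Cfsg.isometryGroup F (⇑Q))) (negOne Q * reflectionIso Q (vec e a) hv) : GL ι F) : Matrix ι ι F)) (e j₀))
        ∈ D (σ j₀) := by
      rw [← hσ j₀]
      exact Submodule.mem_map_of_mem (hei j₀)
    obtain ⟨b, hb⟩ := hmem _ _ h4
    have h5 : act (negOne Q * reflectionIso Q (vec e a) hv) (e j₀) = b • e (σ j₀) := hb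
    rw [act_mul, act_negOne, fr.e_eq j₀, fr.act_refl_unit hv h2 hu, ← vec_single] at h5
    have h6 : vec e ((-1 : F) • ((Pi.single j₀ 1 : Fin t → F) - (2 * dt a (Pi.single j₀ 1)) • a)) = vec e (Pi.single (σ j₀) b) := by
      rw [vec_smul, neg_one_smul]
      exact h5
    have h7 := fr.vec_inj h2 h6
    rw [dt_single_right, mul_one] at h7
    have h8 : ∀ c, c ≠ j₀ → c ≠ σ j₀ → a c = 0 := by
      intro c hc hc'
      have := congrFun h7 c
      simp only [Pi.smul_apply, Pi.sub_apply, smul_eq_mul, Pi.single_apply, if_neg hc, if_neg hc'] at this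
      have h9 : (2 * a j₀) * a c = 0 := by linear_combination this
      exact (mul_eq_zero.1 h9).resolve_left (mul_ne_zero h2 h0)
    by_cases h9 : j₁ = σ j₀
    · exact h3 (h8 j₂ n02.symm (fun h => n12 (h9.trans h.symm)))
    · exact h1 (h8 j₁ n01.symm h9)
  · intro M' hH hMΩ
    have hcl : Closed (SR Q e s M') := closed_SR hQ h2 hodd ht i₀ fr dec hei hmem hH
    by_cases hall : ∃ x ∈ SR Q e s M', ¬ Triv x
    · right
      obtain ⟨x, hx, hnt⟩ := hall
      have hsph := closure_final hprime hoddF (by simpa using ht9) hcl hx hnt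
      refine le_antisymm hMΩ (omega_le' hQ h2 hs hodd hcard hMΩ ?_)
      intro y hy
      obtain ⟨α, rfl⟩ := fr.span y
      rw [fr.Q_vec h2] at hy
      exact hsph α (mul_left_cancel₀ hs (by rw [hy, mul_one]))
    · left
      push Not at hall
      refine le_antisymm ?_ hH
      intro g hg
      refine ⟨?_, hMΩ hg⟩
      obtain ⟨g', hg'Ω, rfl⟩ := hMΩ hg
      apply mem_stab_of_maps dec one_pos
      intro i
      change ((g' : 𝕀) : GL ι F) ∈ M' at hg
      choose A hA using fun i => fr.span (act g' (e i))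
      have hAR : ∀ i, A i ∈ SR Q e s M' := by
        intro i
        show vec e (A i) ∈ SS Q M' s
        rw [← hA i]
        apply SS_act g' hg
        have := hcl.basis i
        have h1 : vec e (Pi.single i 1) ∈ SS Q M' s := this
        rwa [← fr.e_eq i] at h1
      have hun : ∀ i, dt (A i) (A i) = 1 := fun i => hcl.unit _ (hAR i)
      have hort : ∀ i l, i ≠ l → dt (A i) (A l) = 0 := by
        intro i l hil
        have h1 := fr.polar_vec (A i) (A l)
        rw [← hA i, ← hA l, polar_act, fr.orth i l hil] at h1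
        have h3 : (2 * s) * dt (A i) (A l) = 0 := h1.symm
        exact (mul_eq_zero.1 h3).resolve_left (mul_ne_zero h2 hs)
      have hsum : ∀ (u : F) (i l : Fin t), 2 * (u * u) = 1 → i ≠ l → Triv (u • (A i + A l)) := by
        intro u i l hu hil
        apply hall
        show vec e (u • (A i + A l)) ∈ SS Q M' s
        have h1 := hcl.root u hu i l hil
        have h3 : vec e (Pi.single i u + Pi.single l u) ∈ SS Q M' s := h1
        have h4 := SS_act g' hg h3
        rw [vec_add, vec_single, vec_single, act_add, act_smul, act_smul, hA i, hA l] at h4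
        rw [vec_smul, vec_add, smul_add]
        exact h4
      have hw := no_weight_two hort hun (fun i => hall _ (hAR i)) hsum (by simp; omega) i
      have hne : wt (A i) ≠ 0 := by
        intro h0
        have h1 : supp (A i) = ∅ := Finset.card_eq_zero.1 h0
        have h3 := hun i
        rw [dt_eq_sum_supp, h1, Finset.sum_empty] at h3
        exact one_ne_zero h3.symm
      have hw1 : (supp (A i)).card = 1 := by
        have : (supp (A i)).card = wt (A i) := rfl
        omega
      obtain ⟨j, hj⟩ := Finset.card_eq_one.1 hw1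
      have hoff : ∀ c, c ≠ j → A i c = 0 := by
        intro c hc
        apply nz_supp
        rw [hj]
        simpa using hc
      have hval : act g' (e i) = A i j • e j := by
        rw [hA i]
        unfold vec
        rw [Finset.sum_eq_single j]
        · intro c _ hc
          rw [hoff c hc, zero_smul]
        · simp
      refine ⟨j, fun x hx => ?_⟩
      obtain ⟨a, rfl⟩ := hmem i x hx
      have h5 : ((((Subgroup.subtype (Cfsg.isometryGroup F (⇑Q))) g' : GL ι F)) : Matrix ι ι F) *ᵥ (a • e i) = act g' (a • e i) := rfl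
      rw [h5, act_smul, hval]
      exact (D j).smul_mem _ ((D j).smul_mem _ (hei j))

end Cfsg.Agent.Lib.Classical.Frame
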