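/-
Reflections on coordinates and the dichotomy for overgroups of the frame stabiliser in even dimension.
-/
import Mathlib
import Cfsg.Agent.Lib.Classical.Frame.Even4
import Cfsg.Agent.Lib.Classical.Frame.Main3

set_option autoImplicit false
set_option linter.unusedSectionVars false
set_option linter.unusedSimpArgs false
set_option linter.unusedVariables false

namespace Cfsg.Agent.Lib.Classical.Frame.Even

open Finset

variable {κ : Type} [Fintype κ] [DecidableEq κ] {F : Type*} [Field F] [Fintype F]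

/-- The linear map underlying a reflection. -/
noncomputable def rfL (α : κ → F) : (κ → F) →ₗ[F] (κ → F) where
  toFun x := x - (2 * dt α x) • α
  map_add' := by
    intro x y
    rw [dt_add_right]
    ext c
    simp only [Pi.sub_apply, Pi.add_apply, Pi.smul_apply, smul_eq_mul]
    ring
  map_smul' := by
    intro a x
    rw [dt_smul_right]
    ext c
    simp only [Pi.sub_apply, Pi.smul_apply, smul_eq_mul, RingHom.id_apply]
    ring

lemma rfL_apply (α x : κ → F) : rfL α x = x - (2 * dt α x) • α := rfl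

lemma rfL_invol {α : κ → F} (h : dt α α = 1) : Function.Involutive (rfL α) := by
  intro x
  rw [rfL_apply, rfL_apply, dt_sub_right, dt_smul_right, h]
  ext c
  simp only [Pi.sub_apply, Pi.smul_apply, smul_eq_mul]
  ring

/-- Reflections, as elements of the group. -/
noncomputable def rf (α : κ → F) : Aut κ F :=
  @dite _ (dt α α = 1) (Classical.propDecidable _) (fun h => LinearEquiv.ofInvolutive (rfL α) (rfL_invol h)) (fun _ => 1)

lemma rf_apply {α : κ → F} (h : dt α α = 1) (x : κ → F) : rf α x = x - (2 * dt α x) • α := by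
  unfold rf
  rw [dif_pos h]
  rfl

lemma rf_mul_self {α : κ → F} (h : dt α α = 1) : rf α * rf α = 1 := by
  apply LinearEquiv.ext
  intro x
  change rf α (rf α x) = x
  rw [rf_apply h, rf_apply h]
  exact rfL_invol h x

lemma rf_inv {α : κ → F} (h : dt α α = 1) : (rf α)⁻¹ = rf α := inv_eq_of_mul_eq_one_left (rf_mul_self h)

lemma rf_orth {α : κ → F} (h : dt α α = 1) (x y : κ → F) : dt (rf α x) (rf α y) = dt x y := by
  rw [rf_apply h, rf_apply h, dt_sub_left, dt_sub_right, dt_sub_right, dt_smul_left, dt_smul_left, dt_smul_right, dt_smul_right, h, dt_comm x α]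
  ring

/-- Conjugates of reflections. -/
lemma conj_rf {g : Aut κ F} (ho : ∀ x y, dt (g x) (g y) = dt x y) {α : κ → F} (h : dt α α = 1) : g * rf α * g⁻¹ = rf (g α) := by
  have h' : dt (g α) (g α) = 1 := by rw [ho, h]
  apply LinearEquiv.ext
  intro x
  change g (rf α (g⁻¹ x)) = rf (g α) x
  rw [rf_apply h, rf_apply h', map_sub, map_smul, Aut_apply_inv]
  have : dt α (g⁻¹ x) = dt (g α) x := by
    rw [← ho, Aut_apply_inv]
  rw [this]

lemma dt_ee_self (i : κ) : dt (ee i : κ → F) (ee i) = 1 := by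
  rw [dt_ee_ee, if_pos rfl]

/-- The sign change in two coordinates is a product of two reflections. -/
lemma rf_ee_mul (h2 : (2 : F) ≠ 0) {a b : κ} (hab : a ≠ b) : rf (ee a) * rf (ee b) = (flp {a, b} : Aut κ F) := by
  apply LinearEquiv.ext
  intro x
  ext c
  change rf (ee a) (rf (ee b) x) c = flp {a, b} x c
  rw [rf_apply (dt_ee_self a), rf_apply (dt_ee_self b), flp_apply, dt_sub_right, dt_smul_right, dt_ee_left, dt_ee_left, dt_ee_ee, if_neg hab]
  simp only [Pi.sub_apply, Pi.smul_apply, smul_eq_mul, ee_apply, Finset.mem_insert, Finset.mem_singleton]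
  by_cases h1 : c = a
  · subst h1
    simp [hab]
    ring
  · by_cases h3 : c = b
    · subst h3
      simp [h1]
      ring
    · simp [h1, h3]

/-- The hypotheses on the overgroup without the triviality condition. -/
structure PH₀ (𝔐 : Subgroup (Aut κ F)) (i₀ : κ) : Prop where
  orth : ∀ g ∈ 𝔐, ∀ x y, dt (g x) (g y) = dt x y
  flip : ∀ a b : κ, a ≠ b → (flp {a, b} : Aut κ F) ∈ 𝔐
  perm : ∀ σ : Equiv.Perm κ, Equiv.Perm.sign σ = 1 → (pm σ : Aut κ F) ∈ 𝔐
  root : ∀ u : F, 2 * (u * u) = 1 → ∀ i j : κ, i ≠ j → rf (Pi.single i u + Pi.single j u) * rf (ee i₀) ∈ 𝔐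

variable {𝔐 : Subgroup (Aut κ F)} {i₀ : κ}

/-- The set of unit vectors attached to an overgroup. -/
def RR (𝔐 : Subgroup (Aut κ F)) (i₀ : κ) : Set (κ → F) := {α | dt α α = 1 ∧ rf α * rf (ee i₀) ∈ 𝔐}

lemma PH₀.basis_mem (hP : PH₀ 𝔐 i₀) (h2 : (2 : F) ≠ 0) (i : κ) : rf (ee i) * rf (ee i₀) ∈ 𝔐 := by
  by_cases h : i = i₀
  · rw [h, rf_mul_self (dt_ee_self i₀)]
    exact 𝔐.one_mem
  · rw [rf_ee_mul h2 h]
    exact hP.flip _ _ h

lemma RR_mul {α β : κ → F} (hα : α ∈ RR 𝔐 i₀) (hβ : β ∈ RR 𝔐 i₀) : rf α * rf β ∈ 𝔐 := by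
  have h1 := 𝔐.mul_mem hα.2 (𝔐.inv_mem hβ.2)
  rw [_root_.mul_inv_rev, rf_inv (dt_ee_self i₀), rf_inv hβ.1] at h1
  have e : rf α * rf (ee i₀) * (rf (ee i₀) * rf β) = rf α * (rf (ee i₀) * rf (ee i₀)) * rf β := by group
  rw [e, rf_mul_self (dt_ee_self i₀), mul_one] at h1
  exact h1

/-- The set is closed. -/
theorem PH₀.closed (hP : PH₀ 𝔐 i₀) (h2 : (2 : F) ≠ 0) : Closed (RR 𝔐 i₀) := by
  have hb : ∀ i, (ee i : κ → F) ∈ RR 𝔐 i₀ := fun i => ⟨dt_ee_self i, hP.basis_mem h2 i⟩
  refine ⟨fun x hx => hx.1, hb, ?_, ?_, ?_⟩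
  · intro a ha x hx
    have hua := ha.1
    have hux := hx.1
    have hu : dt (x - (2 * dt a x) • a) (x - (2 * dt a x) • a) = 1 := by
      rw [← rf_apply hua, rf_orth hua, hux]
    refine ⟨hu, ?_⟩
    rw [← rf_apply hua, ← conj_rf (rf_orth hua) hux, rf_inv hua]
    have e : rf a * rf x * rf a * rf (ee i₀) = (rf a * rf (ee i₀)) * (rf x * rf (ee i₀))⁻¹ * (rf a * rf (ee i₀)) := by
      rw [_root_.mul_inv_rev, rf_inv hux, rf_inv (dt_ee_self i₀)]
      calc rf a * rf x * rf a * rf (ee i₀) = rf a * (rf (ee i₀) * rf (ee i₀)) * rf x * rf a * rf (ee i₀) := by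
            rw [rf_mul_self (dt_ee_self i₀), mul_one]
        _ = _ := by group
    rw [e]
    exact 𝔐.mul_mem (𝔐.mul_mem ha.2 (𝔐.inv_mem hx.2)) ha.2
  · intro σ hσ x hx
    have hm := hP.perm σ hσ
    have ho := hP.orth _ hm
    have hux := hx.1
    have e0 : pm σ x = x ∘ σ := rfl
    have hu : dt (pm σ x) (pm σ x) = 1 := by rw [ho, hux]
    refine ⟨by rw [← e0]; exact hu, ?_⟩
    rw [← e0, ← conj_rf ho hux]
    have e : pm σ * rf x * (pm σ)⁻¹ * rf (ee i₀) =
        pm σ * (rf x * rf (ee i₀)) * (pm σ)⁻¹ * (pm σ * rf (ee i₀) * (pm σ)⁻¹ * rf (ee i₀)) := by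
      calc pm σ * rf x * (pm σ)⁻¹ * rf (ee i₀) = pm σ * rf x * (rf (ee i₀) * rf (ee i₀)) * (pm σ)⁻¹ * rf (ee i₀) := by
            rw [rf_mul_self (dt_ee_self i₀), mul_one]
        _ = _ := by group
    rw [e]
    refine 𝔐.mul_mem (𝔐.mul_mem (𝔐.mul_mem hm hx.2) (𝔐.inv_mem hm)) ?_
    rw [conj_rf ho (dt_ee_self i₀)]
    have e2 : pm σ (ee i₀ : κ → F) = ee (σ⁻¹ i₀) := by
      ext c
      rw [pm_apply, Function.comp, ee_apply, ee_apply]
      by_cases hc : c = σ⁻¹ i₀
      · rw [if_pos hc, if_pos]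
        rw [hc]
        simp
      · rw [if_neg hc, if_neg]
        intro h
        apply hc
        rw [← h]
        simp
    rw [e2]
    exact hP.basis_mem h2 _
  · intro u hu i j hij
    refine ⟨?_, hP.root u hu i j hij⟩
    unfold dt
    have hsub : ∀ c, c ∉ ({i, j} : Finset κ) → (Pi.single i u + Pi.single j u : κ → F) c * (Pi.single i u + Pi.single j u : κ → F) c = 0 := by
      intro c hc
      have hc' : c ≠ i ∧ c ≠ j := by simpa using hc
      simp [Pi.single_apply, hc'.1, hc'.2]
    rw [← Finset.sum_subset (Finset.subset_univ ({i, j} : Finset κ)) (fun c _ hc => hsub c hc), Finset.sum_pair hij]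
    simp only [Pi.add_apply, Pi.single_apply, if_true, if_neg hij, if_neg hij.symm, add_zero, zero_add]
    linear_combination hu

/-- Trivial unit vectors belong to a closed set. -/
lemma triv_mem {R : Set (κ → F)} (hR : Closed R) (h2 : (2 : F) ≠ 0) {x : κ → F} (hx : dt x x = 1) (ht : Triv x) : x ∈ R := by
  classical
  rcases ht with h | ⟨h, hh⟩
  · -- weight at most one
    have hne : wt x ≠ 0 := by
      intro h0
      have h1 : supp x = ∅ := Finset.card_eq_zero.1 h0
      rw [dt_eq_sum_supp, h1, Finset.sum_empty] at hx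
      exact zero_ne_one hx
    have hw1 : (supp x).card = 1 := by
      have : (supp x).card = wt x := rfl
      omega
    obtain ⟨j, hj⟩ := Finset.card_eq_one.1 hw1
    have hoff : ∀ c, c ≠ j → x c = 0 := by
      intro c hc
      apply nz_supp
      rw [hj]
      simpa using hc
    have hsq : x j * x j = 1 := by
      rw [dt_eq_sum_supp, hj, Finset.sum_singleton] at hx
      exact hx
    have hval : x j = 1 ∨ x j = -1 := by
      have h3 : (x j - 1) * (x j + 1) = 0 := by linear_combination hsq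
      rcases mul_eq_zero.1 h3 with h4 | h4
      · left
        linear_combination h4
      · right
        linear_combination h4
    rcases hval with hv | hv
    · have : x = Pi.single j 1 := by
        ext c
        by_cases hc : c = j
        · rw [hc, hv]
          simp
        · rw [hoff c hc]
          simp [hc]
      rw [this]
      exact hR.basis j
    · have : x = - Pi.single j 1 := by
        ext c
        by_cases hc : c = j
        · rw [hc, hv]
          simp
        · rw [hoff c hc]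
          simp [hc]
      rw [this]
      exact hR.neg_mem (hR.basis j)
  · obtain ⟨c, d, hcd, hs⟩ := Finset.card_eq_two.1 h
    have hc : x c ≠ 0 := mem_supp.1 (by rw [hs]; simp)
    have hd : x d ≠ 0 := mem_supp.1 (by rw [hs]; simp)
    have hoff : ∀ i, i ≠ c → i ≠ d → x i = 0 := by
      intro i h1 h3
      apply nz_supp
      rw [hs]
      simp [h1, h3]
    have h1 := hh c hc
    have h3 := hh d hd
    have hroot := hR.root (x c) h1 c d hcd
    have h4 : (x d - x c) * (x d + x c) = 0 := by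
      apply mul_left_cancel₀ h2
      linear_combination h3 - h1
    rcases mul_eq_zero.1 h4 with h5 | h5
    · have : x = Pi.single c (x c) + Pi.single d (x c) := by
        ext i
        by_cases i1 : i = c
        · rw [i1]
          simp [hcd]
        · by_cases i2 : i = d
          · rw [i2]
            simp [hcd.symm]
            linear_combination h5
          · rw [hoff i i1 i2]
            simp [i1, i2]
      rw [this]
      exact hroot
    · have := hR.flip_one hroot d
      convert this using 1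
      ext i
      by_cases i1 : i = d
      · rw [i1]
        simp [hcd.symm]
        linear_combination h5
      · by_cases i2 : i = c
        · rw [i2]
          simp [hcd]
        · rw [hoff i i2 i1]
          simp [i1, i2]

/-- **Elements sending a coordinate vector to a trivial vector are monomial.** -/
theorem PH₀.triv_mon (hP : PH₀ 𝔐 i₀) (h2 : (2 : F) ≠ 0) (hc3 : 3 ≤ Fintype.card κ) (hT : ∀ x ∈ RR 𝔐 i₀, Triv x) {m : Aut κ F} (hm : m ∈ 𝔐) {i : κ} (ht : Triv (m (ee i))) : Mon m := by
  classical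
  have hcl := hP.closed h2
  have ho := hP.orth m hm
  have hi : m (ee i) ∈ RR 𝔐 i₀ := triv_mem hcl h2 (by rw [ho, dt_ee_self]) ht
  have hb : (ee i : κ → F) ∈ RR 𝔐 i₀ := hcl.basis i
  have hact : ∀ y ∈ RR 𝔐 i₀, m y ∈ RR 𝔐 i₀ := by
    intro y hy
    have huy := hy.1
    refine ⟨by rw [ho, huy], ?_⟩
    have e : rf (m y) * rf (ee i₀) = (rf (m y) * rf (m (ee i))) * (rf (m (ee i)) * rf (ee i₀)) := by
      calc rf (m y) * rf (ee i₀) = rf (m y) * (rf (m (ee i)) * rf (m (ee i))) * rf (ee i₀) := by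
            rw [rf_mul_self hi.1, mul_one]
        _ = _ := by group
    rw [e]
    refine 𝔐.mul_mem ?_ hi.2
    rw [← conj_rf ho huy, ← conj_rf ho (dt_ee_self i)]
    have e2 : m * rf y * m⁻¹ * (m * rf (ee i) * m⁻¹) = m * (rf y * rf (ee i)) * m⁻¹ := by group
    rw [e2]
    exact 𝔐.mul_mem (𝔐.mul_mem hm (RR_mul hy hb)) (𝔐.inv_mem hm)
  have hAR : ∀ l, m (ee l) ∈ RR 𝔐 i₀ := fun l => hact _ (hcl.basis l)
  have hort : ∀ l l', l ≠ l' → dt (m (ee l)) (m (ee l')) = 0 := by
    intro l l' hl
    rw [ho, dt_ee_ee, if_neg hl]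
  have hun : ∀ l, dt (m (ee l)) (m (ee l)) = 1 := by
    intro l
    rw [ho, dt_ee_self]
  have hsum : ∀ (u : F) (l l' : κ), 2 * (u * u) = 1 → l ≠ l' → Triv (u • (m (ee l) + m (ee l'))) := by
    intro u l l' hu hl
    apply hT
    have h1 := hact _ (hcl.root u hu l l' hl)
    have h3 : m (Pi.single l u + Pi.single l' u) = u • (m (ee l) + m (ee l')) := by
      rw [smul_add, ← map_smul, ← map_smul, ← map_add]
      apply congrArg m
      ext c
      simp [ee, Pi.single_apply]
    rwa [h3] at h1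
  intro l
  have hw := no_weight_two hort hun (fun l => hT _ (hAR l)) hsum hc3 l
  have hne : wt (m (ee l)) ≠ 0 := by
    intro h0
    have h1 : supp (m (ee l)) = ∅ := Finset.card_eq_zero.1 h0
    have h3 := hun l
    rw [dt_eq_sum_supp, h1, Finset.sum_empty] at h3
    exact one_ne_zero h3.symm
  have hw1 : (supp (m (ee l))).card = 1 := by
    have : (supp (m (ee l))).card = wt (m (ee l)) := rfl
    omega
  obtain ⟨j, hj⟩ := Finset.card_eq_one.1 hw1
  have hoff : ∀ c, c ≠ j → m (ee l) c = 0 := by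
    intro c hc
    apply nz_supp
    rw [hj]
    simpa using hc
  refine ⟨j, m (ee l) j, ?_⟩
  ext c
  by_cases hc : c = j
  · rw [hc]
    simp [ee]
  · rw [hoff c hc]
    simp [ee, Pi.single_apply, hc]

/-- **The dichotomy.** -/
theorem PH₀.dichotomy (hP : PH₀ 𝔐 i₀) (hprime : (Fintype.card F).Prime) (hodd : Odd (Fintype.card F)) (h2 : (2 : F) ≠ 0) (hn : 14 ≤ Fintype.card κ) :
    (∀ v : κ → F, dt v v = 1 → rf v * rf (ee i₀) ∈ 𝔐) ∨ (∀ g ∈ 𝔐, Mon g) := by
  by_cases hall : ∃ x ∈ RR 𝔐 i₀, ¬ Triv x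
  · left
    obtain ⟨x, hx, hnt⟩ := hall
    intro v hv
    exact (closure_final hprime hodd (by omega) (hP.closed h2) hx hnt v hv).2
  · right
    push Not at hall
    have hPH : PH 𝔐 := ⟨hP.orth, hP.flip, hP.perm, fun m hm i ht => hP.triv_mon h2 (by omega) hall hm ht⟩
    intro g hg
    exact all_mon hPH h2 hn hg

end Cfsg.Agent.Lib.Classical.Frame.Even
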