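/-
Maximality of the stabiliser of an orthogonal frame in `Ω` of even dimension over a prime field.
-/
import Mathlib
import Cfsg.Agent.Lib.Classical.Frame.Even5

set_option autoImplicit false
set_option linter.unusedSectionVars false
set_option linter.unusedSimpArgs false
set_option linter.unusedVariables false

namespace Cfsg.Agent.Lib.Classical.Frame.Even

open Matrix QuadraticMap Module Cfsg.Geo
open Cfsg.Agent.Lib.Classical.Orth.Basic
open Cfsg.Agent.Lib.Classical.Orth.Spinor
open Cfsg.Agent.Lib.Classical.Orth.CartanDieudonne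
open Cfsg.Agent.Lib.Classical.Orth.ReflClass
open Cfsg.Agent.Lib.Classical.Decomp

variable {ι : Type} [Fintype ι] [DecidableEq ι] {F : Type*} [Field F] [Fintype F]
variable {Q : QuadraticForm F (ι → F)} {t : ℕ}

set_option quotPrecheck false in
local notation "𝔣" => polar (⇑Q)
set_option quotPrecheck false in
local notation "𝕀" => ↥(Cfsg.isometryGroup F (⇑Q))

variable {e : Fin t → ι → F} {s : F}

/-- Coordinates as a linear map. -/
def vecL (e : Fin t → ι → F) : (Fin t → F) →ₗ[F] (ι → F) where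
  toFun := vec e
  map_add' := vec_add e
  map_smul' := fun a α => vec_smul e a α

/-- Coordinates as a linear equivalence. -/
noncomputable def phi (fr : Frm Q e s) (h2 : (2 : F) ≠ 0) : (Fin t → F) ≃ₗ[F] (ι → F) :=
  LinearEquiv.ofBijective (vecL e)
    ⟨fun _ _ h => fr.vec_inj h2 h, fun x => by
      obtain ⟨α, hα⟩ := fr.span x
      exact ⟨α, hα.symm⟩⟩

lemma phi_apply (fr : Frm Q e s) (h2 : (2 : F) ≠ 0) (α : Fin t → F) : phi fr h2 α = vec e α := rfl

lemma vec_phi_symm (fr : Frm Q e s) (h2 : (2 : F) ≠ 0) (x : ι → F) : vec e ((phi fr h2).symm x) = x := by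
  rw [← phi_apply fr h2, LinearEquiv.apply_symm_apply]

/-- The action on coordinates. -/
noncomputable def rho (fr : Frm Q e s) (h2 : (2 : F) ≠ 0) (g : 𝕀) : Aut (Fin t) F where
  toFun α := (phi fr h2).symm (act g (vec e α))
  invFun α := (phi fr h2).symm (act g⁻¹ (vec e α))
  map_add' := by
    intro α β
    rw [vec_add, act_add, map_add]
  map_smul' := by
    intro a α
    rw [vec_smul, act_smul, map_smul]
    rfl
  left_inv := by
    intro α
    simp only [vec_phi_symm fr h2, act_inv_act]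
    rw [← phi_apply fr h2, LinearEquiv.symm_apply_apply]
  right_inv := by
    intro α
    simp only [vec_phi_symm fr h2, act_act_inv]
    rw [← phi_apply fr h2, LinearEquiv.symm_apply_apply]

lemma vec_rho (fr : Frm Q e s) (h2 : (2 : F) ≠ 0) (g : 𝕀) (α : Fin t → F) : vec e (rho fr h2 g α) = act g (vec e α) :=
  vec_phi_symm fr h2 _

lemma rho_eq_of (fr : Frm Q e s) (h2 : (2 : F) ≠ 0) (g : 𝕀) {α β : Fin t → F} (h : act g (vec e α) = vec e β) : rho fr h2 g α = β := by
  apply fr.vec_inj h2
  rw [vec_rho, h]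

/-- The homomorphism to the group of coordinate automorphisms. -/
noncomputable def rhoH (fr : Frm Q e s) (h2 : (2 : F) ≠ 0) : 𝕀 →* Aut (Fin t) F where
  toFun := rho fr h2
  map_one' := by
    apply LinearEquiv.ext
    intro α
    apply rho_eq_of
    rw [act_one]
    rfl
  map_mul' := by
    intro g h
    apply LinearEquiv.ext
    intro α
    apply rho_eq_of
    rw [act_mul]
    change _ = vec e (rho fr h2 g (rho fr h2 h α))
    rw [vec_rho, vec_rho]

lemma rhoH_apply (fr : Frm Q e s) (h2 : (2 : F) ≠ 0) (g : 𝕀) : rhoH fr h2 g = rho fr h2 g := rfl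

lemma rho_inj (fr : Frm Q e s) (h2 : (2 : F) ≠ 0) {g h : 𝕀} (hgh : rho fr h2 g = rho fr h2 h) : g = h := by
  apply ext_act
  intro x
  obtain ⟨α, rfl⟩ := fr.span x
  rw [← vec_rho fr h2, hgh, vec_rho]

lemma rho_dt (fr : Frm Q e s) (h2 : (2 : F) ≠ 0) (g : 𝕀) (α β : Fin t → F) : dt (rho fr h2 g α) (rho fr h2 g β) = dt α β := by
  have h1 := fr.polar_vec (rho fr h2 g α) (rho fr h2 g β)
  rw [vec_rho, vec_rho, polar_act, fr.polar_vec] at h1
  exact (mul_left_cancel₀ (mul_ne_zero h2 fr.hs) h1).symm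

lemma rho_refl (fr : Frm Q e s) (h2 : (2 : F) ≠ 0) {α : Fin t → F} (hu : dt α α = 1) (hv : Q (vec e α) ≠ 0) :
    rho fr h2 (reflectionIso Q (vec e α) hv) = rf α := by
  apply LinearEquiv.ext
  intro x
  apply rho_eq_of
  rw [fr.act_refl_unit hv h2 hu, rf_apply hu]

/-- Unit vectors have norm `s`. -/
lemma Q_unit (fr : Frm Q e s) (h2 : (2 : F) ≠ 0) {α : Fin t → F} (hu : dt α α = 1) : Q (vec e α) = s := by
  rw [fr.Q_vec h2, hu, mul_one]

lemma Q_unit_ne (fr : Frm Q e s) (h2 : (2 : F) ≠ 0) {α : Fin t → F} (hu : dt α α = 1) : Q (vec e α) ≠ 0 := by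
  rw [Q_unit fr h2 hu]
  exact fr.hs

variable {D : Fin t → Submodule F (ι → F)} {π : Fin t → (ι → F) →ₗ[F] (ι → F)} {M : Subgroup (GL ι F)}

/-- The group of coordinate automorphisms attached to an overgroup. -/
noncomputable def MM (fr : Frm Q e s) (h2 : (2 : F) ≠ 0) (M : Subgroup (GL ι F)) : Subgroup (Aut (Fin t) F) :=
  (M.comap (Subgroup.subtype (Cfsg.isometryGroup F (⇑Q)))).map (rhoH fr h2)

lemma mem_MM (fr : Frm Q e s) (h2 : (2 : F) ≠ 0) {g : 𝕀} (hg : (g : GL ι F) ∈ M) : rho fr h2 g ∈ MM fr h2 M :=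
  ⟨g, hg, rfl⟩

lemma of_mem_MM (fr : Frm Q e s) (h2 : (2 : F) ≠ 0) {g : 𝕀} (hg : rho fr h2 g ∈ MM fr h2 M) : (g : GL ι F) ∈ M := by
  obtain ⟨g', hg', e'⟩ := hg
  have : g' = g := rho_inj fr h2 e'
  rw [← this]
  exact hg'

/-- Reflections in vectors of norm `s` are involutions. -/
lemma refl_sq (fr : Frm Q e s) (h2 : (2 : F) ≠ 0) {v : ι → F} (hv : Q v ≠ 0) (hQv : Q v = s) : reflectionIso Q v hv * reflectionIso Q v hv = 1 := by
  obtain ⟨α, rfl⟩ := fr.span v
  have hu : dt α α = 1 := by
    rw [fr.Q_vec h2] at hQv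
    exact mul_left_cancel₀ fr.hs (by rw [hQv, mul_one])
  apply rho_inj fr h2
  rw [← rhoH_apply, map_mul, rhoH_apply, rho_refl fr h2 hu, rf_mul_self hu, ← rhoH_apply, map_one]

/-- Two reflections in vectors of the same norm, both permuting the frame lines, lie in the overgroup. -/
lemma two_refl_mem (h2 : (2 : F) ≠ 0) (hle : decompositionStabilizer D ⊓ omegaGL (⇑Q) ≤ M) {u v : ι → F} (hu : Q u ≠ 0) (hv : Q v ≠ 0) (huv : Q u = Q v)
    (hsu : ((reflectionIso Q u hu : 𝕀) : GL ι F) ∈ decompositionStabilizer D) (hsv : ((reflectionIso Q v hv : 𝕀) : GL ι F) ∈ decompositionStabilizer D) :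
    ((reflectionIso Q u hu * reflectionIso Q v hv : 𝕀) : GL ι F) ∈ M := by
  apply hle
  refine ⟨(decompositionStabilizer D).mul_mem hsu hsv, ?_⟩
  refine ⟨_, reflection_mul_mem_omega Q h2 v u hv hu ?_, rfl⟩
  rw [huv, div_self hv]
  exact IsSquare.one

theorem PH0_of (fr : Frm Q e s) (h2 : (2 : F) ≠ 0) (dec : Dec Q 1 D π) (hei : ∀ i, e i ∈ D i) (hmem : ∀ i, ∀ x ∈ D i, ∃ a : F, x = a • e i)
    (hle : decompositionStabilizer D ⊓ omegaGL (⇑Q) ≤ M) (i₀ : Fin t) : PH₀ (MM fr h2 M) i₀ := by
  have hs := fr.hs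
  have hee : ∀ i, dt (ee i : Fin t → F) (ee i) = 1 := dt_ee_self
  have hrfmem : ∀ {α β : Fin t → F} (hα : dt α α = 1) (hβ : dt β β = 1), ((reflectionIso Q (vec e α) (Q_unit_ne fr h2 hα) : 𝕀) : GL ι F) ∈ decompositionStabilizer D →
      ((reflectionIso Q (vec e β) (Q_unit_ne fr h2 hβ) : 𝕀) : GL ι F) ∈ decompositionStabilizer D → rf α * rf β ∈ MM fr h2 M := by
    intro α β hα hβ h1 h3
    have := two_refl_mem h2 hle (Q_unit_ne fr h2 hα) (Q_unit_ne fr h2 hβ) (by rw [Q_unit fr h2 hα, Q_unit fr h2 hβ]) h1 h3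
    have h4 := mem_MM fr h2 this
    rw [← rhoH_apply, map_mul, rhoH_apply, rhoH_apply, rho_refl fr h2 hα, rho_refl fr h2 hβ] at h4
    exact h4
  have hfr : ∀ i, ((reflectionIso Q (vec e (ee i)) (Q_unit_ne fr h2 (hee i)) : 𝕀) : GL ι F) ∈ decompositionStabilizer D :=
    fun i => frame_refl_stab fr h2 dec hei hmem i _
  refine ⟨?_, ?_, ?_, ?_⟩
  · rintro g ⟨g', -, rfl⟩ x y
    exact rho_dt fr h2 g' x y
  · intro a b hab
    rw [← rf_ee_mul h2 hab]
    exact hrfmem (hee a) (hee b) (hfr a) (hfr b)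
  · -- permutations
    have hsw : ∀ a b : Fin t, a ≠ b → ∃ hv : Q (vec e (pr a b (1 : F) (-1))) ≠ 0, rho fr h2 (reflectionIso Q (vec e (pr a b (1 : F) (-1))) hv) = pm (Equiv.swap a b) := by
      intro a b hab
      obtain ⟨hv, h1⟩ := swap_coord fr h2 hab (0 : Fin t → F)
      refine ⟨hv, ?_⟩
      apply LinearEquiv.ext
      intro x
      apply rho_eq_of
      obtain ⟨hv', h3⟩ := swap_coord fr h2 hab x
      exact h3.symm
    have hdouble : ∀ a b c d : Fin t, a ≠ b → c ≠ d → (pm (Equiv.swap a b) * pm (Equiv.swap c d) : Aut (Fin t) F) ∈ MM fr h2 M := by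
      intro a b c d hab hcd
      obtain ⟨hv, h1⟩ := hsw a b hab
      obtain ⟨hv', h3⟩ := hsw c d hcd
      have := two_refl_mem h2 hle hv hv' (by rw [hQ_pair fr h2 hab, hQ_pair fr h2 hcd])
        (pair_stab fr h2 dec hei hmem hab one_ne_zero (neg_ne_zero.2 one_ne_zero) (by ring) hv)
        (pair_stab fr h2 dec hei hmem hcd one_ne_zero (neg_ne_zero.2 one_ne_zero) (by ring) hv')
      have h4 := mem_MM fr h2 this
      rw [← rhoH_apply, map_mul, rhoH_apply, rhoH_apply, h1, h3] at h4
      exact h4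
    have hmul : ∀ σ τ : Equiv.Perm (Fin t), (pm (σ * τ) : Aut (Fin t) F) = pm τ * pm σ := by
      intro σ τ
      rfl
    have key : ∀ σ : Equiv.Perm (Fin t), (Equiv.Perm.sign σ = 1 → (pm σ : Aut (Fin t) F) ∈ MM fr h2 M) ∧
        (Equiv.Perm.sign σ = -1 → ∀ a b : Fin t, a ≠ b → (pm σ * pm (Equiv.swap a b) : Aut (Fin t) F) ∈ MM fr h2 M) := by
      intro σ
      induction σ using Equiv.Perm.swap_induction_on with
      | one =>
        refine ⟨fun _ => ?_, fun h => ?_⟩
        · have : (pm (1 : Equiv.Perm (Fin t)) : Aut (Fin t) F) = 1 := rfl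
          rw [this]
          exact (MM fr h2 M).one_mem
        · rw [Equiv.Perm.sign_one] at h
          exact absurd h (by decide)
      | swap_mul f x y hxy ih =>
        have hsign : Equiv.Perm.sign (Equiv.swap x y * f) = - Equiv.Perm.sign f := by
          rw [Equiv.Perm.sign_mul, Equiv.Perm.sign_swap hxy]
          simp
        rw [hmul]
        refine ⟨fun h => ?_, fun h => ?_⟩
        · apply ih.2 _ x y hxy
          rw [hsign] at h
          rw [← neg_neg (Equiv.Perm.sign f), h]
        · intro a b hab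
          have hf : Equiv.Perm.sign f = 1 := by
            rw [hsign] at h
            rw [← neg_neg (Equiv.Perm.sign f), h]
            rfl
          rw [mul_assoc]
          exact (MM fr h2 M).mul_mem (ih.1 hf) (hdouble x y a b hxy hab)
    intro σ hσ
    exact (key σ).1 hσ
  · intro u hu i j hij
    have hu0 : u ≠ 0 := by
      rintro rfl
      simp at hu
    have hα : dt (pr i j u u) (pr i j u u) = 1 := by
      rw [pr_eq, dt_add_right, dt_single_right, dt_single_right]
      simp only [Pi.add_apply, Pi.single_apply, if_true, if_neg hij, if_neg hij.symm]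
      linear_combination hu
    rw [← pr_eq]
    exact hrfmem hα (hee i₀) (pair_stab fr h2 dec hei hmem hij hu0 hu0 rfl _) (hfr i₀)

/-- **Maximality of the stabiliser of an orthogonal frame in even dimension.** -/
theorem frame_maximal_even (hprime : (Fintype.card F).Prime) (hoddF : Odd (Fintype.card F)) (hQ : (polarBilin Q).Nondegenerate) (h2 : (2 : F) ≠ 0)
    (ht14 : 14 ≤ t) (hcard : 5 ≤ Fintype.card ι) (dec : Dec Q 1 D π)
    (iso : ∀ i j, AreIsometricFor (⇑Q) (D i) (D j)) :
    IsMaximalIn (omegaGL (⇑Q)) (decompositionStabilizer D ⊓ omegaGL (⇑Q)) := by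
  classical
  let i₀ : Fin t := ⟨0, by omega⟩
  obtain ⟨e, s, fr, hei, hmem⟩ := exists_frame h2 dec iso i₀
  have hs := fr.hs
  refine ⟨?_, ?_⟩
  · -- properness
    refine SetLike.lt_iff_le_and_exists.2 ⟨inf_le_right, ?_⟩
    obtain ⟨a, j₀, j₁, j₂, n01, n02, n12, hu, h0, h1, h3⟩ := exists_unit3 hprime hoddF (t := t) (by omega)
    have hv : Q (vec e a) ≠ 0 := Q_unit_ne fr h2 hu
    have hb : Q (vec e (ee j₁)) ≠ 0 := Q_unit_ne fr h2 (dt_ee_self j₁)
    have hgΩ := reflection_mul_mem_omega Q h2 (vec e (ee j₁)) (vec e a) hb hv (by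
      rw [Q_unit fr h2 hu, Q_unit fr h2 (dt_ee_self j₁), div_self hs]
      exact IsSquare.one)
    refine ⟨_, ⟨_, hgΩ, rfl⟩, ?_⟩
    rintro ⟨⟨σ, hσ⟩, -⟩
    have h4 : ((Matrix.toLin' (((Subgroup.subtype (Cfsg.isometryGroup F (⇑Q))) (reflectionIso Q (vec e a) hv * reflectionIso Q (vec e (ee j₁)) hb) : GL ι F) : Matrix ι ι F)) (e j₀))
        ∈ D (σ j₀) := by
      rw [← hσ j₀]
      exact Submodule.mem_map_of_mem (hei j₀)
    obtain ⟨b, hb'⟩ := hmem _ _ h4
    have h5 : act (reflectionIso Q (vec e a) hv * reflectionIso Q (vec e (ee j₁)) hb) (e j₀) = b • e (σ j₀) := hb'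
    have e0 : e j₀ = vec e (ee j₀) := fr.e_eq j₀
    have hfixr : act (reflectionIso Q (vec e (ee j₁)) hb) (vec e (ee j₀)) = vec e (ee j₀) := by
      rw [fr.act_refl_unit hb h2 (dt_ee_self j₁), dt_ee_ee, if_neg n01.symm]
      simp
    rw [act_mul, e0, hfixr, fr.act_refl_unit hv h2 hu, ← vec_single] at h5
    have h7 := fr.vec_inj h2 h5
    rw [dt_ee_right] at h7
    have h8 : ∀ c, c ≠ j₀ → c ≠ σ j₀ → a c = 0 := by
      intro c hc hc'
      have := congrFun h7 c
      simp only [Pi.sub_apply, Pi.smul_apply, smul_eq_mul, ee_apply, Pi.single_apply, if_neg hc, if_neg hc'] at this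
      have h9 : (2 * a j₀) * a c = 0 := by linear_combination -this
      exact (mul_eq_zero.1 h9).resolve_left (mul_ne_zero h2 h0)
    by_cases h9 : j₁ = σ j₀
    · exact h3 (h8 j₂ n02.symm (fun h => n12 (h9.trans h.symm)))
    · exact h1 (h8 j₁ n01.symm h9)
  · intro M' hH hMΩ
    have hP := PH0_of fr h2 dec hei hmem hH i₀
    have hi₀ : dt (ee i₀ : Fin t → F) (ee i₀) = 1 := dt_ee_self i₀
    have hr₀ : Q (vec e (ee i₀)) ≠ 0 := Q_unit_ne fr h2 hi₀
    set r₀ : 𝕀 := reflectionIso Q (vec e (ee i₀)) hr₀ with hr₀d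
    rcases hP.dichotomy hprime hoddF h2 (by simpa using ht14) with hall | hall
    · right
      refine le_antisymm hMΩ ?_
      -- products of reflections
      have hrr : ∀ (v : ι → F) (hv : Q v ≠ 0), Q v = s → ((reflectionIso Q v hv * r₀ : 𝕀) : GL ι F) ∈ M' := by
        intro v hv hQv
        obtain ⟨α, rfl⟩ := fr.span v
        have hu : dt α α = 1 := by
          rw [fr.Q_vec h2] at hQv
          exact mul_left_cancel₀ hs (by rw [hQv, mul_one])
        have h1 := hall α hu
        rw [← rho_refl fr h2 hu hv, ← rho_refl fr h2 hi₀ hr₀, ← rhoH_apply, ← rhoH_apply, ← map_mul, rhoH_apply] at h1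
        exact of_mem_MM fr h2 h1
      have hr₀2 : r₀ * r₀ = 1 := by
        apply rho_inj fr h2
        rw [← rhoH_apply, map_mul, rhoH_apply, hr₀d, rho_refl fr h2 hi₀ hr₀, rf_mul_self hi₀]
        rw [← rhoH_apply, map_one]
      have hcl : ∀ g ∈ classGroup Q s, (g : GL ι F) ∈ M' ∨ ((g * r₀ : 𝕀) : GL ι F) ∈ M' := by
        intro g hg
        unfold classGroup at hg
        have hstep : ∀ (x y : 𝕀), (∃ (v : ι → F) (t' : F), t' ≠ 0 ∧ Q v = s * t' ^ 2 ∧ ((y : GL ι F) : Matrix ι ι F) = Cfsg.reflectionMatrix (⇑Q) v) →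
            ((x : GL ι F) ∈ M' ∨ ((x * r₀ : 𝕀) : GL ι F) ∈ M') → (y * y = 1 ∧ (((x * y : 𝕀) : GL ι F) ∈ M' ∨ ((x * y * r₀ : 𝕀) : GL ι F) ∈ M')) := by
          rintro x y ⟨v, t', ht', hQv, hgv⟩ hx
          have hs2 : t'⁻¹ ≠ 0 := inv_ne_zero ht'
          have hQv0 : Q v ≠ 0 := by
            rw [hQv]
            exact mul_ne_zero hs (pow_ne_zero _ ht')
          have hQv' : Q (t'⁻¹ • v) = s := by
            rw [Q_smul, hQv]
            field_simp
          have h0 : Q (t'⁻¹ • v) ≠ 0 := by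
            rw [hQv']
            exact hs
          have hr : reflectionIso Q (t'⁻¹ • v) h0 = y := by
            apply Subtype.ext
            apply Units.ext
            rw [hgv]
            change Cfsg.reflectionMatrix (⇑Q) (t'⁻¹ • v) = Cfsg.reflectionMatrix (⇑Q) v
            exact reflectionMatrix_smul Q t'⁻¹ hs2 v hQv0
          have hm := hrr _ h0 hQv'
          rw [hr] at hm
          have hy2 : y * y = 1 := by
            rw [← hr]
            exact refl_sq fr h2 h0 hQv'
          refine ⟨hy2, ?_⟩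
          rcases hx with hx | hx
          · right
            have e : x * y * r₀ = x * (y * r₀) := mul_assoc _ _ _
            rw [e]
            exact M'.mul_mem hx hm
          · left
            have hinv : ((r₀ * y : 𝕀) : GL ι F) ∈ M' := by
              have h9 := M'.inv_mem hm
              have e9 : (((y * r₀ : 𝕀) : GL ι F))⁻¹ = ((r₀ * y : 𝕀) : GL ι F) := by
                apply inv_eq_of_mul_eq_one_left
                have : (r₀ * y) * (y * r₀) = 1 := by
                  rw [mul_assoc, ← mul_assoc y, hy2, one_mul, hr₀2]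
                exact congrArg (Subtype.val) this
              rwa [e9] at h9
            have h10 := M'.mul_mem hx hinv
            have e10 : x * r₀ * (r₀ * y) = x * y := by
              rw [mul_assoc, ← mul_assoc r₀, hr₀2, one_mul]
            rw [← e10]
            exact h10
        induction hg using Subgroup.closure_induction_right with
        | one =>
          left
          exact M'.one_mem
        | mul_right x hx y hy ih =>
          exact (hstep x y hy ih).2
        | mul_inv_cancel x hx y hy ih =>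
          have h1 := hstep x y hy ih
          have : y⁻¹ = y := inv_eq_of_mul_eq_one_left h1.1
          rw [this]
          exact h1.2
      have hidx := classGroup_index (Q := Q) hQ h2 (by omega) (Or.inr (Or.inl hcard)) hs
      have hΩ : Cfsg.Omega F (⇑Q) ≤ classGroup Q s := by
        have hnorm : (classGroup Q s).Normal := Subgroup.normal_of_index_eq_two hidx
        change commutator _ ≤ _
        rw [commutator_def, Subgroup.commutator_le]
        intro g₁ _ g₂ _
        rw [commutatorElement_def, Subgroup.mul_mem_iff_of_index_two hidx, inv_mem_iff]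
        constructor
        · intro h
          have := hnorm.conj_mem _ h g₁⁻¹
          simpa [mul_assoc] using this
        · intro h
          exact hnorm.conj_mem _ h g₁
      rintro _ ⟨g, hgΩ, rfl⟩
      rcases hcl g (hΩ hgΩ) with h1 | h1
      · exact h1
      · exfalso
        obtain ⟨g', hg'Ω, hg'⟩ := hMΩ h1
        have hg'2 : g' = g * r₀ := Subtype.ext hg'
        have hr₀Ω : r₀ ∈ Cfsg.Omega F (⇑Q) := by
          have := (Cfsg.Omega F (⇑Q)).mul_mem ((Cfsg.Omega F (⇑Q)).inv_mem hgΩ) hg'Ω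
          rwa [hg'2, inv_mul_cancel_left] at this
        obtain ⟨h3, h4⟩ := (mem_omega_iff Q hQ h2 _).1 hr₀Ω
        rw [hr₀d, plusSign_reflection Q h2] at h3
        rw [hr₀d, spinorSign_reflection Q h2] at h4
        by_cases hsq : IsSquare (Q (vec e (ee i₀)))
        · rw [if_pos hsq] at h3
          exact absurd h3 (by decide)
        · rw [if_neg hsq] at h4
          exact absurd h4 (by decide)
    · left
      refine le_antisymm ?_ hH
      intro g hg
      refine ⟨?_, hMΩ hg⟩
      obtain ⟨g', hg'Ω, rfl⟩ := hMΩ hg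
      apply mem_stab_of_maps dec one_pos
      intro i
      change ((g' : 𝕀) : GL ι F) ∈ M' at hg
      obtain ⟨j, b, hb⟩ := hall _ (mem_MM fr h2 hg) i
      refine ⟨j, fun x hx => ?_⟩
      obtain ⟨a, rfl⟩ := hmem i x hx
      have h5 : (((Subgroup.subtype (Cfsg.isometryGroup F (⇑Q))) g' : GL ι F) : Matrix ι ι F) *ᵥ (a • e i) = act g' (a • e i) := rfl
      have h6 : act g' (e i) = b • e j := by
        have e0 : e i = vec e (ee i) := fr.e_eq i
        rw [e0, ← vec_rho fr h2, hb, vec_smul]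
        congr 1
        exact (fr.e_eq j).symm
      rw [h5, act_smul, h6]
      exact (D j).smul_mem _ ((D j).smul_mem _ (hei j))

end Cfsg.Agent.Lib.Classical.Frame.Even
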